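import Cfsg.Agent.H99.OField
import Cfsg.Agent.H9.SpAschT
import Cfsg.Agent.H98.Linear

/-! Tensor decompositions and extraspecial normalisers for orthogonal groups in even dimension. -/

set_option autoImplicit false
set_option linter.unusedSectionVars false
set_option linter.unusedVariables false
set_option linter.unusedSimpArgs false

namespace Cfsg.Agent.H99

open scoped MatrixGroups Matrix Cfsg.Agent.H11 Kronecker commutatorElement
open Cfsg.Geo QuadraticMap Module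
open Cfsg.Agent.H98

variable {ι : Type} [Fintype ι] [DecidableEq ι] {F : Type*} [Field F]
variable {Q : QuadraticForm F (ι → F)}

section Tensor
variable {a b : ℕ} {e : ι ≃ Fin a × Fin b} {P : GL ι F} {ε₁ ε₂ : F}
  {f₁ : (Fin a → F) → (Fin a → F) → F} {f₂ : (Fin b → F) → (Fin b → F) → F}

/-- The linear map `v ↦ u ⊗ v`. -/
def sliceMap (e : ι ≃ Fin a × Fin b) (P : GL ι F) (u : Fin a → F) : (Fin b → F) →ₗ[F] (ι → F) where
  toFun v := frmV e P (H9.tp u v)
  map_add' v w := by rw [H9.tp_add_right, map_add]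
  map_smul' c v := by rw [H9.tp_smul_right, map_smul]; rfl

theorem sliceMap_apply (u : Fin a → F) (v : Fin b → F) :
    sliceMap e P u v = frmV e P (H9.tp u v) := rfl

theorem sliceMap_injective {u : Fin a → F} (hu : u ≠ 0) : Function.Injective (sliceMap e P u) := by
  refine (injective_iff_map_eq_zero _).2 fun v hv => ?_
  by_contra h
  exact H9.tp_ne_zero hu h ((map_eq_zero_iff _ (frmV e P).injective).1 hv)

/-- The subspace `u ⊗ F^b`. -/
def slice (e : ι ≃ Fin a × Fin b) (P : GL ι F) (u : Fin a → F) : Submodule F (ι → F) :=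
  LinearMap.range (sliceMap e P u)

theorem finrank_slice {u : Fin a → F} (hu : u ≠ 0) : finrank F (slice e P u) = b := by
  rw [slice, LinearMap.finrank_range_of_inj (sliceMap_injective hu)]; simp

theorem slice_neg (u : Fin a → F) : slice e P (-u) = slice e P u := by
  have : ∀ u : Fin a → F, slice e P (-u) ≤ slice e P u := by
    rintro u _ ⟨v, rfl⟩
    refine ⟨-v, ?_⟩
    rw [sliceMap_apply, sliceMap_apply]; congr 1; ext; simp [H9.tp]
  exact le_antisymm (this u) (by simpa using this (-u))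

theorem map_slice {g : GL ι F} {x : GL (Fin a) F} {y : GL (Fin b) F}
    (h : (g : Matrix ι ι F) = frm e P ((x : Matrix (Fin a) (Fin a) F) ⊗ₖ (y : Matrix (Fin b) (Fin b) F)))
    (u : Fin a → F) : (slice e P u).map (Matrix.toLin' (g : Matrix ι ι F)) =
      slice e P ((x : Matrix (Fin a) (Fin a) F) *ᵥ u) := by
  ext z
  constructor
  · rintro ⟨_, ⟨v, rfl⟩, rfl⟩
    exact ⟨_, (H9.mulVec_frmV_tp h u v).symm⟩
  · rintro ⟨v, rfl⟩
    refine ⟨_, ⟨((y⁻¹ : GL (Fin b) F) : Matrix (Fin b) (Fin b) F) *ᵥ v, rfl⟩, ?_⟩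
    rw [Matrix.toLin'_apply, sliceMap_apply, H9.mulVec_frmV_tp h, mulVec_inv_mulVec]; rfl

theorem plus_of_pure {b : ℕ} {e : ι ≃ Fin 2 × Fin b} (h : ∀ u v, Q (frmV e P (H9.tp u v)) = 0) :
    IsPlusTypeOn ⇑Q ⊤ := by
  refine ⟨slice e P 1, le_top, by rintro _ ⟨v, rfl⟩; exact h _ _, ?_⟩
  rw [finrank_slice one_ne_zero, finrank_top, Module.finrank_fintype_fun_eq_card,
    Fintype.card_congr e]
  simp

variable (h₁ : IsSesq (RingEquiv.refl F) ε₁ f₁) (h₂ : IsSesq (RingEquiv.refl F) ε₂ f₂)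
  (hT : IsTensorFormStructure (RingEquiv.refl F) (polar Q) f₁ f₂ e P)
include h₁ h₂ hT

theorem nondegOn_slice {u : Fin a → F} (hu : f₁ u u ≠ 0) :
    IsNondegenerateOn (polar Q) (slice e P u) := by
  obtain ⟨c, hc, hcf⟩ := H9.tensorForm_tp h₁ h₂ hT
  rintro _ ⟨v, rfl⟩ h0
  have hv : v ≠ 0 := by rintro rfl; exact h0 (map_zero _)
  obtain ⟨⟨x, hx⟩, y, hy⟩ := h₂.nondeg v hv
  exact ⟨⟨_, ⟨x, rfl⟩, by rw [sliceMap_apply, sliceMap_apply, hcf]; simp [*]⟩,
    _, ⟨y, rfl⟩, by rw [sliceMap_apply, sliceMap_apply, hcf]; simp [*]⟩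

theorem orth_slice {u u' : Fin a → F} (hu : f₁ u u' = 0) :
    AreOrthogonalFor (polar Q) (slice e P u) (slice e P u') := by
  obtain ⟨c, hc, hcf⟩ := H9.tensorForm_tp h₁ h₂ hT
  rintro _ ⟨v, rfl⟩ _ ⟨w, rfl⟩
  rw [sliceMap_apply, sliceMap_apply, hcf, hu, zero_mul, mul_zero]

theorem plus_slice_iff (h2 : (2 : F) ≠ 0) {u : Fin a → F} (hu : f₁ u u ≠ 0) :
    IsPlusTypeOn ⇑Q (slice e P u) ↔ IsPlusTypeOn (fun v => f₂ v v) ⊤ := by
  obtain ⟨c, hc, hcf⟩ := H9.tensorForm_tp h₁ h₂ hT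
  have hu0 : u ≠ 0 := by rintro rfl; exact hu (h₁.zero_left _)
  have hi := sliceMap_injective (e := e) (P := P) hu0
  have key : ∀ v, Q (sliceMap e P u v) = 0 ↔ f₂ v v = 0 := fun v => by
    rw [H11.Q_eq_half h2, sliceMap_apply, hcf]; simp [*]
  constructor
  · rintro ⟨U, h3, h4, h5⟩
    refine ⟨U.comap (sliceMap e P u), le_top, fun v hv => (key v).1 (h4 _ hv), ?_⟩
    rw [LinearEquiv.finrank_eq (Submodule.equivMapOfInjective _ hi _),
      Submodule.map_comap_eq_self h3, h5, finrank_slice hu0]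
    simp
  · rintro ⟨U, -, h4, h5⟩
    refine ⟨U.map (sliceMap e P u), LinearMap.map_le_range, ?_, ?_⟩
    · rintro _ ⟨v, hv, rfl⟩; exact (key v).2 (h4 v hv)
    · rw [← LinearEquiv.finrank_eq (Submodule.equivMapOfInjective _ hi U), h5, finrank_slice hu0]
      simp

theorem pure_eq_zero_of_odd (h2 : (2 : F) ≠ 0) (ha : ∀ u, f₁ u u = 0) (u : Fin a → F)
    (v : Fin b → F) : Q (frmV e P (H9.tp u v)) = 0 := by
  obtain ⟨c, hc, hcf⟩ := H9.tensorForm_tp h₁ h₂ hT
  rw [H11.Q_eq_half h2, hcf, ha]; simp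

theorem pure_eq_zero_of_even [Finite F] (hQ : IsNondegenerateQuadraticForm ⇑Q) (h2 : (2 : F) = 0)
    (ha : 2 ≤ a) (hb : 2 ≤ b)
    (hL : ∀ X, adj (RingEquiv.refl F) (polar Q) (frm e P (X ⊗ₖ (1 : Matrix (Fin b) (Fin b) F))) =
      frm e P (adj (RingEquiv.refl F) f₁ X ⊗ₖ (1 : Matrix (Fin b) (Fin b) F)))
    {H : Subgroup (GL ι F)} (hH : H ≤ isometryGroup F ⇑Q) (hI : Irr H)
    (hle : H ≤ tensorProductSubgroup a b e P) (u : Fin a → F) (v : Fin b → F) :
    Q (frmV e P (H9.tp u v)) = 0 := by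
  have hf := isSesq_polar hQ
  have a1 := H9.left_alt h2 hf ha (by omega) h₁ h₂ hT (le_sim_of_le_iso hH) hI hle
  have a2 := H9.left_alt h2 hf hb (by omega) h₂ h₁ (H9.tensorForm_swap hT) (le_sim_of_le_iso hH) hI
    (by rw [tensorProductSubgroup_swap]; exact hle)
  obtain ⟨w, hw⟩ := H9.exists_half h2 h₁ a1
  have hw' : frm e P (w ⊗ₖ (1 : Matrix (Fin b) (Fin b) F)) +
      adj (RingEquiv.refl F) (polar Q) (frm e P (w ⊗ₖ (1 : Matrix (Fin b) (Fin b) F))) = 1 := by
    rw [hL, ← map_add, ← Matrix.add_kronecker, H9.add_adj_of_half h2 h₁ hw, Matrix.one_kronecker_one,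
      map_one]
  obtain ⟨hQ', hp⟩ := H9.quad_of_half hf (H9.half_of_add_adj h2 hf hw')
  obtain ⟨c, -, hc⟩ := H9.tensorForm_tp h₁ h₂ hT
  have hz : ∀ u v, polar Q (frm e P (w ⊗ₖ (1 : Matrix (Fin b) (Fin b) F)) *ᵥ frmV e P (H9.tp u v))
      (frmV e P (H9.tp u v)) = 0 := by
    intro u v
    rw [H9.mulVec_frmV_tp rfl, Matrix.one_mulVec, hc, a2, mul_zero, mul_zero]
  have hn : 2 ≤ Fintype.card ι := by
    rw [Fintype.card_congr e, Fintype.card_prod, Fintype.card_fin, Fintype.card_fin]; nlinarith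
  rw [quad_eq_of_irr hn hQ hQ' (fun u v => (hp u v).symm) hI (fixesQ_of_le_iso hH)
    (fixesQuad_iff.2 fun g hg v => ?_)]
  · exact hz u v
  obtain ⟨x, y, hxy⟩ := mem_tensorProductSubgroup.1 (hle hg)
  refine H9.quad_fix_of_basis hQ' (fun u v => ?_) (frmV e P) (fun k => ?_) v
  · rw [hp, hp, polar_iso (hH hg)]
  · obtain ⟨i, j⟩ := k
    rw [H9.single_eq_tp, H9.mulVec_frmV_tp hxy, hz, hz]

end Tensor

theorem exists_orth_three (h2 : (2 : F) ≠ 0) {f : (Fin 3 → F) → (Fin 3 → F) → F}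
    (hf : IsSesq (RingEquiv.refl F) 1 f) : ∃ u v w, f u u ≠ 0 ∧ f v v ≠ 0 ∧ f w w ≠ 0 ∧
      f u v = 0 ∧ f u w = 0 ∧ f v w = 0 := by
  let B : LinearMap.BilinForm F (Fin 3 → F) := LinearMap.mk₂ F f hf.add_left
    hf.smul_left hf.add_right hf.smul_right
  have := invertibleOfNonzero h2
  obtain ⟨v, hv⟩ := LinearMap.BilinForm.exists_orthogonal_basis (B := B)
    ⟨fun x y => (H9.bil_comm hf x y).trans (one_mul _)⟩
  have h3 := hv.not_isOrtho_basis_self_of_separatingLeft fun x hx => hf.eq_zero_of_left hx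
  have hd : finrank F (Fin 3 → F) = 3 := by simp
  exact ⟨v ⟨0, by omega⟩, v ⟨1, by omega⟩, v ⟨2, by omega⟩, h3 _, h3 _, h3 _,
    hv (by simp), hv (by simp), hv (by simp)⟩

section Three
variable [Finite F] {b : ℕ} {e : ι ≃ Fin 3 × Fin b} {P : GL ι F} {ε₂ : F}
  {f₁ : (Fin 3 → F) → (Fin 3 → F) → F} {f₂ : (Fin b → F) → (Fin b → F) → F}
  (h₁ : IsSesq (RingEquiv.refl F) 1 f₁) (h₂ : IsSesq (RingEquiv.refl F) ε₂ f₂)
  (hT : IsTensorFormStructure (RingEquiv.refl F) (polar Q) f₁ f₂ e P)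
include h₁ h₂ hT

theorem plus_iff_of_tensor_three (h2 : (2 : F) ≠ 0) (hb : Even b) :
    IsPlusTypeOn ⇑Q ⊤ ↔ IsPlusTypeOn (fun v => f₂ v v) ⊤ := by
  obtain ⟨u, v, w, hu, hv, hw, huv, huw, hvw⟩ := exists_orth_three h2 h₁
  have n0 : ∀ {u}, f₁ u u ≠ 0 → u ≠ 0 := fun hu => by rintro rfl; exact hu (h₁.zero_left _)
  have nd := fun u hu => nondegOn_slice h₁ h₂ hT (u := u) hu
  have o := fun u v h => orth_slice h₁ h₂ hT (u := u) (u' := v) h
  have p := fun u hu => plus_slice_iff h₁ h₂ hT h2 (u := u) hu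
  have h3 := nondegOn_sup (nd u hu) (nd v hv) (o u v huv)
  have h4 := orth_sup (o u w huw) (o v w hvw)
  have h5 : slice e P u ⊔ slice e P v ⊔ slice e P w = ⊤ := by
    apply Submodule.eq_top_of_finrank_eq
    rw [finrank_sup_of_orth h3 h4, finrank_sup_of_orth (nd u hu) (o u v huv), finrank_slice (n0 hu),
      finrank_slice (n0 hv), finrank_slice (n0 hw), finrank_fun, Fintype.card_congr e]
    simp; ring
  rw [← h5, plus_sup_iff h3 (nd w hw) h4 (plus_of_same_type (nd u hu) (nd v hv) (o u v huv)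
    (by rw [finrank_slice (n0 hu), finrank_slice (n0 hv)]) (by rwa [finrank_slice (n0 hu)])
    ((p u hu).trans (p v hv).symm)), p w hw]

omit [Finite F] in
theorem dec_of_tensor_three [Fintype F] (hQ : IsNondegenerateQuadraticForm ⇑Q)
    (hq : Fintype.card F = 3) (hb : 0 < b) {H : Subgroup (GL ι F)} (hH : H ≤ isometryGroup F ⇑Q)
    (hI : Irr H) (hle : H ≤ tensorProductSubgroup 3 b e P) :
    ∃ (t : ℕ) (D : Fin t → Submodule F (ι → F)), IsNondegenerateMDecomposition (polar Q) b D ∧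
      H ≤ decompositionStabilizer D ∧
      ∀ i j, ∃ h ∈ H, (D i).map (Matrix.toLin' (h : Matrix ι ι F)) = D j := by
  have h2 : (2 : F) ≠ 0 := two_ne_zero_of_odd_card (by rw [hq]; decide)
  have hf := isSesq_polar hQ
  have m₁ := fun x => H11.mult_eq_one_of_three hq (by simp; decide) h₁ (x := x)
  have nd := fun u hu => nondegOn_slice h₁ h₂ hT (u := u) hu
  have o := fun u v h => orth_slice h₁ h₂ hT (u := u) (u' := v) h
  have hs := fun g hg x y => tensor_sim hf (by omega) hb h₁ h₂ hT (g := g) (x := x)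
    (y := y) (le_sim_of_le_iso hH hg)
  obtain ⟨Q₁, n₁, rfl⟩ := H11.exists_qf_of_sesq h2 h₁
  obtain ⟨c, hc, ⟨u₀, hu₀⟩, k⟩ := n₁.three_frame hq (by simp)
  obtain ⟨t, D, h3, h4, -, h5⟩ := H11.exists_dec_of_set hf hI {W | ∃ u, Q₁ u = c ∧ W = slice e P u}
    hb (by rw [Fintype.card_congr e]; simp; omega) ⟨_, u₀, hu₀, rfl⟩
    (by rintro _ ⟨u, hu, rfl⟩; exact finrank_slice (by rintro rfl; exact hc (hu.symm.trans (map_zero _))))
    (by rintro _ ⟨u, hu, rfl⟩; exact nd u (by rw [H11.polar_self', hu]; exact mul_ne_zero h2 hc))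
    (by
      rintro _ ⟨u, hu, rfl⟩ _ ⟨v, hv, rfl⟩ hne
      rcases k u v hu hv with h | rfl | rfl
      · exact o u v h
      · exact absurd rfl hne
      · exact absurd (slice_neg u).symm hne)
    (by
      rintro g hg _ ⟨u, hu, rfl⟩
      obtain ⟨x, y, hxy⟩ := mem_tensorProductSubgroup.1 (hle hg)
      refine ⟨_, ?_, map_slice hxy u⟩
      rw [H11.Q_eq_half h2, m₁ x (hs g hg x y hxy).1, ← H11.Q_eq_half h2, hu])
  exact ⟨t, D, h3, h4, h5⟩

end Three

theorem not_perfect_two (h2 : (2 : F) ≠ 0) {f : (Fin 2 → F) → (Fin 2 → F) → F}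
    (hf : IsSesq (RingEquiv.refl F) 1 f) {L : Subgroup (GL (Fin 2) F)} (hL : ⁅L, L⁆ = L)
    (hs : grpAlg L = ⊤) (hLf : Fixes L f) : False := by
  have hJ := isSesq_of_gram (σ := RingEquiv.refl F) (G := J2 F) (ε := -1) (fun _ => rfl) (Or.inr rfl)
    (by rw [det_J2]; exact isUnit_one) J2_eq
  have hd : L ≤ (Matrix.GeneralLinearGroup.det : GL (Fin 2) F →* Fˣ).ker := by
    rw [← hL, Subgroup.commutator_le]
    intro g _ h _
    rw [MonoidHom.mem_ker, map_commutatorElement]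
    exact commutatorElement_eq_one_iff_mul_comm.2 (mul_comm _ _)
  obtain ⟨c, hc, e⟩ := form_unique hf hJ hs hLf (fixes_iff.2 fun g hg u v => by
    have h3 : (g : Matrix (Fin 2) (Fin 2) F).det = 1 := congrArg Units.val (hd hg)
    rw [Matrix.det_fin_two] at h3
    simp [J2, Matrix.mulVec, dotProduct, Fin.sum_univ_two]
    linear_combination (u 0 * v 1 - u 1 * v 0) * h3)
  have h3 := e (Pi.single 0 1) (Pi.single 1 1)
  have h4 := e (Pi.single 1 1) (Pi.single 0 1)
  rw [H9.bil_comm hf, one_mul, ← h3] at h4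
  simp [J2, Matrix.mulVec, dotProduct, Fin.sum_univ_two] at h4
  exact h2 (by linear_combination -h4)

theorem ts_span {T : Set (ι → F)} (h : ∀ v ∈ T, Q v = 0) (h' : ∀ v ∈ T, ∀ w ∈ T, polar Q v w = 0) :
    ∀ v ∈ Submodule.span F T, Q v = 0 := by
  have h1 : ∀ v ∈ Submodule.span F T, ∀ w ∈ Submodule.span F T, polar Q v w = 0 := by
    intro v hv w hw
    induction hv, hw using Submodule.span_induction₂ with
    | mem_mem x y hx hy => exact h' x hx y hy
    | zero_left => simp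
    | zero_right => simp
    | add_left x y z _ _ _ a b => rw [polar_add_left, a, b, add_zero]
    | add_right x y z _ _ _ a b => rw [polar_add_right, a, b, add_zero]
    | smul_left c x y _ _ a => rw [H11.polar_smul_left', a, mul_zero]
    | smul_right c x y _ _ a => rw [H11.polar_smul_right', a, mul_zero]
  intro v hv
  induction hv using Submodule.span_induction with
  | mem x hx => exact h x hx
  | zero => simp
  | add x y hx hy a b => rw [H11.Q_add, a, b, h1 x hx y hy]; simp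
  | smul c x _ a => rw [H11.Q_smul, a, mul_zero]

/-- A tensor cube of 2-spaces carries only forms of plus type. -/
theorem plus_of_wreath [Finite F] (hQ : IsNondegenerateQuadraticForm ⇑Q) {H : Subgroup (GL ι F)}
    (hH : H ≤ isometryGroup F ⇑Q) (hI : Irr H) {e : ι ≃ (Fin 3 → Fin 2)} {P : GL ι F}
    (hW : WreathData H 2 3 e P) : IsPlusTypeOn ⇑Q ⊤ := by
  have hf := isSesq_polar hQ
  obtain ⟨ε₁, f₁, h₁, hT, hε, -, hadj, L, hL1, hL, hLf⟩ := tensor_power_form hf (fixes_of_le_iso hH) hW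
  by_cases h2 : (2 : F) = 0
  swap
  · exfalso
    have h3 := hε rfl
    rcases h₁.eps with rfl | rfl
    · exact not_perfect_two h2 h₁ hL1 hL hLf
    · exact h2 (by linear_combination h3)
  have hn : Fintype.card ι = 8 := by rw [Fintype.card_congr e]; simp
  have a1 := alternating_of_irr (by simp) h2 h₁ (irr_of_grpAlg_eq_top hL) hLf.le_similarityGroup
  obtain ⟨w, hw⟩ := H9.exists_half h2 h₁ a1
  have hw' : frm e P (powEmb (Fin 3) (Fin 2) F 0 w) +
      adj (RingEquiv.refl F) (polar Q) (frm e P (powEmb (Fin 3) (Fin 2) F 0 w)) = 1 := by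
    rw [hadj, ← map_add, ← map_add, H9.add_adj_of_half h2 h₁ hw, map_one, map_one]
  obtain ⟨hQ', hp⟩ := H9.quad_of_half hf (H9.half_of_add_adj h2 hf hw')
  obtain ⟨c, -, hc⟩ := H9.tensorPowerForm_pure h₁ hT
  have hz : ∀ x ∈ pureVecs 2 3 F, polar Q (frm e P (powEmb (Fin 3) (Fin 2) F 0 w) *ᵥ frmV e P x)
      (frmV e P x) = 0 := by
    rintro x ⟨u, hu⟩
    obtain rfl : x = fun x => ∏ i, u i (x i) := funext hu
    rw [frm_mulVec, powEmb_apply, H9.pureT_mulVec, hc, Finset.prod_eq_zero (Finset.mem_univ 1), mul_zero]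
    rw [Function.update_of_ne (by decide), Pi.one_apply, Matrix.one_mulVec, a1]
  have hQQ := quad_eq_of_irr (by omega) hQ hQ' (fun u v => (hp u v).symm) hI (fixesQ_of_le_iso hH)
    (fixesQuad_iff.2 fun g hg v => H9.quad_fix_of_basis hQ' (fun u v => by
      rw [hp, hp, polar_iso (hH hg)]) (frmV e P) (fun x => by
        rw [H9.mulVec_frmV_of_frmG, hz _ (single_mem_pureVecs x), hz _ (mulVec_mem_pureVecs
          (mem_tensorWreathSubgroup.1 (hW.le hg)) _ (single_mem_pureVecs x))]) v)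
  let B : Basis (Fin 3 → Fin 2) F (ι → F) := (Pi.basisFun F _).map (frmV e P)
  have hB : ∀ x, B x = frmV e P fun y => ∏ i, (Pi.single (x i) 1 : Fin 2 → F) (y i) := fun x => by
    rw [Basis.map_apply, Pi.basisFun_apply]
    congr 1
    ext y
    simp only [Pi.single_apply]
    rw [Finset.prod_ite_zero]
    simp [funext_iff]
  refine ⟨Submodule.span F (Set.range (B ∘ (Subtype.val : {x : Fin 3 → Fin 2 // x 0 = 0} → _))), le_top,
    ts_span ?_ ?_, ?_⟩
  · rintro _ ⟨x, rfl⟩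
    rw [congrFun hQQ]
    simp only [hB, Function.comp]
    exact hz _ ⟨_, fun _ => rfl⟩
  · rintro _ ⟨x, rfl⟩ _ ⟨y, rfl⟩
    simp only [hB, Function.comp]
    rw [hc, Finset.prod_eq_zero (Finset.mem_univ 0), mul_zero]
    rw [x.2, y.2, a1]
  · rw [finrank_span_eq_card (B.linearIndependent.comp _ Subtype.val_injective), finrank_top,
      finrank_fun, hn]
    rfl

theorem plus_of_anticomm [Finite F] (hQ : IsNondegenerateQuadraticForm ⇑Q) (h2 : (2 : F) ≠ 0)
    (hn : 4 ∣ Fintype.card ι) {h k : GL ι F} (hh : h ∈ isometryGroup F ⇑Q)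
    (hk : k ∈ isometryGroup F ⇑Q) (h1 : ∀ v, (h : Matrix ι ι F) *ᵥ ((h : Matrix ι ι F) *ᵥ v) = v)
    (h3 : ∀ v, (h : Matrix ι ι F) *ᵥ ((k : Matrix ι ι F) *ᵥ v) =
      -((k : Matrix ι ι F) *ᵥ ((h : Matrix ι ι F) *ᵥ v))) : IsPlusTypeOn ⇑Q ⊤ := by
  let W : F → Submodule F (ι → F) := fun c =>
    LinearMap.ker (Matrix.toLin' (h : Matrix ι ι F) - c • LinearMap.id)
  have hW : ∀ c v, v ∈ W c ↔ (h : Matrix ι ι F) *ᵥ v = c • v := fun c v => by
    simp [W, sub_eq_zero]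
  have ho : AreOrthogonalFor (polar Q) (W 1) (W (-1)) := fun u hu v hv => by
    have := polar_iso hh u v
    rw [(hW _ _).1 hu, (hW _ _).1 hv] at this
    qsimp at this
    exact (mul_eq_zero.1 (show 2 * polar Q u v = 0 by linear_combination -this)).resolve_left h2
  have hs : ∀ v, ∃ x ∈ W 1, ∃ y ∈ W (-1), x + y = v := fun v =>
    ⟨(2 : F)⁻¹ • (v + (h : Matrix ι ι F) *ᵥ v), (hW _ _).2 (by
      rw [Matrix.mulVec_smul, Matrix.mulVec_add, h1, one_smul, add_comm]),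
    (2 : F)⁻¹ • (v - (h : Matrix ι ι F) *ᵥ v), (hW _ _).2 (by
      rw [Matrix.mulVec_smul, Matrix.mulVec_sub, h1, neg_one_smul, ← smul_neg, neg_sub]), by
      rw [← smul_add, add_add_sub_cancel, ← two_smul F v, inv_smul_smul₀ h2]⟩
  have ht : W 1 ⊔ W (-1) = ⊤ := eq_top_iff.2 fun v _ => Submodule.mem_sup.2 (hs v)
  have nd : ∀ U U' : Submodule F (ι → F), AreOrthogonalFor (polar Q) U U' → U ⊔ U' = ⊤ →
      IsNondegenerateOn (polar Q) U := by
    intro U U' a b w hw h0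
    obtain ⟨z, hz⟩ := (hQ.nondegenerate w h0).2
    obtain ⟨x, hx, y, hy, rfl⟩ := Submodule.mem_sup.1 (b ▸ Submodule.mem_top : z ∈ U ⊔ U')
    rw [polar_add_right, a w hw y hy, add_zero] at hz
    exact ⟨⟨x, hx, by rwa [polar_comm]⟩, x, hx, hz⟩
  have n1 := nd _ _ ho ht
  have n2 := nd _ _ (orth_symm ho) (by rw [sup_comm, ht])
  have hm : (W 1).map (Matrix.toLin' (k : Matrix ι ι F)) = W (-1) := by
    ext z
    constructor
    · rintro ⟨v, hv, rfl⟩
      rw [hW, Matrix.toLin'_apply, h3, (hW _ _).1 hv, one_smul, neg_one_smul]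
    · intro hz
      obtain ⟨v, rfl⟩ : ∃ v, (k : Matrix ι ι F) *ᵥ v = z := ⟨_, mulVec_inv_mulVec k z⟩
      rw [hW, h3, neg_one_smul, neg_inj] at hz
      exact ⟨v, (hW _ _).2 ((gl_mulVec_injective k hz).trans (one_smul _ _).symm), rfl⟩
  have hi := H11.isometric_of_map hk hm
  have hd : finrank F (W 1) = finrank F (W (-1)) := by rw [← hm, finrank_map_gl]
  have h4 := finrank_sup_of_orth n1 ho
  rw [ht, finrank_top, finrank_fun] at h4
  rw [← ht]
  refine plus_of_same_type n1 n2 ho hd ?_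
    ⟨fun a => plus_of_isometric a hi, fun a => plus_of_isometric a (isometric_symm hi)⟩
  rw [Nat.even_iff]; omega

/-- In dimension divisible by four an extraspecial normaliser forces plus type. -/
theorem plus_of_caseE [Finite F] (hQ : IsNondegenerateQuadraticForm ⇑Q) (hn : 4 ∣ Fintype.card ι)
    (hn0 : 0 < Fintype.card ι) {H R : Subgroup (GL ι F)} (hH : H ≤ isometryGroup F ⇑Q) {m : ℕ}
    (E : ExtraData H 2 m R) : IsPlusTypeOn ⇑Q ⊤ := by
  have : Nonempty ι := Fintype.card_pos_iff.1 hn0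
  have h2 : (2 : F) ≠ 0 := by exact_mod_cast E.ne_char
  have hn4 := Nat.le_of_dvd hn0 hn
  obtain ⟨u, -, hu0, hu⟩ := exists_sing_mem Q ⊤ (by rw [finrank_top, finrank_fun]; omega)
  obtain ⟨w, hw⟩ := (hQ.nondegenerate u hu0).1
  obtain ⟨h, hh, c, hx, hxs, hxa⟩ : ∃ h ∈ H, ∃ c, scal ι c * h ∈ R ∧ scal ι c * h ∉ scalars ι F ∧
      ∀ v, (h : Matrix ι ι F) *ᵥ ((h : Matrix ι ι F) *ᵥ v) = v := by
    by_contra hc
    push Not at hc
    obtain ⟨z, rfl⟩ := exists_mulVec_eq hu0 w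
    refine hw (grpAlg_induction (N := R) (p := fun z => polar Q (z *ᵥ u) u = 0) (fun g hg => ?_)
      (by simp) ?_ ?_ (E.span ▸ trivial))
    · by_cases hs : g ∈ scalars ι F
      · obtain ⟨c, rfl⟩ := mem_scalars_iff'.1 hs
        rw [coe_scal, Matrix.smul_mulVec, Matrix.one_mulVec]
        qsimp
        rw [hu]; simp
      obtain ⟨h, hh, c, rfl⟩ := mem_sup_scalars.1 (E.le_hat hg)
      obtain ⟨s, hs'⟩ := mem_scalars_iff'.1 (E.pow_mem _ hg)
      obtain ⟨v₀, hv₀⟩ := hc h hh c hg hs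
      have e1 : ∀ v, (h : Matrix ι ι F) *ᵥ ((h : Matrix ι ι F) *ᵥ v) =
          ((s : F) * ((c : F) * c)⁻¹) • v := fun v => by
        have := congrArg (fun g : GL ι F => (g : Matrix ι ι F) *ᵥ v) hs'
        simp only [pow_two, Units.val_mul, coe_scal, ← Matrix.mulVec_mulVec, Matrix.smul_mulVec,
          Matrix.one_mulVec, Matrix.mulVec_smul, smul_smul] at this
        rw [mul_comm, mul_smul, ← this, inv_smul_smul₀ (mul_ne_zero c.ne_zero c.ne_zero)]
      generalize (s : F) * ((c : F) * c)⁻¹ = t at e1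
      have e2 : ∀ x y, polar Q ((h : Matrix ι ι F) *ᵥ x) y = t * polar Q ((h : Matrix ι ι F) *ᵥ y) x :=
        fun x y => by rw [← polar_iso (hH hh), e1, H11.polar_smul_left', polar_comm]
      have e3 : t ≠ 1 := by rintro rfl; exact hv₀ (by rw [e1, one_smul])
      rw [Units.val_mul, coe_scal, smul_mul_assoc, Matrix.one_mul, Matrix.smul_mulVec,
        H11.polar_smul_left', mul_eq_zero]
      exact Or.inr ((mul_eq_zero.1 (show (t - 1) * _ = 0 by
        linear_combination -e2 u u)).resolve_left (sub_ne_zero.2 e3))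
    · intro x y hx hy
      rw [Matrix.add_mulVec, polar_add_left, hx, hy, add_zero]
    · intro c x hx
      rw [Matrix.smul_mulVec, H11.polar_smul_left', hx, mul_zero]
  obtain ⟨y, hy, hxy⟩ : ∃ y ∈ R, scal ι c * h * y ≠ y * (scal ι c * h) := by
    by_contra hc
    push Not at hc
    obtain ⟨d, hd⟩ := scalar_of_comm_of_grpAlg_eq_top E.span (z := (scal ι c * h : GL ι F))
      fun g hg => by rw [← Units.val_mul, hc g hg, Units.val_mul]
    exact hxs (mem_scalars_of_coe_eq hd)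
  obtain ⟨l, hl⟩ := mem_scalars_iff'.1 (E.comm_mem _ hx _ hy)
  obtain ⟨k, hk, d, rfl⟩ := mem_sup_scalars.1 (E.le_hat hy)
  have hl1 : l ≠ 1 := by
    rintro rfl
    rw [scal_one, ← commutatorElement_def, commutatorElement_eq_one_iff_mul_comm] at hl
    exact hxy hl
  rw [← commutatorElement_def, commutator_scal_mul, commutatorElement_def, mul_inv_eq_iff_eq_mul,
    mul_inv_eq_iff_eq_mul] at hl
  have e1 : ∀ v, (h : Matrix ι ι F) *ᵥ ((k : Matrix ι ι F) *ᵥ v) =
      (l : F) • ((k : Matrix ι ι F) *ᵥ ((h : Matrix ι ι F) *ᵥ v)) := fun v => by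
    have := congrArg (fun g : GL ι F => (g : Matrix ι ι F) *ᵥ v) hl
    simpa only [Units.val_mul, coe_scal, ← Matrix.mulVec_mulVec, Matrix.smul_mulVec,
      Matrix.one_mulVec] using this
  have e2 : (l : F) * l = 1 := by
    have := hxa ((k : Matrix ι ι F) *ᵥ u)
    rw [e1, Matrix.mulVec_smul, e1, hxa, smul_smul] at this
    exact smul_left_injective F (mt (gl_mulVec_eq_zero k).1 hu0) (this.trans (one_smul _ _).symm)
  have e3 : (l : F) = -1 := (mul_self_eq_one_iff.1 e2).resolve_left fun e => hl1 (Units.ext e)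
  exact plus_of_anticomm hQ h2 hn (hH hh) (hH hk) hxa fun v => by rw [e1, e3, neg_one_smul]

end Cfsg.Agent.H99
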