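import Cfsg.Agent.H99.Ix4
import Cfsg.Agent.H98.ExtO

/-! Quadratic extension field subgroups of orthogonal groups: elements of prime order. -/

set_option autoImplicit false
set_option linter.unusedSectionVars false
set_option linter.unusedVariables false
set_option linter.unusedSimpArgs false

namespace Cfsg.Agent.H99

open Module Submodule QuadraticMap Cfsg.Geo Cfsg.Agent.H98 Cfsg.Agent.H9 Cfsg.Agent.H67
open H28 (rho)
open scoped MatrixGroups Matrix

universe u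

variable {ι : Type} [Fintype ι] [DecidableEq ι] {F : Type u} [Field F] [Fintype F]
  {Q : QuadraticForm F (ι → F)} {J T S : End F (ι → F)} {δ : F} {U W P : Submodule F (ι → F)}

/-- a self-adjoint square root of a non-square -/
structure SA (Q : QuadraticForm F (ι → F)) (J : End F (ι → F)) (δ : F) : Prop where
  nq : NQ Q
  two : (2 : F) ≠ 0
  adj : ∀ u v, polar Q (J u) v = polar Q u (J v)
  sq : ∀ v, J (J v) = δ • v
  ns : ¬ IsSquare δ
  pl : ∀ X, Nd (polar Q) X → TInv J X → 2 < finrank F X → ∀ π : Prop,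
    ∃ P ≤ X, Nd (polar Q) P ∧ TInv J P ∧ finrank F P = 2 ∧ (Pl Q P ↔ π)

namespace SA
variable (h : SA Q J δ)
include h

theorem perp (hW : TInv J W) : TInv J (perp h.nq.sq W) := fun v hv w hw =>
  (h.adj v w).trans (hv _ (hW w hw))

theorem plane (hS : OI Q S) (h1 : S ^ 2 = (-1 : F) • 1) (hP : Nd (polar Q) P)
    (hd : finrank F P = 2) (hJ : TInv J P) (hSP : TInv S P) : ∀ w ∈ P, S (J w) = -J (S w) := by
  obtain ⟨v, v1, v2⟩ := hP.exists_Q_ne (by omega)
  have e : span F {v, S v} = P := eq_of_le_of_finrank_eq (span_pair_le v1 (hSP v v1))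
    (by rw [hd, (hS.neg_plane h.nq h.two h1 v2).2])
  have o := hS.polar_sq_neg h.two h1 v
  have q : (2 : F) * Q v ≠ 0 := mul_ne_zero h.two v2
  obtain ⟨a, b, h3⟩ := mem_span_pair.1 (e ▸ hJ v v1)
  obtain ⟨c, d, h4⟩ := mem_span_pair.1 (e ▸ hJ _ (hSP v v1))
  have h5 := h.adj v (S v)
  have h6 := h.sq v
  rw [← h3, map_add, map_smul, map_smul, ← h3, ← h4] at h6
  have h7 := congrArg (polar Q v) h6
  have h8 := congrArg (polar Q (S v)) h6
  rw [← h3, ← h4] at h5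
  simp only [polar_add_left, polar_add_right, polar_smul_left, polar_smul_right, o, polar_self',
    polar_comm Q (S v) v, hS v, smul_eq_mul] at h5 h7 h8
  obtain rfl : b = c := mul_right_cancel₀ q (by linear_combination h5)
  have hb : b ≠ 0 := by
    rintro rfl
    exact h.ns ⟨a, mul_right_cancel₀ q (by linear_combination -h7)⟩
  obtain rfl : d = -a := mul_right_cancel₀ (mul_ne_zero hb q) (by linear_combination h8)
  intro w hw
  obtain ⟨s, t, rfl⟩ := mem_span_pair.1 (e ▸ hw)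
  simp only [map_add, map_smul, sq_apply h1, ← h3, ← h4]
  module

theorem comm (hP : Nd (polar Q) P) (hJ : TInv J P) (h1 : ∀ u ∈ P, T u = -u)
    (h2 : ∀ u, (∀ w ∈ P, polar Q u w = 0) → T u = u) : T * J = J * T :=
  end_ext_sup (hP.sup_perp h.nq.sq) (fun u hu => by simp [h1 u hu, h1 _ (hJ u hu)])
    fun u hu => by simp [h2 u hu, h2 _ (h.perp hJ u hu)]

theorem exists_sub (k : ℕ) : 2 * k < Fintype.card ι → ∀ π : Prop, (k = 0 → π) →
    ∃ U, Nd (polar Q) U ∧ TInv J U ∧ finrank F U = 2 * k ∧ (Pl Q U ↔ π) := by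
  have hf := h.nq.sq
  induction k with
  | zero => exact fun _ π hπ => ⟨⊥, nd_bot, fun v hv => by simp_all, by simp,
      iff_of_true (pl_of_dim (by simp)) (hπ rfl)⟩
  | succ k ih =>
    intro hk π _
    obtain ⟨A, a1, a2, a3, a4⟩ := ih (by omega) True fun _ => trivial
    have := finrank_add_finrank_perp hf A
    obtain ⟨P, p0, p1, p2, p3, p4⟩ := h.pl _ (a1.perp hf) (h.perp a2) (by omega) π
    have o := (ort_perp hf A).mono le_rfl p0
    exact ⟨A ⊔ P, a1.sup hf p1 o, a2.sup p2, by rw [a1.finrank_sup hf o]; omega,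
      (h.nq.pl_sup_left a1 p1 o (a4.2 trivial)).trans p4⟩

theorem exists_neg {x : H28.O Q} (hx : rho Q x ^ 2 = (-1 : F) • 1) {d : ℕ}
    (hd : Fintype.card ι = 2 * d) (a : ℕ) : a ≤ d → ∃ (g : H28.O Q) (W : Submodule F (ι → F)),
      Nd (polar Q) W ∧ finrank F W = 2 * a ∧ TInv J W ∧ TInv (rho Q (g⁻¹ * x * g)) W ∧
      (∀ w ∈ W, rho Q (g⁻¹ * x * g) (J w) = -J (rho Q (g⁻¹ * x * g) w)) ∧ (0 < a → ∃ P,
        Nd (polar Q) P ∧ finrank F P = 2 ∧ TInv J P ∧ TInv (rho Q (g⁻¹ * x * g)) P) := by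
  have hf := h.nq.sq
  have hc : ∀ g : H28.O Q, rho Q (g⁻¹ * x * g) ^ 2 = (-1 : F) • 1 := fun g =>
    LinearMap.ext fun v => by simp [pow_two, H28.rho_mul, sq_apply hx]
  induction a with
  | zero => exact fun _ => ⟨1, ⊥, nd_bot, by simp, fun v hv => by simp_all,
      fun v hv => by simp_all, fun v hv => by simp_all, by simp⟩
  | succ a ih =>
    intro ha
    obtain ⟨g, W, w1, w2, w3, w4, w5, -⟩ := ih (by omega)
    have s1 := oi_rho (g⁻¹ * x * g)
    have n0 := finrank_add_finrank_perp hf W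
    obtain ⟨v, v1, v2⟩ := (w1.perp hf).exists_Q_ne (by omega)
    obtain ⟨n1, n2⟩ := s1.neg_plane h.nq h.two (hc g) v2
    have n3 := span_pair_le v1 (s1.iso.tInv_perp hf w4 v v1)
    have n4 := tInv_pair_sq (hc g) v
    generalize span F {v, rho Q (g⁻¹ * x * g) v} = P at n1 n2 n3 n4
    obtain ⟨P', p0, p1, p2, p3, p4⟩ : ∃ P' ≤ H9.perp hf W, Nd (polar Q) P' ∧ TInv J P' ∧
        finrank F P' = 2 ∧ (Pl Q P' ↔ Pl Q P) := by
      by_cases e : 2 < finrank F (H9.perp hf W)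
      · exact h.pl _ (w1.perp hf) (h.perp w3) e _
      · exact ⟨P, n3, n1, eq_of_le_of_finrank_eq n3 (by omega) ▸ h.perp w3, n2, Iff.rfl⟩
    obtain ⟨k, k1, k2, k3⟩ := (ws_quad h.nq).witt_fix (ism_iff.2 (h.nq.aif_of_type p1 n1
      (p3.trans n2.symm) (p3 ▸ even_two) p4)) p0 n3 (p1.inf_eq_bot hf p0) (n1.inf_eq_bot hf n3)
    obtain ⟨k', hk⟩ := OI.exists_O h.nq (T := k.toLinearMap) k1.2
    have e : ∀ y, rho Q ((g * k')⁻¹ * x * (g * k')) y =
        rho Q k'⁻¹ (rho Q (g⁻¹ * x * g) (rho Q k' y)) := fun y => by simp [H28.rho_mul]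
    have e1 : ∀ y ∈ W, rho Q k' y = y := fun y hy => by rw [hk]; exact k3 y hy
    have e2 : ∀ y ∈ W, rho Q ((g * k')⁻¹ * x * (g * k')) y = rho Q (g⁻¹ * x * g) y :=
      fun y hy => by rw [e, e1 y hy, ← e1 _ (w4 y hy), H28.rho_inv_rho, e1 _ (w4 y hy)]
    have t1 : TInv (rho Q ((g * k')⁻¹ * x * (g * k'))) P' := fun y hy => by
      obtain ⟨z, z1, z2⟩ : rho Q (g⁻¹ * x * g) (rho Q k' y) ∈ P'.map (rho Q k') := by
        rw [hk, k2]; exact n4 _ (k2 ▸ mem_map_of_mem hy)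
      rwa [e, ← z2, H28.rho_inv_rho]
    have o := (ort_perp hf W).mono le_rfl p0
    refine ⟨g * k', W ⊔ P', w1.sup hf p1 o, by rw [w1.finrank_sup hf o]; omega, w3.sup p2,
      TInv.sup (fun y hy => e2 y hy ▸ w4 y hy) t1, fun y hy => ?_, fun _ => ⟨P', p1, p3, p2, t1⟩⟩
    obtain ⟨y, y1, z, z1, rfl⟩ := mem_sup.1 hy
    simp only [map_add, e2 y y1, e2 _ (w3 y y1), w5 y y1,
      h.plane (oi_rho _) (hc _) p1 p3 p2 t1 z z1, neg_add]

theorem exists_conj (hn : 5 ≤ Fintype.card ι) {d : ℕ} (hd : Fintype.card ι = 2 * d)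
    (N : Subgroup (H28.O Q))
    (hN : ∀ y, rho Q y * J = J * rho Q y ∨ rho Q y * J = -(J * rho Q y) → y ∈ N) {x : H28.O Q}
    (hx : x ∈ Omega F ⇑Q) {z : F} (h1 : rho Q x ^ 2 = z • 1) (h2 : ∀ z : F, rho Q x ≠ z • 1) :
    ∃ g ∈ Omega F ⇑Q, g⁻¹ * x * g ∈ N := by
  have hf := h.nq.sq
  haveI : Nonempty ι := Fintype.card_pos_iff.1 (by omega)
  obtain ⟨g, v, v2, g1, g2⟩ : ∃ (g : H28.O Q) (v : ι → F), Q v ≠ 0 ∧ g⁻¹ * x * g ∈ N ∧
      (g * H28.refl Q v)⁻¹ * x * (g * H28.refl Q v) ∈ N := by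
    have r1 : ∀ {P : Submodule F (ι → F)} {v}, v ∈ P → TInv (rho Q (H28.refl Q v)) P :=
      fun hv y hy => by rw [H28.rho_refl]; exact sub_mem hy (smul_mem _ _ hv)
    rcases (oi_rho x).iso.sq_cases hf h1 with h3 | h3
    · obtain ⟨k, hk⟩ := (om_rho.2 hx).even_V1 h.nq hn
      obtain ⟨-, i1, -, i2, -⟩ := (oi_rho x).inv_nd h.nq h.two h3
      have i3 := V0_pos h3 (h2 _)
      have i4 := V1_pos (T := rho Q x) fun e => h2 1 (by rw [e, one_smul])
      obtain ⟨U, u1, u2, u3, u4⟩ := h.exists_sub k (by omega) (Pl Q (V1 (rho Q x))) (by omega)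
      obtain ⟨g, g1, g2⟩ := (ws_quad h.nq).witt_map (ism_iff.2 (h.nq.aif_of_type u1 i1
        (by omega) ⟨k, by omega⟩ u4))
      obtain ⟨g', hg⟩ := OI.exists_O h.nq (T := g.toLinearMap) g1.2
      obtain ⟨v, v1, v2⟩ := u1.exists_Q_ne (by omega)
      have key : ∀ g : H28.O Q, U.map (rho Q g) = V1 (rho Q x) → g⁻¹ * x * g ∈ N :=
        fun g e => hN _ (.inl (h.comm u1 u2 (fun u hu => by
          simp [H28.rho_mul, V1_neg h3 (e ▸ mem_map_of_mem hu)]) fun u hu => by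
          have : rho Q g u ∈ V0 (rho Q x) := by
            rw [← (oi_rho x).iso.perp_V1 hf, ← e]
            rintro _ ⟨w, hw, rfl⟩
            exact ((oi_rho g).iso u w).trans (hu w hw)
          simp [H28.rho_mul, mem_V0.1 this]))
      exact ⟨g', v, v2, key _ (hg ▸ g2), key _ (by
        rw [map_mul, End.mul_eq_comp, map_comp, (r1 v1).map_eq ((oi_rho _).iso.inj hf), hg, g2])⟩
    obtain ⟨g, W, -, w2, -, -, w5, w6⟩ := h.exists_neg h3 hd d le_rfl
    obtain ⟨P, p1, p2, p3, p4⟩ := w6 (by omega)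
    obtain rfl : W = ⊤ := eq_top_of_finrank_eq (by rw [w2, finrank_fun', hd])
    obtain ⟨v, v1, v2⟩ := p1.exists_Q_ne (by omega)
    refine ⟨g, v, v2, hN _ (.inr (LinearMap.ext fun y => w5 y trivial)), hN _ (.inr ?_)⟩
    have e : ∀ y, rho Q ((g * H28.refl Q v)⁻¹ * x * (g * H28.refl Q v)) y = rho Q (H28.refl Q v)
        (rho Q (g⁻¹ * x * g) (rho Q (H28.refl Q v) y)) := fun y => by
      simp [H28.rho_mul, H28.refl_inv]
    refine end_ext_sup (p1.sup_perp hf) (h.plane (oi_rho _) (LinearMap.ext fun v => by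
      simp [pow_two, H28.rho_mul, sq_apply h3]) p1 p2 p3 fun y hy =>
        e y ▸ r1 v1 _ (p4 _ (r1 v1 _ hy))) fun y hy => ?_
    have e1 : ∀ y ∈ H9.perp hf P, rho Q (H28.refl Q v) y = y := fun y hy =>
      H28.rho_refl_of_orth ((polar_comm _ _ _).trans (hy v v1))
    have e2 := (oi_rho (g⁻¹ * x * g)).iso.tInv_perp hf p4
    change rho Q _ (J y) = -J _
    rw [e, e, e1 y hy, e1 _ (h.perp p3 y hy), e1 _ (e2 y hy), e1 _ (e2 _ (h.perp p3 y hy)),
      w5 y trivial]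
  obtain ⟨P, -, p1, p2, p3, p4⟩ := h.pl ⊤ (nd_top hf) (TInv.top _)
    (by rw [finrank_top, finrank_fun']; omega) (¬ IsSquare (-1 : F))
  obtain ⟨s, c, s1, s2, s3⟩ := h.nq.lift_neg h.two 1 P p1 p3
  have s4 : s ∈ N := hN _ (.inl (h.comm p1 p2 s2.1 fun u hu =>
    s2.2 u fun w hw => (polar_comm _ _ _).trans (hu w hw)))
  have s5 := H28.dickson_of_isLift (onondeg h.nq) (eichOK28 h.nq hn) s1
  have s6 := H28.spinor_of_isLift (onondeg h.nq) (eichOK28 h.nq hn) s1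
  rw [H28.sqSign_eq_neg_one.2 (by have : ¬ Even 1 := by decide
                                  tauto)] at s6
  have key : ∀ g, H28.dickson (onondeg h.nq) (eichOK28 h.nq hn) g = 1 → g⁻¹ * x * g ∈ N →
      ∃ g ∈ Omega F ⇑Q, g⁻¹ * x * g ∈ N := fun g a b => by
    rcases Int.units_eq_one_or (H28.spinor (onondeg h.nq) (eichOK28 h.nq hn) g) with e | e
    · exact ⟨g, (H28.mem_omega_iff _ _ g).2 ⟨a, e⟩, b⟩
    · exact ⟨g * s, (H28.mem_omega_iff _ _ _).2 ⟨by rw [map_mul, a, s5]; rfl,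
        by rw [map_mul, e, s6]; rfl⟩, by
          simpa [mul_assoc] using N.mul_mem (N.mul_mem (N.inv_mem s4) b) s4⟩
  rcases Int.units_eq_one_or (H28.dickson (onondeg h.nq) (eichOK28 h.nq hn) g) with e | e
  · exact key g e g1
  · exact key _ (by rw [map_mul, e, H28.dickson_refl _ _ v2]; rfl) g2

end SA

theorem isSquare_algebraMap {K : Type*} [Field K] [Fintype K] [Algebra F K] (h2 : (2 : F) ≠ 0)
    (hk : finrank F K = 2) (t : F) : IsSquare (algebraMap F K t) := by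
  rcases eq_or_ne t 0 with rfl | h0
  · simp
  have h2' : (2 : K) ≠ 0 := by simpa only [map_ofNat] using (map_ne_zero (algebraMap F K)).2 h2
  obtain ⟨a, ha⟩ : ∃ a, Fintype.card F = 2 * a + 1 := ⟨Fintype.card F / 2, by
    have := card_odd h2; omega⟩
  have := FiniteField.pow_card_sub_one_eq_one t h0
  rw [FiniteField.isSquare_iff (H27.ringChar_ne_two_of_two_ne_zero h2') ((map_ne_zero _).2 h0),
    card_sq_of_two hk, ha, show (2 * a + 1) ^ 2 = 1 + 2 * (2 * a * (a + 1)) by ring,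
    Nat.add_mul_div_left _ _ two_pos, ← map_pow]
  simp_all [pow_mul t (2 * a)]

theorem dvd_cancel' {x c b E a P R g : ℕ} (h : x * (c * b * P) ∣ E * a * (P * R * g)) (hP : 0 < P) :
    x ∣ a * g * (E * R) ∧ (a = b → 0 < a → x ∣ g * (E * R)) :=
  ⟨dvd_cancel (c := c * b) (a := 1) (by convert h using 1 <;> ring) hP one_pos, by
    rintro rfl ha
    exact dvd_cancel (c := c) (by convert h using 1; ring) hP ha⟩

section ox
variable {K : Type u} [Field K] [Fintype K] [Algebra F K] [Module K (ι → F)]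
  [IsScalarTower F K (ι → F)] {R : QuadraticForm K (ι → F)} (h : OX R Q) (h2 : (2 : F) ≠ 0)
  (hk : finrank F K = 2)
include h h2 hk

theorem ox_plane {X : Submodule K (ι → F)} (x1 : Nd (polar Q) (X.restrictScalars F))
    (x2 : 2 ≤ finrank K X) (π : Prop) : ∃ v ∈ X, Nd (polar Q) (KP F K v) ∧
      finrank F (KP F K v) = 2 ∧ (Pl Q (KP F K v) ↔ π) := by
  have h1 := (Algebra.trace F K).finrank_range_add_finrank_ker
  rw [LinearMap.range_eq_top.2 (Algebra.trace_surjective F _), finrank_top, finrank_self, hk] at h1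
  obtain ⟨ω, w0, w1⟩ := finrank_eq_one_iff'.1 (by omega : finrank F
    (LinearMap.ker (Algebra.trace F K)) = 1)
  have w2 : ω.1 ≠ 0 := fun e => w0 (Subtype.ext e)
  obtain ⟨ν, n0, n1⟩ : ∃ ν : K, ν ≠ 0 ∧ (IsSquare ν ↔ π) := by
    obtain ⟨c, c0, c1⟩ := exists_sq_class h.two (neg_ne_zero.2 one_ne_zero) π
    exact ⟨c, c0, by simpa using c1⟩
  obtain ⟨v, v1, v2⟩ := H28.NondegOn.exists_eq (Q := R) (W := X) (fun x hx e =>
    x1.eq_zero hx fun y hy => (h.trB x y).trans (by rw [H27.pB_eq, e y hy, map_zero])) x2 (ν * ω)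
  have v0 : v ≠ 0 := by rintro rfl; simp [n0, w2] at v2
  have q : ∀ k : K, Q (k • v) = Algebra.trace F _ (k * k * ν * ω) := fun k => by
    rw [h.tr, QuadraticMap.map_smul, v2, smul_eq_mul, mul_assoc (k * k)]
  have d2 := (finrank_KP (F := F) (K := K) v0).trans hk
  refine ⟨v, v1, nd_of_eq_zero fun y hy e => ?_, d2, fun ⟨U, u1, u2, u3⟩ => ?_, fun e => ?_⟩
  · obtain ⟨k, rfl⟩ := mem_KP.1 hy
    have : H27.pB R (k • v) v = 0 := eq_zero_of_trace (F := F) fun c => by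
      rw [mul_comm, ← h.tr2]; exact e _ (smul_mem_KP v c)
    rw [map_smul, LinearMap.smul_apply, H27.pB_self, v2] at this
    simp_all [h.two]
  · obtain ⟨u, u4, u5⟩ := Submodule.exists_mem_ne_zero_of_ne_bot (ne_bot_of_pos (W := U) (by omega))
    obtain ⟨k, rfl⟩ := mem_KP.1 (u1 u4)
    have k0 : k ≠ 0 := by rintro rfl; simp at u5
    obtain ⟨t, ht⟩ := w1 ⟨_, (q k).symm.trans (u2 _ u4)⟩
    obtain ⟨y, hy⟩ := isSquare_algebraMap h2 hk t
    have := mul_right_cancel₀ w2 ((Algebra.smul_def t ω.1).symm.trans (congrArg Subtype.val ht))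
    exact n1.1 ⟨y / k, by field_simp; linear_combination hy - this⟩
  · obtain ⟨y, rfl⟩ := n1.2 e
    have y0 := left_ne_zero_of_mul n0
    refine ⟨span F {y⁻¹ • v}, span_le_of_mem (smul_mem_KP _ _), ts_line ?_, by
      rw [finrank_span_singleton (smul_ne_zero (inv_ne_zero y0) v0), d2]⟩
    rw [q, show y⁻¹ * y⁻¹ * (y * y) = 1 by field_simp, one_mul]
    exact ω.2

theorem ox_iso {S : End K (ι → F)} (hS : OI Q (S.restrictScalars F)) (v : ι → F) :
    R (S v) = R v := mul_left_cancel₀ h.two (by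
  rw [← H27.pB_self, ← H27.pB_self]
  exact eq_of_trace (F := F) fun c => by
    rw [mul_comm, ← h.tr2, mul_comm, ← h.tr2, ← map_smul]; exact hS.iso v (c • v))

variable {r d : ℕ} [hr : Fact r.Prime] (hQ : NQ Q) (hN : (r : F) ≠ 0)
  (hd : Fintype.card ι = 2 * d) {R' : QuadraticForm K (Fin d → K)} (hR : NQ R')
include hQ hN hd hR

theorem ox_arith {x : ℕ} (hx : r ∣ x)
    (h1 : x * Nat.card (isometryGroup K ⇑R') ∣ Nat.card (isometryGroup F ⇑Q)) (h0 : 2 ≤ d) :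
    Odd (ordF K r) ∨ ∃ m, d = 2 * m ∧ ¬ (Pl Q ⊤ ↔ Pl R' ⊤) ∧
      ((Pl Q ⊤ ∧ (Fintype.card F : ZMod r) ^ d = 1) ∨
        (¬ Pl Q ⊤ ∧ (Fintype.card F : ZMod r) ^ d = -1)) := by
  have hK := card_sq_of_two hk
  have hq := Fintype.one_lt_card (α := K)
  have h7 : ∀ d, 0 < ∏ i ∈ Finset.range d, (Fintype.card K ^ (2 * (i + 1)) - 1) := fun d =>
    Finset.prod_pos fun i _ => Nat.sub_pos_of_lt (Nat.one_lt_pow (by positivity) hq)
  have k1 : ∀ j, Odd j → r ∣ Fintype.card K ^ j - 1 → Odd (ordF K r) :=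
    fun j a c => a.of_dvd_nat ((ord_dvd_iff Fintype.card_pos).2 c)
  have k2 : ∀ m k, r ∣ 2 * Fintype.card F ^ k * ∏ i ∈ (Finset.range (2 * m)).filter
      (fun i => ¬ 2 ∣ i + 1), (Fintype.card K ^ (i + 1) - 1) → Odd (ordF K r) := fun m k b => by
    rcases (Nat.Prime.dvd_mul hr.out).1 b with h9 | h9
    · rcases (Nat.Prime.dvd_mul hr.out).1 h9 with h9 | h9
      · exact k1 1 odd_one (h9.trans (by have := card_odd h.two; rw [pow_one]; omega))
      · exact absurd (hr.out.dvd_of_dvd_pow h9) (not_dvd_card_of_cast_ne hN)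
    obtain ⟨i, hi, h10⟩ := (hr.out.prime.dvd_finsetProd_iff _).1 h9
    exact k1 _ (Nat.odd_iff.2 (by have := (Finset.mem_filter.1 hi).2; omega)) h10
  obtain ⟨d, rfl⟩ : ∃ e, d = e + 1 := ⟨d - 1, by omega⟩
  obtain ⟨a, a1, a2⟩ := card_O_even hQ hd
  have a3 : r ∣ a → (Pl Q ⊤ ∧ (Fintype.card F : ZMod r) ^ (d + 1) = 1) ∨
      (¬ Pl Q ⊤ ∧ (Fintype.card F : ZMod r) ^ (d + 1) = -1) := fun e => by
    rw [← ZMod.natCast_eq_zero_iff] at e
    refine a1.imp (And.imp_right fun a => ?_) (And.imp_right fun a => ?_) <;>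
      have := congrArg (Nat.cast : ℕ → ZMod r) a <;> push_cast at this
    exacts [by linear_combination e - this, by linear_combination e - this]
  simp only [pow_mul (Fintype.card F) 2, ← hK] at a2
  obtain ⟨m, rfl | rfl⟩ := Nat.even_or_odd' d
  · rw [a2, card_O_odd hR h.two (m := m) (by simp),
      prod_split_dvd (fun j => Fintype.card K ^ j - 1) two_pos, ← mul_one ((∏ i ∈ _, _) * _)] at h1
    rcases (Nat.Prime.dvd_mul hr.out).1 (hx.trans (dvd_cancel' h1 (h7 m)).1) with h9 | h9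
    · refine .inl (k1 (2 * m + 1) (by simp) ((ord_dvd_iff Fintype.card_pos).1
        (orderOf_dvd_of_pow_eq_one ?_)))
      rw [hK, Nat.cast_pow, pow_right_comm]
      rcases a3 (by simpa using h9) with ⟨-, e⟩ | ⟨-, e⟩ <;> simp [e]
    · exact .inl (k2 m _ h9)
  obtain ⟨b, b1, b2⟩ := card_O_even hR (d := m) (by simp; omega)
  rw [a2, b2, Finset.prod_range_succ,
    prod_split_dvd (fun j => Fintype.card K ^ j - 1) two_pos] at h1
  obtain ⟨c1, c2⟩ := dvd_cancel' h1 (h7 m)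
  by_cases e : Pl Q ⊤ ↔ Pl R' ⊤
  · rw [hK, ← pow_mul, show 2 * (m + 1) = 2 * m + 1 + 1 by ring] at b1
    have := Nat.one_lt_pow (n := 2 * m + 1 + 1) (by omega) (Fintype.one_lt_card (α := F))
    obtain ⟨a4, a0⟩ : a = b ∧ 0 < a := by
      rcases a1 with ⟨a, _⟩ | ⟨a, _⟩ <;> rcases b1 with ⟨b, _⟩ | ⟨b, _⟩ <;>
        first | omega | tauto
    exact .inl (((Nat.Prime.dvd_mul hr.out).1 (hx.trans (c2 a4 a0))).elim (k1 _ (by simp)) (k2 m _))
  rcases (Nat.Prime.dvd_mul hr.out).1 (hx.trans c1) with h9 | h9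
  · exact ((Nat.Prime.dvd_mul hr.out).1 h9).symm.imp (k1 _ (by simp))
      fun h9 => ⟨m + 1, by ring, e, a3 h9⟩
  · exact .inl (k2 m _ h9)

omit hR in
theorem ox_der (hr2 : r ≠ 2) (h0 : 2 ≤ d) (e : (ι → F) ≃ₗ[K] (Fin d → K)) {x : ℕ} (hx : r ∣ x)
    (h1 : x * Nat.card (isometryGroup K ⇑(R.comp e.symm.toLinearMap)) ∣
      Nat.card (isometryGroup F ⇑Q)) : ∃ T, OI Q T ∧ T ^ r = 1 ∧ T ≠ 1 ∧
      ∀ S : End K (ι → F), OI Q (S.restrictScalars F) → ¬ Sim T (S.restrictScalars F) := by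
  classical
  have hR : NQ (R.comp e.symm.toLinearMap) := isNQ_of_nd (h.nd.congr e fun x => by simp)
  haveI := Fact.mk (card_sq_of_two hk)
  have hN' : (r : K) ≠ 0 := by simpa using (map_ne_zero (algebraMap F K)).2 hN
  obtain ⟨c, hc⟩ : ∃ c, c = if Even (ordF F r) then ordF F r else 2 * ordF F r := ⟨_, rfl⟩
  haveI := Fact.mk (CharP.char_is_prime F (ringChar F))
  have k0 := (hQ.pk hN hr2 hc).pos
  have h4 := neg_one_ne_one_zmod hr2
  have key : ∀ {T : End F (ι → F)} {S : End K (ι → F)}, T ^ r = 1 → OI Q (S.restrictScalars F) →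
      Sim T (S.restrictScalars F) → OI (R.comp e.symm.toLinearMap) (e.conj S) ∧ e.conj S ^ r = 1 ∧
        finrank F (V1 T) = 2 * finrank K (V1 (e.conj S)) := fun {T S} a b c => by
    have s : Sim S (e.conj S) := ⟨e, fun v => by simp⟩
    exact ⟨fun v => by simp [ox_iso h h2 hk b], s.pow_one' (pow_of_res (c.pow_one' a)),
      by rw [c.V1, finrank_V1_res, hk, s.V1]⟩
  rcases ox_arith h h2 hk hQ hN hd hR hx h1 h0 with i1 | ⟨m, rfl, m1, m2⟩
  · obtain ⟨T, t1, t2, t3⟩ : ∃ T, OI Q T ∧ T ^ r = 1 ∧ finrank F (V1 T) = c := by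
      obtain ⟨g, hg⟩ := exists_prime_orderOf_dvd_card' r ((hx.mul_right _).trans h1)
      have g1 : rho Q g ^ r = 1 := by rw [← map_pow, ← hg, pow_orderOf_eq_one, map_one]
      have g2 := V1_pos (T := rho Q g) fun e => hr.out.one_lt.ne' (by
        rw [← hg, H28.O_ext (g := g) (h := 1) fun v => by rw [e, map_one], orderOf_one])
      obtain ⟨s, s1, s2, -⟩ := (oi_rho g).split_top hQ hN hr2 hc g1
      have := Nat.le_mul_of_pos_left c (Nat.pos_of_ne_zero fun e => by simp_all : 0 < s)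
      by_cases e : c < Fintype.card ι
      · obtain ⟨T, t1, t2, t3⟩ := hQ.exists_V0 hN hr2 hc (k := Fintype.card ι - c) (s := 1)
          (by omega) (by omega)
        exact ⟨T, t1, t2, by have := finrank_V0_add_V1 T; rw [finrank_fun'] at this; omega⟩
      · exact ⟨_, oi_rho g, g1, by omega⟩
    refine ⟨T, t1, t2, ne_one_of_V1 (by omega), fun S s1 s2 => ?_⟩
    obtain ⟨a1, a2, a3⟩ := key t2 s1 s2
    obtain ⟨s, s1, -⟩ := a1.split_top hR hN' hr2 rfl a2
    have := ordF_herm (F := K) (q := Fintype.card F) (r := r) rfl rfl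
    rw [if_neg (Nat.not_even_iff_odd.2 i1)] at s1
    change _ = if Even (ordF F r) then ordF F r / 2 else ordF F r at this
    have h5 : c = 2 * ordF K r := by
      rw [hc, this]; split_ifs with h
      exacts [(Nat.two_mul_div_two_of_even h).symm, rfl]
    rw [s1, t3, ← h5, ← mul_assoc] at a3
    have := Nat.eq_of_mul_eq_mul_right k0 ((one_mul c).trans a3)
    omega
  have h5 : ordF F r ∣ 2 * (2 * m) := orderOf_dvd_of_pow_eq_one (by
    rw [mul_comm, pow_mul]; rcases m2 with ⟨-, h⟩ | ⟨-, h⟩ <;> simp [h])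
  obtain ⟨s, hs⟩ : c ∣ 2 * (2 * m) := by
    rw [hc]; split_ifs with h
    exacts [h5, mul_dvd_mul_left 2 ((Nat.coprime_two_right.2
      (Nat.not_even_iff_odd.1 h)).dvd_of_dvd_mul_left h5)]
  have m3 : Pl Q ⊤ ↔ (Fintype.card F : ZMod r) ^ (2 * m) = 1 := by
    rcases m2 with ⟨a, h⟩ | ⟨a, h⟩ <;> simp [a, h, h4]
  obtain ⟨T, t1, t2, t3⟩ := hQ.exists_V0 hN hr2 hc (k := 0) (s := s) (by rw [hd, hs]; ring)
    fun _ => m3.trans (pow_eq_one_iff_tau hN hr2 hc (by rw [hs, mul_comm]))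
  refine ⟨T, t1, t2, ne_one_of_V0 (by omega), fun S s1 s2 => m1 ?_⟩
  obtain ⟨a1, a2, a3⟩ := key t2 s1 s2
  have b1 := finrank_V0_add_V1 T
  have b2 := finrank_V0_add_V1 (e.conj S)
  simp only [finrank_fun', Fintype.card_fin] at b1 b2
  rw [m3, pl_top_iff, plusA_iff_of_fpf (ond hR) hN' hr2 a1 a2 (fun v hv => (mem_bot K).1
    (Submodule.finrank_eq_zero.1 (by omega : finrank K (V0 (e.conj S)) = 0) ▸ mem_V0.2 hv))
    (m := m) (by simp), card_sq_of_two hk, Nat.cast_pow, ← pow_mul]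

end ox

theorem ext_iff (hQ : NQ Q) (h2 : (2 : F) ≠ 0) {d : ℕ} (hd : Fintype.card ι = 2 * d) (h4 : 4 ≤ d)
    {K : Subalgebra F (Matrix ι ι F)} (hK : IsFieldSubalgebra 2 K)
    (hs : IsSelfAdjointFor (polar Q) K) (p : ℕ) [Fact p.Prime] [CharP F p] {r : ℕ}
    [hr : Fact r.Prime] (hΩ : r ∣ (subalgebraNormalizer K).relIndex (omegaGL ⇑Q)) :
    (∀ x ∈ omegaGL ⇑Q, (∃ z : F, ((x ^ r : GL ι F) : Matrix ι ι F) = z • 1) →
      (∀ z : F, (x : Matrix ι ι F) ≠ z • 1) →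
      ∃ g ∈ omegaGL ⇑Q, g⁻¹ * x * g ∈ subalgebraNormalizer K) ↔ r = 2 := by
  classical
  haveI : Nonempty ι := Fintype.card_pos_iff.1 (by omega)
  have hf := hQ.sq
  letI : Fintype (KF hK) := Fintype.ofFinite _
  have hk := KF.finrank_eq hK
  have h1 := finrank_KF_mul hK
  obtain ⟨R, h⟩ := exists_oX (K := KF hK) (ond hQ) h2 (fun k => hs _ (KF.mat_mem hK k))
    (by rw [hk]; exact Nat.prime_two) (by omega) (by rw [finrank_fun']; omega)
  refine ⟨fun H => by_contra fun hr2 => ?_, ?_⟩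
  · have ho := hr.out.odd_of_ne_two hr2
    suffices ∃ T, OI Q T ∧ T ^ r = 1 ∧ T ≠ 1 ∧ ∀ S : End (KF hK) (ι → F),
        OI Q (S.restrictScalars F) → ¬ Sim T (S.restrictScalars F) by
      obtain ⟨T, t1, t2, t3, t4⟩ := this
      obtain ⟨x, rfl⟩ := exists_gl (t1.iso.inj hf)
      have x1 := (mem_omegaGL_iff x).2 (t1.om_odd hQ (by omega) ho t2)
      obtain ⟨g, g1, hg⟩ := H x x1 ⟨1, gl_pow_smul_iff.2 (by rw [t2, one_smul])⟩
        (gl_ne_smul (t1.iso.ne_smul_bilin hf ho t2 t3))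
      have h7 := sim_conj_gl g x
      obtain ⟨S, hS⟩ := exists_klin_of_comm hK (x := (g⁻¹ * x * g).1) fun a ha =>
        comm_of_coprime hK Nat.prime_two hg (gl_pow_of_toLin' (h7.pow_one' t2))
          (fun e => hr2 ((Nat.prime_dvd_prime_iff_eq Nat.prime_two hr.out).1 e).symm) ha
      exact t4 S (hS ▸ ((mem_omegaGL_iff _).1 (mul_mem (mul_mem (inv_mem g1) x1) g1)).oi) (hS ▸ h7)
    rcases eq_or_ne r p with rfl | hrp
    · obtain ⟨T, t1, t2⟩ := hQ.exists_jt h2 (μ := 3 ::ₘ .replicate (2 * d - 3) 1) (e := 3)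
        (by simp [Multiset.mem_replicate]) (fun a ha => by
          have : a ≠ 3 ∧ 1 ≠ a := by constructor <;> rintro rfl <;> exact absurd ha (by decide)
          simp [Multiset.count_replicate, this]) (by simp; omega) (by simp) (by decide)
      have := hr.out.two_le
      refine ⟨T, t1, jt_pow hQ h2 t2 (by simp [Multiset.mem_replicate]; omega),
        t2.ne_one (b := 3) (by simp) (by omega), fun S _ s => ?_⟩
      have := (t2.of_sim s).finrank_map_top (k := 2) (by simp [Multiset.mem_replicate])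
      have h3 := IsFieldSubalgebra_dvd hK (W := Submodule.map ((S.restrictScalars F - 1) ^ 2) ⊤) (by
        rintro k hk _ ⟨v, -, rfl⟩
        obtain ⟨k, rfl⟩ := KF.exists_mat hK hk
        exact ⟨k • v, trivial, ((S - 1) ^ 2).map_smul k v⟩)
      simp [this, Multiset.count_replicate] at h3
    let e : (ι → F) ≃ₗ[KF hK] (Fin d → KF hK) := .ofFinrankEq _ _ (by simp; omega)
    obtain ⟨ψ, a1, a2, a3⟩ := exists_hom_norm hK e ((Units.coeHom _).comp
      (isometryGroup _ ⇑(R.comp e.symm.toLinearMap)).subtype)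
      (Units.val_injective.comp Subtype.val_injective)
    refine ox_der h h2 hk hQ (cast_ne_zero_of_ne hrp) hd hr2 (by omega) e ?_
      (relIndex_mul_dvd ψ a1 a2 fun g => mem_iso.2 fun v => ?_)
    · rw [omegaGL, ← Subgroup.relIndex_comap] at hΩ
      exact hΩ.trans (relIndex_dvd_index' _ _)
    · have := mem_iso.1 g.2 (e v)
      rw [h.tr, h.tr, ← e.symm_apply_apply (_ *ᵥ v), a3]
      exact congrArg _ (this.trans (by simp))
  rintro rfl _ ⟨x, hx, rfl⟩ ⟨z, hz⟩ h3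
  obtain ⟨j, δ, hj⟩ := exists_qGen h2 hK
  obtain ⟨j', hj'⟩ := KF.exists_mat hK hj.mem
  have hJ : SA Q (Matrix.toLin' j) δ := ⟨hQ, h2, hs j hj.mem, hj.mulVec_sq, hj.ns,
    fun X x1 x2 x3 π => by
      have x4 : ∀ a ∈ K, TInv (Matrix.toLin' a) X := fun a ha v hv => by
        obtain ⟨s, t, rfl⟩ := hj.span a ha
        simpa using X.add_mem (X.smul_mem s hv) (X.smul_mem t (x2 v hv))
      have x5 := finrank_kSub hK X x4
      obtain ⟨v, v1, v2, v3, v4⟩ := ox_plane h h2 hk (X := kSub hK X x4) x1 (by omega) π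
      refine ⟨_, fun y hy => ?_, v2, fun y hy => hj' ▸ KP_smul hy j', v3, v4⟩
      obtain ⟨k, rfl⟩ := mem_KP.1 hy
      exact (kSub hK X x4).smul_mem k v1⟩
  obtain ⟨g, g1, g2⟩ := hJ.exists_conj (by omega) hd ((subalgebraNormalizer K).subgroupOf _)
    (fun y hy => (hj.mem_norm h2).2 (hy.imp (fun e => Matrix.toLin'.injective (by
      rw [Matrix.toLin'_mul, Matrix.toLin'_mul]; exact e)) fun e => Matrix.toLin'.injective (by
      rw [map_neg, Matrix.toLin'_mul, Matrix.toLin'_mul]; exact e))) hx (gl_pow_smul_iff.1 hz)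
    (gl_ne_smul' h3)
  exact ⟨g, ⟨g, g1, rfl⟩, g2⟩

end Cfsg.Agent.H99
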