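import Cfsg.Agent.H99.ExclSL2
import Cfsg.Agent.H98.ExtraCard
import Cfsg.Agent.S5630

/-! Maximal subgroups of `SL_n(q)`: the geometric possibilities with their side conditions. -/

set_option autoImplicit false

namespace Cfsg.Agent.H99

open Cfsg Cfsg.Geo Cfsg.Agent.H98 Matrix
open scoped MatrixGroups commutatorElement Kronecker

variable {F : Type*} [Field F] [Fintype F]

/-- Arithmetic of the class-6 data in the linear case. -/
theorem linearSymplecticType_arith {ι : Type} [Fintype ι] [DecidableEq ι] (h3 : 3 ≤ Fintype.card ι)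
    {r : ℕ} {R : Subgroup (GL ι F)} (hR : IsLinearSymplecticTypeData r R) :
    r.Prime ∧ (∃ m, Fintype.card ι = r ^ m) ∧ ∃ p e : ℕ, p.Prime ∧ CharP F p ∧
      Fintype.card F = p ^ e ∧ r ≠ p ∧
      ((Odd r ∧ Odd e ∧ r ∣ p ^ e - 1 ∧ ∀ d, 0 < d → d < e → ¬ r ∣ p ^ d - 1) ∨
        (r = 2 ∧ e = 1 ∧ p % 4 = 1)) := by
  have hr := hR.symplecticType.prime
  obtain ⟨p, e, hrp, ⟨hp, hc, hq, hz, hmin⟩, hcase⟩ := hR.field
  have hpow : Nat.card (Subgroup.center R) = r * Nat.gcd 2 r → ∃ m, Fintype.card ι = r ^ m := by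
    intro hZ
    have h1 := (card_sq_mul_card_center hR.symplecticType hR.absIrred hZ).1
    haveI := Fact.mk hr
    obtain ⟨j, hj⟩ := IsPGroup.iff_card.1 hR.symplecticType.pGroup
    have h2 : Fintype.card ι ∣ r ^ j := by
      rw [← hj, ← h1]; exact Dvd.dvd.mul_right (dvd_pow_self _ two_ne_zero) _
    obtain ⟨m, -, hm⟩ := (Nat.dvd_prime_pow hr).1 h2
    exact ⟨m, hm⟩
  rcases hcase with ⟨h1, h2, h4, -⟩ | ⟨h1, h2, h4, -⟩ | ⟨-, -, h4, -⟩
  · rw [h4] at hz hmin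
    exact ⟨hr, hpow (by rw [h4, Nat.coprime_two_left.2 h1, mul_one]), p, e, hp, hc, hq, hrp,
      Or.inl ⟨h1, h2, hz, hmin⟩⟩
  · rw [h4, h2, pow_one] at hz
    refine ⟨hr, hpow (by rw [h4, h1]; rfl), p, e, hp, hc, hq, hrp, Or.inr ⟨h1, h2, ?_⟩⟩
    have := hp.two_le
    clear hpow
    omega
  · clear hpow; omega

/-- The exponent of the minimal field divides `r - 1`. -/
theorem minimal_exp_dvd {r p e : ℕ} (hr : r.Prime) (hp : p.Prime) (hrp : r ≠ p) (he : Odd e)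
    (h1 : r ∣ p ^ e - 1) (h2 : ∀ d, 0 < d → d < e → ¬ r ∣ p ^ d - 1) :
    e ∣ r - 1 ∧ orderOf (p : ZMod r) = e := by
  haveI := Fact.mk hr
  have hiff : ∀ d, r ∣ p ^ d - 1 ↔ (p : ZMod r) ^ d = 1 := by
    intro d
    rw [← ZMod.natCast_eq_zero_iff, Nat.cast_sub (Nat.one_le_pow _ _ hp.pos), sub_eq_zero]
    push_cast
    rfl
  have ho : orderOf (p : ZMod r) = e :=
    (orderOf_eq_iff he.pos).2 ⟨(hiff e).1 h1, fun m hm hm0 h => h2 m hm0 hm ((hiff m).2 h)⟩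
  refine ⟨?_, ho⟩
  rw [← ho]
  apply ZMod.orderOf_dvd_card_sub_one
  rw [Ne, ZMod.natCast_eq_zero_iff]
  exact fun h => hrp ((Nat.prime_dvd_prime_iff_eq hr hp).1 h)

theorem mod_eq_one_of_orderOf {r p : ℕ} (hr : r.Prime) (h : orderOf (p : ZMod r) = 1) :
    p % r = 1 := by
  rw [orderOf_eq_one_iff] at h
  have h1 := (ZMod.natCast_eq_natCast_iff' p 1 r).1 (by simpa using h)
  rwa [Nat.mod_eq_of_lt hr.one_lt] at h1

/-- The refined list of geometric maximal subgroups of `SL_n(q)`. -/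
theorem list_sl {n : ℕ} (hn : 3 ≤ n) {H : Subgroup (GL (Fin n) F)}
    (hH : IsMaximalIn (specialLinear (Fin n) F) H) :
    (∃ W : Submodule F (Fin n → F), W ≠ ⊥ ∧ W ≠ ⊤ ∧
      H = subspaceStabilizer W ⊓ specialLinear (Fin n) F) ∨
    (∃ (t m : ℕ) (D : Fin t → Submodule F (Fin n → F)), IsMDecomposition m D ∧ n = t * m ∧
      (m = 1 → 5 ≤ Fintype.card F) ∧ (m = 2 → 3 ≤ Fintype.card F) ∧
      (m = 1 → t = 4 → 7 ≤ Fintype.card F) ∧ (m = 2 → t = 2 → 4 ≤ Fintype.card F) ∧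
      H = decompositionStabilizer D ⊓ specialLinear (Fin n) F) ∨
    (∃ (r : ℕ) (K : Subalgebra F (Matrix (Fin n) (Fin n) F)), r.Prime ∧ r ∣ n ∧
      IsFieldSubalgebra r K ∧ (n = 3 → Fintype.card F ≠ 4) ∧
      H = subalgebraNormalizer K ⊓ specialLinear (Fin n) F) ∨
    (∃ (a b : ℕ) (e : Fin n ≃ Fin a × Fin b) (P : GL (Fin n) F), 2 ≤ a ∧ a < b ∧ n = a * b ∧
      (a = 2 → 3 ≤ Fintype.card F) ∧ H = tensorProductSubgroup a b e P ⊓ specialLinear (Fin n) F) ∨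
    (∃ (F₀ : Subfield F) (r : ℕ) (P : GL (Fin n) F), r.Prime ∧ Fintype.card F = Nat.card F₀ ^ r ∧
      H = subfieldSubgroup F₀ P ⊓ specialLinear (Fin n) F) ∨
    (∃ (r : ℕ) (R : Subgroup (GL (Fin n) F)), IsLinearSymplecticTypeData r R ∧ r.Prime ∧
      (∃ m, n = r ^ m) ∧ (∃ p e : ℕ, p.Prime ∧ CharP F p ∧ Fintype.card F = p ^ e ∧
        ((Odd r ∧ Odd e ∧ e ∣ r - 1 ∧ orderOf (p : ZMod r) = e) ∨ (r = 2 ∧ e = 1 ∧ p % 4 = 1))) ∧
      H = subgroupNormalizer R ⊓ specialLinear (Fin n) F) ∨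
    (∃ (m t : ℕ) (e : Fin n ≃ (Fin t → Fin m)) (P : GL (Fin n) F), 3 ≤ m ∧ 2 ≤ t ∧ n = m ^ t ∧
      H = tensorWreathSubgroup m t e P ⊓ specialLinear (Fin n) F) ∨
    (Odd (Fintype.card F) ∧ ∃ Q : (Fin n → F) → F, IsNondegenerateQuadraticForm Q ∧
      H = quadSimilarityGroup Q ⊓ specialLinear (Fin n) F) ∨
    (Even n ∧ ∃ f : (Fin n → F) → (Fin n → F) → F, IsSymplecticForm f ∧
      H = similarityGroup f ⊓ specialLinear (Fin n) F) ∨
    (∃ (σ : F ≃+* F) (f : (Fin n → F) → (Fin n → F) → F), IsUnitaryForm σ f ∧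
      H = similarityGroup f ⊓ specialLinear (Fin n) F) ∨
    InLinearResidualClass H := by
  have h3 : 3 ≤ Fintype.card (Fin n) := by simpa using hn
  haveI : Nonempty (Fin n) := ⟨⟨0, by omega⟩⟩
  have hq2 : 2 ≤ Fintype.card F := Fintype.one_lt_card
  have hq6 : Fintype.card F ≠ 6 := by
    intro h
    have := FiniteField.isPrimePow_card F
    rw [h] at this
    exact absurd this (by decide)
  rcases Cfsg.Agent.S5630.result n hn H hH.1.le (sup_scalars_ne_of_lt (sl_perfect h3) hH.1) with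
    ⟨M, hM, hHM⟩ | hres
  swap
  · simp only [hres, or_true]
  have hP := not_sl_le_of_inLinearClass hn hM
  rcases hM with ⟨W, h0, h1, rfl⟩ | ⟨W, U, h0, h1, -, rfl⟩ | ⟨W, U, h0, h1, h2, h4, rfl⟩ |
    ⟨t, m, D, hD, rfl⟩ | ⟨r, K, hr, hK, rfl⟩ | ⟨n₁, n₂, e, P, h1, h2, rfl⟩ |
    ⟨F₀, r, P, hr, hc, rfl⟩ | ⟨r, R, hR, rfl⟩ | ⟨m, t, e, P, hm, ht, rfl⟩ | ⟨f, hf, he, -, rfl⟩ |
    ⟨σ, f, hf, -, rfl⟩ | ⟨Q, hQ, ho, -, rfl⟩
  · exact Or.inl ⟨W, h0, h1, eq_inf_of_le hH hHM hP⟩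
  · have h2 := (h1.trans_le le_top).ne
    exact Or.inl ⟨W, h0, h2, eq_inf_of_le hH (hHM.trans inf_le_left) (not_sl_le_stab h0 h2)⟩
  · have h5 : W ≠ ⊤ := by
      rintro rfl
      exact absurd (Submodule.finrank_mono (le_top : U ≤ ⊤)) (not_le.2 h4)
    exact Or.inl ⟨W, h0, h5, eq_inf_of_le hH (hHM.trans inf_le_left) (not_sl_le_stab h0 h5)⟩
  · have hn' : n = t * m := by simpa using card_eq_of_dec hD
    have hHe := eq_inf_of_le hH hHM hP
    by_cases hA : m = 1 ∧ Fintype.card F < 5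
    · obtain ⟨rfl, hq⟩ := hA
      obtain ⟨e, P, h⟩ := exists_adapted_one hD
      have hq' : Fintype.card F = 2 ∨ Fintype.card F = 3 ∨ Fintype.card F = 4 := by omega
      rcases hq' with hq | hq | hq
      · obtain ⟨h0, h1⟩ := span_one_ne (F := F) hD.two_le e P
        exact Or.inl ⟨_, h0, h1, eq_inf_of_le hH (hHM.trans (h.frame_two hq)) (not_sl_le_stab h0 h1)⟩
      · have ho : Odd (Fintype.card F) := by rw [hq]; decide
        have hQ := quad_pushQ e P (quad_sumSq (κ := Fin t) (two_ne_zero_of_odd ho))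
        refine Or.inr (Or.inr (Or.inr (Or.inr (Or.inr (Or.inr (Or.inr (Or.inl ⟨ho, _, hQ, ?_⟩)))))))
        exact eq_inf_of_le hH (hHM.trans (h.frame_three hq)) (not_sl_le_quadSim h3 hQ)
      · obtain ⟨s, hs1, hs2, hs3⟩ := exists_conj_of_card_four hq
        have hf := unit_pushF e P (unit_sumHerm (κ := Fin t) hs1 hs2)
        refine Or.inr (Or.inr (Or.inr (Or.inr (Or.inr (Or.inr (Or.inr (Or.inr (Or.inr
          (Or.inl ⟨s, _, hf, ?_⟩)))))))))
        exact eq_inf_of_le hH (hHM.trans (h.frame_four hq hs3))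
          (not_sl_le_similarity h3 hf.add_left hf.smul_left hf.nondegenerate)
    by_cases hB : m = 2 ∧ Fintype.card F < 3
    · obtain ⟨rfl, hq⟩ := hB
      obtain ⟨e, P, h⟩ := exists_adapted hD
      have hf := symp_pushF e P (symp_sumAlt (τ := Fin t) (F := F))
      refine Or.inr (Or.inr (Or.inr (Or.inr (Or.inr (Or.inr (Or.inr (Or.inr
        (Or.inl ⟨by rw [hn']; simp, _, hf, ?_⟩))))))))
      exact eq_inf_of_le hH (hHM.trans (h.planes_two (by omega)))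
        (not_sl_le_similarity h3 hf.bilinear.add_left hf.bilinear.smul_left hf.nondegenerate)
    by_cases hC : m = 2 ∧ t = 2 ∧ Fintype.card F < 4
    · obtain ⟨rfl, rfl, hq⟩ := hC
      obtain ⟨e, P, h⟩ := exists_adapted hD
      have hf := symp_pushF e P (symp_sumAlt (τ := Fin 2) (F := F))
      refine Or.inr (Or.inr (Or.inr (Or.inr (Or.inr (Or.inr (Or.inr (Or.inr
        (Or.inl ⟨by rw [hn']; decide, _, hf, ?_⟩))))))))
      exact eq_inf_of_le hH (hHe.le.trans (h.planes_three (by omega)))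
        (not_sl_le_similarity h3 hf.bilinear.add_left hf.bilinear.smul_left hf.nondegenerate)
    by_cases hE : m = 1 ∧ t = 4 ∧ Fintype.card F < 7
    · obtain ⟨rfl, rfl, hq⟩ := hE
      exact absurd (hHe ▸ hH) (frame_five_not_maximal (by omega) hD)
    refine Or.inr (Or.inl ⟨t, m, D, hD, hn', ?_, ?_, ?_, ?_, hHe⟩) <;> omega
  · have hrn : r ∣ n := by simpa using IsFieldSubalgebra_dvd_card hK
    have hHe := eq_inf_of_le hH hHM hP
    by_cases hA : n = 3 ∧ Fintype.card F = 4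
    · obtain ⟨rfl, hq⟩ := hA
      obtain rfl : r = 3 := (Nat.prime_dvd_prime_iff_eq hr Nat.prime_three).1 hrn
      obtain ⟨F₀, P, hc, hle⟩ := singer_three_four hq hK
      exact Or.inr (Or.inr (Or.inr (Or.inr (Or.inl ⟨F₀, 2, P, Nat.prime_two, hc,
        eq_inf_of_le hH (hHe.le.trans hle)
          (not_sl_le_subfield (by simp) (subfield_ne_top_of_prime Nat.prime_two hc) P)⟩))))
    · exact Or.inr (Or.inr (Or.inl ⟨r, K, hr, hrn, hK, fun h1 h2 => hA ⟨h1, h2⟩, hHe⟩))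
  · have hn' : n = n₁ * n₂ := by simpa using Fintype.card_congr e
    by_cases hA : n₁ = 2 ∧ Fintype.card F < 3
    · obtain ⟨rfl, hq⟩ := hA
      have hq' : Fintype.card F = 2 := by omega
      have hK := isField_tensSub (by omega) e P (isField_fld4 hq')
      exact Or.inr (Or.inr (Or.inl ⟨2, _, Nat.prime_two, ⟨n₂, hn'⟩, hK, by omega,
        eq_inf_of_le hH (hHM.trans (tensor_le_norm e P fun x k hk => fld4_conj hq' x hk))
          (not_sl_le_fieldNorm h3 le_rfl hK)⟩))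
    · exact Or.inr (Or.inr (Or.inr (Or.inl ⟨n₁, n₂, e, P, h1, h2, hn', by omega,
        eq_inf_of_le hH hHM hP⟩)))
  · exact Or.inr (Or.inr (Or.inr (Or.inr (Or.inl ⟨F₀, r, P, hr, hc, eq_inf_of_le hH hHM hP⟩))))
  · obtain ⟨hr, hm, p, e, hp, hc, hq, hrp, hcase⟩ := linearSymplecticType_arith h3 hR
    refine Or.inr (Or.inr (Or.inr (Or.inr (Or.inr (Or.inl ⟨r, R, hR, hr, by simpa using hm,
      ⟨p, e, hp, hc, hq, ?_⟩, eq_inf_of_le hH hHM hP⟩)))))
    rcases hcase with ⟨h1, h2, h4, h5⟩ | h1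
    · exact Or.inl ⟨h1, h2, minimal_exp_dvd hr hp hrp h2 h4 h5⟩
    · exact Or.inr h1
  · have hn' : n = m ^ t := by simpa using Fintype.card_congr e
    exact Or.inr (Or.inr (Or.inr (Or.inr (Or.inr (Or.inr (Or.inl
      ⟨m, t, e, P, hm, ht, hn', eq_inf_of_le hH hHM hP⟩))))))
  · exact Or.inr (Or.inr (Or.inr (Or.inr (Or.inr (Or.inr (Or.inr (Or.inr
      (Or.inl ⟨he, f, hf, eq_inf_of_le hH hHM hP⟩))))))))
  · exact Or.inr (Or.inr (Or.inr (Or.inr (Or.inr (Or.inr (Or.inr (Or.inr (Or.inr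
      (Or.inl ⟨σ, f, hf, eq_inf_of_le hH hHM hP⟩)))))))))
  · exact Or.inr (Or.inr (Or.inr (Or.inr (Or.inr (Or.inr (Or.inr (Or.inl
      ⟨ho, Q, hQ, eq_inf_of_le hH hHM hP⟩)))))))

theorem pow_cases_le_twelve {n m t : ℕ} (hn : n ≤ 12) (hm : 3 ≤ m) (ht : 2 ≤ t) (h : n = m ^ t) :
    m = 3 ∧ t = 2 ∧ n = 9 := by
  have h1 : m ^ 2 ≤ m ^ t := Nat.pow_le_pow_right (by omega) ht
  have hm3 : m = 3 := by nlinarith
  subst hm3
  have ht2 : t = 2 := by
    by_contra hc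
    have : 3 ^ 3 ≤ 3 ^ t := Nat.pow_le_pow_right (by omega) (by omega)
    omega
  subst ht2
  omega

theorem eq_of_prime_pow {r s m k : ℕ} (hr : r.Prime) (hs : s.Prime) (hk : 0 < k)
    (h : s ^ k = r ^ m) : r = s :=
  ((Nat.prime_dvd_prime_iff_eq hs hr).1
    (hs.dvd_of_dvd_pow (h ▸ dvd_pow_self s hk.ne'))).symm

theorem not_prime_pow_of_two {r m n a b : ℕ} (hr : r.Prime) (ha : a.Prime) (hb : b.Prime)
    (hab : a ≠ b) (h1 : a ∣ n) (h2 : b ∣ n) : n ≠ r ^ m := by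
  rintro rfl
  exact hab (((Nat.prime_dvd_prime_iff_eq ha hr).1 (ha.dvd_of_dvd_pow h1)).trans
    ((Nat.prime_dvd_prime_iff_eq hb hr).1 (hb.dvd_of_dvd_pow h2)).symm)

end Cfsg.Agent.H99
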