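import Cfsg.Agent.H99.OTens

/-! Aschbacher's theorem for the orthogonal groups in dimensions 8 (minus type), 10 and 12. -/

set_option autoImplicit false
set_option linter.unusedSectionVars false
set_option linter.unusedVariables false
set_option linter.unusedSimpArgs false

namespace Cfsg.Agent.H99

open scoped MatrixGroups Matrix Cfsg.Agent.H11 Kronecker
open Cfsg.Geo QuadraticMap Module
open Cfsg.Agent.H98

variable {ι : Type} [Fintype ι] [DecidableEq ι] {F : Type*} [Field F]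

/-- The geometric classes for an even-dimensional orthogonal group, strong form. -/
inductive EClass [Fintype F] (Q : (ι → F) → F) : Subgroup (GL ι F) → Prop
  | sing (W : Submodule F (ι → F)) (h0 : W ≠ ⊥) (hW : IsTotallySingularQuad Q W)
      (hd : IsPlusTypeOn Q ⊤ → 2 * (finrank F W + 1) ≠ Fintype.card ι) :
      EClass Q (subspaceStabilizer W)
  | ndOdd (W : Submodule F (ι → F)) (hq : Odd (Fintype.card F)) (h0 : W ≠ ⊥) (h1 : W ≠ ⊤)
      (ho : Odd (finrank F W)) (hd : 2 * finrank F W ≠ Fintype.card ι)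
      (hW : IsNondegenerateOn (polar Q) W) : EClass Q (subspaceStabilizer W)
  | nd2m (W : Submodule F (ι → F)) (hd : finrank F W = 2) (hW : IsNondegenerateOn (polar Q) W)
      (hp : ¬ IsPlusTypeOn Q W) : EClass Q (subspaceStabilizer W)
  | nd2p (W : Submodule F (ι → F)) (hq : 4 ≤ Fintype.card F) (hd : finrank F W = 2)
      (hW : IsNondegenerateOn (polar Q) W) (hp : IsPlusTypeOn Q W) : EClass Q (subspaceStabilizer W)
  | nd4 (W : Submodule F (ι → F)) (hd : finrank F W = 4) (hW : IsNondegenerateOn (polar Q) W) :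
      EClass Q (subspaceStabilizer W)
  | nd6 (W : Submodule F (ι → F)) (hd : finrank F W = 6) (hW : IsNondegenerateOn (polar Q) W)
      (hn : Fintype.card ι = 12) (hp : ¬ IsPlusTypeOn Q ⊤) : EClass Q (subspaceStabilizer W)
  | point (v : ι → F) (hq : ¬ Odd (Fintype.card F)) (hv : Q v ≠ 0) :
      EClass Q (subspaceStabilizer (Submodule.span F {v}))
  | frame (t : ℕ) (D : Fin t → Submodule F (ι → F)) (hp : (Fintype.card F).Prime)
      (hD : IsOrthogonalMDecomposition Q 1 D) : EClass Q (decompositionStabilizer D)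
  | dec (t k : ℕ) (D : Fin t → Submodule F (ι → F)) (hk : 1 < k)
      (hD : IsOrthogonalMDecomposition Q k D)
      (h2 : k = 2 → ((∀ i, IsPlusTypeOn Q (D i)) ∧ 7 ≤ Fintype.card F) ∨
        ((∀ i, ¬ IsPlusTypeOn Q (D i)) ∧ Fintype.card F ≠ 3))
      (h3 : k = 3 → Fintype.card F ≠ 3)
      (h4 : k = 4 → Fintype.card F = 2 → ∀ i, ¬ IsPlusTypeOn Q (D i)) :
      EClass Q (decompositionStabilizer D)
  | decNI (k : ℕ) (D : Fin 2 → Submodule F (ι → F)) (hk : Odd k)
      (hD : IsNondegenerateMDecomposition (polar Q) k D) (hi : ¬ AreIsometricFor Q (D 0) (D 1)) :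
      EClass Q (decompositionStabilizer D)
  | pair (k : ℕ) (D : Fin 2 → Submodule F (ι → F)) (hk : Even k) (hD : IsMDecomposition k D)
      (hs : ∀ i, IsTotallySingularQuad Q (D i)) : EClass Q (decompositionStabilizer D)
  | fld (r : ℕ) (K : Subalgebra F (Matrix ι ι F)) (hr : r.Prime) (hn : 4 ∣ Fintype.card ι)
      (hK : IsFieldSubalgebra r K) : EClass Q (subalgebraNormalizer K)
  | fldS (K : Subalgebra F (Matrix ι ι F)) (hq : Odd (Fintype.card F)) (hK : IsFieldSubalgebra 2 K)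
      (hs : IsSelfAdjointFor (polar Q) K) : EClass Q (subalgebraNormalizer K)
  | fldU (K : Subalgebra F (Matrix ι ι F)) (hK : IsFieldSubalgebra 2 K)
      (hA : IsAdjointClosedFor (polar Q) K) (hs : ¬ IsSelfAdjointFor (polar Q) K)
      (hc : ∀ k ∈ K, ∃ c : F, ∀ v, Q (k *ᵥ v) = c * Q v) (hp : ¬ IsPlusTypeOn Q ⊤) :
      EClass Q (subalgebraNormalizer K)
  | tensSp (b : ℕ) (e : ι ≃ Fin 2 × Fin b) (P : GL ι F) (f₁ : (Fin 2 → F) → (Fin 2 → F) → F)
      (f₂ : (Fin b → F) → (Fin b → F) → F) (hq : 3 ≤ Fintype.card F) (h₁ : IsSymplecticForm f₁)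
      (h₂ : IsSymplecticForm f₂) (hT : IsTensorFormStructure id (polar Q) f₁ f₂ e P)
      (h0 : ∀ u v, Q (frmV e P (H9.tp u v)) = 0) (hp : IsPlusTypeOn Q ⊤) (hn : Fintype.card ι = 12) :
      EClass Q (tensorProductSubgroup 2 b e P)
  | tensO (e : ι ≃ Fin 3 × Fin 4) (P : GL ι F) (f₁ : (Fin 3 → F) → (Fin 3 → F) → F)
      (f₂ : (Fin 4 → F) → (Fin 4 → F) → F) (hq : Odd (Fintype.card F)) (h5 : 5 ≤ Fintype.card F)
      (h₁ : IsSymmetricForm f₁) (h₂ : IsSymmetricForm f₂) (hp₂ : ¬ IsPlusTypeOn (fun v => f₂ v v) ⊤)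
      (hT : IsTensorFormStructure id (polar Q) f₁ f₂ e P) (hp : ¬ IsPlusTypeOn Q ⊤) :
      EClass Q (tensorProductSubgroup 3 4 e P)
  | sub (F₀ : Subfield F) (r : ℕ) (P : GL ι F) (ζ : F) (hr : r.Prime)
      (hc : Fintype.card F = Nat.card F₀ ^ r) (hζ : ζ ≠ 0)
      (hP : IsQuadFormRationalStructure (fun v => ζ * Q v) F₀ P) : EClass Q (subfieldSubgroup F₀ P)

variable [Fintype F] {Q : QuadraticForm F (ι → F)}

theorem EClass.not_le (hQ : IsNondegenerateQuadraticForm ⇑Q) (hn : 8 ≤ Fintype.card ι)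
    {X : Subgroup (GL ι F)} (hX : EClass ⇑Q X) : ¬ omegaGL ⇑Q ≤ X := by
  have key : ∀ W : Submodule F (ι → F), 0 < finrank F W → finrank F W < 8 →
      ¬ omegaGL ⇑Q ≤ subspaceStabilizer W := fun W a b =>
    not_omega_le_stab hQ (by omega) (H27.ne_bot_of_finrank_pos a)
      (by rintro rfl; rw [finrank_top, finrank_fun] at b; omega)
  cases hX with
  | sing W h0 hW => exact not_omega_le_stab hQ (by omega) h0 ((ond hQ).ne_top_of_sing (by omega) hW)
  | ndOdd W _ h0 h1 => exact not_omega_le_stab hQ (by omega) h0 h1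
  | nd2m W hd => exact key W (by omega) (by omega)
  | nd2p W _ hd => exact key W (by omega) (by omega)
  | nd4 W hd => exact key W (by omega) (by omega)
  | nd6 W hd => exact key W (by omega) (by omega)
  | point v _ hv =>
    have := finrank_span_singleton (K := F) (v := v) (by rintro rfl; simp at hv)
    exact key _ (by omega) (by omega)
  | frame t D _ hD => exact not_omega_le_decStab hQ (by omega) hD.decomp.decomp
  | dec t k D _ hD => exact not_omega_le_decStab hQ (by omega) hD.decomp.decomp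
  | decNI k D _ hD => exact not_omega_le_decStab hQ (by omega) hD.decomp
  | pair k D _ hD => exact not_omega_le_decStab hQ (by omega) hD
  | fld r K hr _ hK => exact not_omega_le_fieldNorm hQ (by omega) hr.two_le hK
  | fldS K _ hK => exact not_omega_le_fieldNorm hQ (by omega) le_rfl hK
  | fldU K hK => exact not_omega_le_fieldNorm hQ (by omega) le_rfl hK
  | tensSp b e P _ _ _ _ _ _ _ _ h12 =>
    have h1 := Fintype.card_congr e
    rw [h12, Fintype.card_prod, Fintype.card_fin, Fintype.card_fin] at h1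
    exact not_omega_le_tensor hQ (by omega) (by omega) e P
  | tensO e P => exact not_omega_le_tensor hQ (by omega) (by omega) e P
  | sub F₀ r P ζ hr hc => exact not_omega_le_subfield hQ (by omega) (subfield_ne_top_of_prime hr hc) P

theorem sq_eq_one_of_card_le (hq : Fintype.card F < 4) (a : F) (ha : a ≠ 0) : a * a = 1 := by
  have := Fintype.one_lt_card (α := F)
  by_cases h : Fintype.card F = 3
  · exact H11.sq_eq_one_of_card_three h ha
  · rw [(zero_or_one_of_card_two (by omega) a).resolve_left ha, one_mul]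

theorem sup_of_dec_two {k : ℕ} {D : Fin 2 → Submodule F (ι → F)} (hD : IsMDecomposition k D) :
    D 0 ⊔ D 1 = ⊤ := by
  rw [← hD.iSup_eq_top]
  exact le_antisymm (sup_le (le_iSup D 0) (le_iSup D 1)) (iSup_le fun i => by
    fin_cases i; exacts [le_sup_left, le_sup_right])

theorem orthDec_two {k : ℕ} {D : Fin 2 → Submodule F (ι → F)}
    (hD : IsNondegenerateMDecomposition (polar Q) k D) (hi : AreIsometricFor ⇑Q (D 0) (D 1)) :
    IsOrthogonalMDecomposition ⇑Q k D := by
  refine ⟨hD, fun i j => ?_⟩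
  fin_cases i <;> fin_cases j
  exacts [isometric_refl _, hi, isometric_symm hi, isometric_refl _]

section
variable (hQ : IsNondegenerateQuadraticForm ⇑Q)
  (hn : Fintype.card ι = 10 ∨ Fintype.card ι = 12 ∨ (Fintype.card ι = 8 ∧ ¬ IsPlusTypeOn ⇑Q ⊤))
  {H : Subgroup (GL ι F)} (hH : H ≤ omegaGL ⇑Q)

include hQ hn hH in
theorem eclass_of_nd {W : Submodule F (ι → F)} (h0 : W ≠ ⊥) (hW : IsNondegenerateOn (polar Q) W)
    (hd : 2 * finrank F W < Fintype.card ι) (hle : H ≤ subspaceStabilizer W) :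
    ∃ X, EClass ⇑Q X ∧ H ≤ X := by
  have key : ∀ W : Submodule F (ι → F), IsNondegenerateOn (polar Q) W → Odd (finrank F W) →
      2 * finrank F W < Fintype.card ι → EClass ⇑Q (subspaceStabilizer W) := fun W a b c =>
    .ndOdd W (odd_card_of_two_ne_zero (two_ne_zero_of_odd_nondeg a b))
      (H27.ne_bot_of_finrank_pos b.pos) (by rintro rfl; rw [finrank_top, finrank_fun] at c; omega)
      b c.ne a
  by_cases ho : Odd (finrank F W)
  · exact ⟨_, key W hW ho hd, hle⟩
  have h1 : finrank F W ≠ 0 := fun h => h0 (Submodule.finrank_eq_zero.1 h)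
  rw [Nat.odd_iff] at ho
  by_cases h4 : finrank F W = 4
  · exact ⟨_, .nd4 W h4 hW, hle⟩
  have h2 : finrank F W = 2 := by omega
  by_cases hp : IsPlusTypeOn ⇑Q W
  swap
  · exact ⟨_, .nd2m W h2 hW hp, hle⟩
  by_cases hq : 4 ≤ Fintype.card F
  · exact ⟨_, .nd2p W hq h2 hW hp, hle⟩
  obtain ⟨v, -, hv, hle'⟩ := H11.fix_point_of_plus_plane (sq_eq_one_of_card_le (by omega)) h2 hW hp
    (hH.trans (omegaGL_le _)) hle
  have hv0 : Q v ≠ 0 := hv ▸ one_ne_zero
  by_cases hq' : Odd (Fintype.card F)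
  · have hf := finrank_span_singleton (K := F) (v := v) (by rintro rfl; simp at hv)
    exact ⟨_, key _ (H11.nondegOn_span (two_ne_zero_of_odd_card hq') hv0) (hf ▸ odd_one)
      (by omega), hle'⟩
  · exact ⟨_, .point v hq' hv0, hle'⟩

include hQ hn hH in
theorem even_caseR (hI : ¬ Irr H) : ∃ X, EClass ⇑Q X ∧ H ≤ X := by
  have hH' := hH.trans (omegaGL_le _)
  rcases caseR_form (isSesq_polar hQ) (le_sim_of_le_iso hH') hI with
    ⟨W, h0, hW, hle, hmin⟩ | ⟨W, h0, hW, hlt, hle⟩ | ⟨k, D, hD, hle, hle'⟩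
  · rcases ts_or_point hH' h0 hW hle hmin with h | ⟨h2, v, hv, rfl⟩
    · by_cases hd : IsPlusTypeOn ⇑Q ⊤ ∧ 2 * (finrank F W + 1) = Fintype.card ι
      · obtain ⟨M, h1, h3, h4, h5⟩ := exists_max_of_submax hQ (by omega) hd.1 h hd.2
        exact ⟨_, .sing M (H27.ne_bot_of_finrank_pos (by omega)) h3 (fun _ => by omega),
          (le_inf hle hH).trans h5⟩
      · exact ⟨_, .sing W h0 h fun a b => hd ⟨a, b⟩, hle⟩
    · exact ⟨_, .point v (fun h => two_ne_zero_of_odd_card h h2) hv, hle⟩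
  · exact eclass_of_nd hQ hn hH h0 hW hlt hle
  · have h1 := IsMDecomposition_mul_eq hD.decomp
    by_cases hi : AreIsometricFor ⇑Q (D 0) (D 1)
    · by_cases h4 : k = 4
      · exact ⟨_, .nd4 _ (h4 ▸ hD.decomp.finrank_eq 0) (hD.nondegenerate 0), hle 0⟩
      · exact ⟨_, .dec 2 k D (by omega) (orthDec_two hD hi) (by omega) (by omega) (by omega), hle'⟩
    by_cases ho : Odd k
    · exact ⟨_, .decNI k D ho hD hi, hle'⟩
    rw [Nat.odd_iff] at ho
    by_cases h4 : k = 4
    · exact ⟨_, .nd4 _ (h4 ▸ hD.decomp.finrank_eq 0) (hD.nondegenerate 0), hle 0⟩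
    obtain rfl : k = 6 := by omega
    refine ⟨_, .nd6 _ (hD.decomp.finrank_eq 0) (hD.nondegenerate 0) h1.symm fun hp => hi ?_, hle 0⟩
    rw [← sup_of_dec_two hD.decomp] at hp
    have o := hD.orthogonal 0 1 (by decide)
    refine isometric_of_type (hD.nondegenerate 0) (hD.nondegenerate 1)
      (by rw [hD.decomp.finrank_eq, hD.decomp.finrank_eq]) (by rw [hD.decomp.finrank_eq]; decide)
      ⟨fun a => plus_of_sup (hD.nondegenerate 0) (hD.nondegenerate 1) o a hp, fun a =>
        plus_of_sup (hD.nondegenerate 1) (hD.nondegenerate 0) (orth_symm o) a (sup_comm (D 0) (D 1) ▸ hp)⟩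

include hQ hH in
theorem eclass_of_frame {t : ℕ} {D : Fin t → Submodule F (ι → F)}
    (hD : IsOrthogonalMDecomposition ⇑Q 1 D) (hle : H ≤ decompositionStabilizer D) :
    ∃ X, EClass ⇑Q X ∧ H ≤ X := by
  by_cases hp : (Fintype.card F).Prime
  · exact ⟨_, .frame t D hp hD, hle⟩
  have ht := hD.decomp.decomp.two_le
  have h2 : (2 : F) ≠ 0 := two_ne_zero_of_odd_nondeg (hD.decomp.nondegenerate ⟨0, by omega⟩)
    (by rw [hD.decomp.decomp.finrank_eq]; exact odd_one)
  obtain ⟨F₁, r, -, hr, hc⟩ := exists_prime_index_subfield ⊥ (mt H11.card_prime_of_bot hp)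
  obtain ⟨P, ζ, hζ, hP, hle'⟩ := (ond hQ).frame_subfield h2 (hH.trans (omegaGL_le _)) hD hle F₁
  exact ⟨_, .sub F₁ r P ζ hr hc hζ (quadRat_of_form h2 hP), hle'⟩

include hQ hn hH in
theorem eclass_of_dec (hI : Irr H) {t k : ℕ} {D : Fin t → Submodule F (ι → F)}
    (hD : IsNondegenerateMDecomposition (polar Q) k D) (hle : H ≤ decompositionStabilizer D)
    (ht : ∀ i j, ∃ h ∈ H, (D i).map (Matrix.toLin' (h : Matrix ι ι F)) = D j) :
    ∃ X, EClass ⇑Q X ∧ H ≤ X := by
  have hH' := hH.trans (omegaGL_le _)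
  have hO := H11.orthDec_of_trans hH' hD ht
  have hk := hD.decomp.pos
  have ht2 := hD.decomp.two_le
  let o : Fin t := ⟨0, by omega⟩
  have fr : k = 2 → Odd (Fintype.card F) →
      (∀ v ∈ lenSet Q D 1, ∀ w ∈ lenSet Q D 1, polar Q v w = 0 ∨ w = v ∨ w = -v) →
      ∃ X, EClass ⇑Q X ∧ H ≤ X := fun a b c => by
    obtain ⟨v, -, hv⟩ := lenSet_nonempty hD a.ge 1 o
    obtain ⟨s, E, h1, h3, -⟩ := (ond hQ).frame_of_set (two_ne_zero_of_odd_card b) (by omega) hH' hI
      (lenSet Q D 1) (fun v hv => hv.2 ▸ one_ne_zero) ⟨v, hv⟩ c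
      fun g hg v hv => lenSet_inv (hH' hg) (hle hg) hv
    exact eclass_of_frame hQ hH h1 h3
  by_cases h1 : k = 1
  · subst h1
    exact eclass_of_frame hQ hH hO hle
  by_cases h3 : k = 3 ∧ Fintype.card F = 3
  · obtain ⟨rfl, h3⟩ := h3
    obtain ⟨s, E, a, b⟩ := (ond hQ).frame_of_three h3 hH' hI hD hle ht
    exact eclass_of_frame hQ hH a b
  by_cases h4 : k = 4 ∧ Fintype.card F = 2 ∧ IsPlusTypeOn ⇑Q (D o)
  · obtain ⟨rfl, h4, h5⟩ := h4
    obtain ⟨s, E, a, b, c⟩ := planes_of_plus_four hQ h4 hH' hI hD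
      (fun i => orthDec_same_type hO o i h5) hle
    exact ⟨_, .dec s 2 E one_lt_two a (fun _ => .inr ⟨b, by omega⟩) (by omega) (by omega), c⟩
  have h5 : k = 4 → Fintype.card F = 2 → ∀ i, ¬ IsPlusTypeOn ⇑Q (D i) := fun a b i c =>
    h4 ⟨a, b, orthDec_same_type hO i o c⟩
  by_cases h2 : k = 2
  swap
  · exact ⟨_, .dec t k D (by omega) hO (fun a => absurd a h2) (fun a b => h3 ⟨a, b⟩) h5, hle⟩
  subst h2
  by_cases hp : IsPlusTypeOn ⇑Q (D o)
  · have hp' := fun i => orthDec_same_type hO o i hp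
    by_cases h7 : 7 ≤ Fintype.card F
    · exact ⟨_, .dec t 2 D one_lt_two hO (fun _ => .inl ⟨hp', h7⟩) (by omega) h5, hle⟩
    by_cases h6 : Fintype.card F < 4
    · exact absurd hI (not_irr_of_plus_planes (sq_eq_one_of_card_le h6) hH' hD hp' hle)
    have h8 : Fintype.card F ≠ 6 := fun h => absurd (h ▸ FiniteField.isPrimePow_card F) (by decide)
    by_cases h9 : Fintype.card F = 5
    · exact fr rfl (by rw [h9]; decide) (lenSet_five h9 hD hp')
    have h10 : Fintype.card F = 4 := by omega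
    obtain ⟨F₁, r, -, hr, hc⟩ := exists_prime_index_subfield ⊥
      (mt (H11.card_prime_of_bot (F := F)) (by rw [h10]; decide))
    obtain ⟨P, a, b⟩ := le_subfield_of_plus_four hQ h10 hD hp' F₁
    exact ⟨_, .sub F₁ r P 1 hr hc one_ne_zero a, (le_inf hle hH').trans b⟩
  · have hp' := fun i a => hp (orthDec_same_type hO i o a)
    by_cases h9 : Fintype.card F = 3
    · exact fr rfl (by rw [h9]; decide) (lenSet_three h9 hD hp')
    · exact ⟨_, .dec t 2 D one_lt_two hO (fun _ => .inr ⟨hp', h9⟩) (by omega) h5, hle⟩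

include hQ hn hH in
theorem eclass_of_field_two (hI : Irr H) {K : Subalgebra F (Matrix ι ι F)}
    (hK : IsFieldSubalgebra 2 K) (hA : IsAdjointClosedFor (polar Q) K)
    (hle : H ≤ subalgebraNormalizer K) : ∃ X, EClass ⇑Q X ∧ H ≤ X := by
  have hH' := hH.trans (omegaGL_le _)
  have : Nonempty ι := Fintype.card_pos_iff.1 (by omega)
  by_cases h4 : 4 ∣ Fintype.card ι
  · exact ⟨_, .fld 2 K Nat.prime_two h4 hK, hle⟩
  by_cases hs : IsSelfAdjointFor (polar Q) K
  · by_cases h2 : (2 : F) = 0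
    · exact absurd (four_dvd_of_selfAdj hQ h2 (by omega) hK hs hH' hI hle) h4
    · exact ⟨_, .fldS K (odd_card_of_two_ne_zero h2) hK hs, hle⟩
  · have hc := sim_of_not_selfAdj hQ (by omega) hK hA hs hH' hI hle
    exact ⟨_, .fldU K hK hA hs hc fun hp => h4 (dvd_half_of_sim hQ hK hA hc hp), hle⟩

variable (hA : Fintype.card ι = 10 → ∀ K : Subalgebra F (Matrix ι ι F), IsFieldSubalgebra 5 K →
    IsSelfAdjointFor (polar Q) K → Irr H → H ≤ subalgebraNormalizer K →
    ∃ K', IsFieldSubalgebra 2 K' ∧ IsAdjointClosedFor (polar Q) K' ∧ H ≤ subalgebraNormalizer K')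

include hQ hn hH hA in
theorem even_caseZ (hI : Irr H) (hZ : CaseZf (polar Q) H) : ∃ X, EClass ⇑Q X ∧ H ≤ X := by
  have hH' := hH.trans (omegaGL_le _)
  have : Nonempty ι := Fintype.card_pos_iff.1 (by omega)
  rcases caseZ_form (isSesq_polar hQ) (le_sim_of_le_iso hH') hI hZ with
    ⟨t, k, D, hD, hle, ht⟩ | ⟨k, D, hD, hs, hle⟩ | ⟨r, K, hr, hK, hc, hle⟩
  · exact eclass_of_dec hQ hn hH hI hD hle ht
  · have h1 := IsMDecomposition_mul_eq hD
    have h2 := pair_ts hH' hI (by omega) hD hs hle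
    rcases Nat.even_or_odd k with h | h
    · exact ⟨_, .pair k D h hD h2, hle⟩
    · rcases hI _ (inv_of_le_stab ((le_inf hle hH).trans (pair_fixed hQ (by omega) h hD h2))) with
        e | e
      · have := hD.finrank_eq 0
        rw [e, finrank_bot] at this; omega
      · have := hD.finrank_eq 0
        rw [e, finrank_top, finrank_fun] at this; omega
  · by_cases h4 : 4 ∣ Fintype.card ι
    · exact ⟨_, .fld r K hr h4 hK, hle⟩
    have h10 : Fintype.card ι = 10 := by omega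
    have h5 := IsFieldSubalgebra_dvd_card hK
    rw [h10, show 10 = 2 * 5 from rfl, hr.dvd_mul, Nat.prime_dvd_prime_iff_eq hr Nat.prime_two,
      Nat.prime_dvd_prime_iff_eq hr Nat.prime_five] at h5
    rcases h5 with rfl | rfl
    · exact eclass_of_field_two hQ hn hH hI hK hc hle
    · obtain ⟨K', a, b, c⟩ := hA h10 K hK (H11.selfAdj_of_odd (isSesq_polar hQ) (by decide) hK hc)
        hI hle
      exact eclass_of_field_two hQ hn hH hI a b c

include hQ hn hH hA in
theorem eclass_of_tensor_two (hI : Irr H) {b : ℕ} {e : ι ≃ Fin 2 × Fin b} {P : GL ι F}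
    (hle : H ≤ tensorProductSubgroup 2 b e P) (hc : IsAdjointClosedFor (polar Q) (tensL e P)) :
    ∃ X, EClass ⇑Q X ∧ H ≤ X := by
  have hH' := hH.trans (omegaGL_le _)
  have hf := isSesq_polar hQ
  have h1 := Fintype.card_congr e
  rw [Fintype.card_prod, Fintype.card_fin, Fintype.card_fin] at h1
  obtain ⟨ε₁, ε₂, f₁, f₂, h₁, h₂, hT, hε, -, hL, hR⟩ := tensor_form hf two_pos (by omega) e P hc
  have key : (∀ u, f₁ u u = 0) → (∀ u, f₂ u u = 0) → (∀ u v, Q (frmV e P (H9.tp u v)) = 0) →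
      ∃ X, EClass ⇑Q X ∧ H ≤ X := fun a1 a2 h0 => by
    have hp := plus_of_pure h0
    have he := even_card_of_symplectic (h₂.symplectic a2)
    rw [Fintype.card_fin, Nat.even_iff] at he
    have h12 : Fintype.card ι = 12 := by
      rcases hn with h | h | h
      exacts [by omega, h, absurd hp h.2]
    by_cases hq : 3 ≤ Fintype.card F
    · exact ⟨_, .tensSp b e P f₁ f₂ hq (h₁.symplectic a1) (h₂.symplectic a2) hT h0 hp h12, hle⟩
    have hq2 : Fintype.card F = 2 := by have := Fintype.one_lt_card (α := F); omega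
    exact ⟨_, .fld 2 _ Nat.prime_two (by omega) (isField_tensSub (by omega) e P (isField_fld4 hq2)),
      hle.trans (tensor_le_norm e P fun x k hk => fld4_conj hq2 x hk)⟩
  by_cases h2 : (2 : F) = 0
  · exact key (H9.left_alt h2 hf le_rfl (by omega) h₁ h₂ hT (le_sim_of_le_iso hH') hI hle)
      (H9.left_alt h2 hf (by omega) two_pos h₂ h₁ (H9.tensorForm_swap hT) (le_sim_of_le_iso hH') hI
        (by rw [tensorProductSubgroup_swap]; exact hle))
      (pure_eq_zero_of_even h₁ h₂ hT hQ h2 le_rfl (by omega) hL hH' hI hle)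
  have hε' := hε rfl
  rcases h₁.eps with e1 | e1 <;> rcases h₂.eps with e2 | e2 <;> subst e1 e2
  · refine even_caseZ hQ hn hH hA hI (H9.caseZf_of_orth_two h2 hf (by omega) h₂ h₁
      (H9.tensorForm_swap hT) (fun Y => ?_) (le_sim_of_le_iso hH')
      (by rw [tensorProductSubgroup_swap]; exact hle))
    rw [frm_swap, frm_swap, hL]
  · exact absurd (by linear_combination hε') h2
  · exact absurd (by linear_combination hε') h2
  · exact key (H9.alt_of_skew h2 h₁) (H9.alt_of_skew h2 h₂)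
      (pure_eq_zero_of_odd h₁ h₂ hT h2 (H9.alt_of_skew h2 h₁))

variable (hB : IsPlusTypeOn ⇑Q ⊤ → (2 : F) ≠ 0 → ∀ (e : ι ≃ Fin 3 × Fin 4) (P : GL ι F)
    (f₁ : (Fin 3 → F) → (Fin 3 → F) → F) (f₂ : (Fin 4 → F) → (Fin 4 → F) → F),
    IsSesq (RingEquiv.refl F) 1 f₁ → IsSesq (RingEquiv.refl F) 1 f₂ →
    IsTensorFormStructure (RingEquiv.refl F) (polar Q) f₁ f₂ e P →
    IsPlusTypeOn (fun v => f₂ v v) ⊤ → H ≤ tensorProductSubgroup 3 4 e P →
    ∃ (b : ℕ) (e' : ι ≃ Fin 2 × Fin b) (P' : GL ι F), H ≤ tensorProductSubgroup 2 b e' P' ∧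
      IsAdjointClosedFor (polar Q) (tensL e' P'))

include hQ hn hH hA hB in
theorem even_caseT (hI : Irr H) (hT : CaseT H) : ∃ X, EClass ⇑Q X ∧ H ≤ X := by
  have hH' := hH.trans (omegaGL_le _)
  have hf := isSesq_polar hQ
  obtain ⟨a, b, e, P, ha, hab, hle, hc⟩ := hT
  have hc' := hc _ _ _ hf (fixes_of_le_iso hH')
  rcases ha.eq_or_lt with rfl | ha
  · exact eclass_of_tensor_two hQ hn hH hA hI hle hc'
  have h1 := Fintype.card_congr e
  rw [Fintype.card_prod, Fintype.card_fin, Fintype.card_fin] at h1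
  obtain rfl : a = 3 := by
    by_contra h
    have : 4 * 4 ≤ a * b := Nat.mul_le_mul (by omega) (by omega)
    omega
  obtain rfl : b = 4 := by omega
  obtain ⟨ε₁, ε₂, f₁, f₂, h₁, h₂, hT, hε, -, hL, hR⟩ := tensor_form hf (by omega) (by omega) e P hc'
  have h2 : (2 : F) ≠ 0 := fun h2 => by
    have := even_card_of_symplectic (h₁.symplectic
      (H9.left_alt h2 hf (by omega) (by omega) h₁ h₂ hT (le_sim_of_le_iso hH') hI hle))
    simp at this
    exact absurd this (by decide)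
  obtain rfl := H11.eps_eq_one h2 (by simp; decide) h₁
  obtain rfl : ε₂ = 1 := by rw [hε rfl, one_mul]
  by_cases h3 : Fintype.card F = 3
  · obtain ⟨t, D, a, b, c⟩ := dec_of_tensor_three h₁ h₂ hT hQ h3 (by omega) hH' hI hle
    exact eclass_of_dec hQ hn hH hI a b c
  have hp := plus_iff_of_tensor_three h₁ h₂ hT h2 (by decide)
  by_cases hp' : IsPlusTypeOn ⇑Q ⊤
  · obtain ⟨b, e', P', a, c⟩ := hB hp' h2 e P f₁ f₂ h₁ h₂ hT (hp.1 hp') hle
    exact eclass_of_tensor_two hQ hn hH hA hI a c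
  · have ho := odd_card_of_two_ne_zero h2
    have h5 : 5 ≤ Fintype.card F := by
      have := Fintype.one_lt_card (α := F); rw [Nat.odd_iff] at ho; omega
    exact ⟨_, .tensO e P f₁ f₂ ho h5 h₁.symmetric h₂.symmetric (mt hp.2 hp') hT hp', hle⟩

include hQ hn hH in
theorem even_not_caseE : ¬ CaseE H := by
  rintro ⟨r, m, R, E⟩
  have h1 : IsPrimePow (Fintype.card ι) :=
    E.card_index ▸ E.prime.isPrimePow.pow (by have := E.pos; omega)
  rcases hn with h | h | ⟨h, hp⟩
  · rw [h] at h1; exact absurd h1 (by decide)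
  · rw [h] at h1; exact absurd h1 (by decide)
  obtain rfl : r = 2 := (Nat.prime_dvd_prime_iff_eq E.prime Nat.prime_two).1
    (E.prime.dvd_of_dvd_pow (n := 3) (by
      rw [show 2 ^ 3 = 8 from rfl, ← h, E.card_index]
      exact dvd_pow_self _ (by have := E.pos; omega)))
  exact hp (plus_of_caseE hQ (by omega) (by omega) (hH.trans (omegaGL_le _)) E)

include hQ hn hH in
theorem even_not_caseW (hI : Irr H) : ¬ CaseW H := by
  rintro ⟨k, t, e, P, hW⟩
  have h1 := Fintype.card_congr e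
  rw [Fintype.card_fun, Fintype.card_fin, Fintype.card_fin] at h1
  have hk := hW.two_le_k
  have ht := hW.two_le_t
  have h2 : t ≤ 3 := by
    by_contra h
    have : 2 ^ 4 ≤ k ^ t := (Nat.pow_le_pow_left hk 4).trans (Nat.pow_le_pow_right (by omega) (by omega))
    omega
  have h3 : k ≤ 3 := by
    by_contra h
    have : 4 ^ 2 ≤ k ^ t := (Nat.pow_le_pow_left (by omega) 2).trans
      (Nat.pow_le_pow_right (by omega) ht)
    omega
  have h4 : k = 2 ∧ t = 3 := by interval_cases k <;> interval_cases t <;> omega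
  obtain ⟨rfl, rfl⟩ := h4
  have hp := plus_of_wreath hQ (hH.trans (omegaGL_le _)) hI hW
  rcases hn with h | h | h
  exacts [by omega, by omega, h.2 hp]

include hQ hn hH in
theorem even_caseS (hS : CaseS H) : (∃ X, EClass ⇑Q X ∧ H ≤ X) ∨ InOrthogonalResidualClass H := by
  obtain ⟨L, C⟩ := hS
  have hL := C.le.trans (hH.trans (omegaGL_le _))
  have hLf := fixes_of_le_iso hL
  have hf := isSesq_polar hQ
  by_cases hr : ∃ F₀ : Subfield F, F₀ ≠ ⊤ ∧ RealisableOver F₀ (matrixSet L)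
  · obtain ⟨F₀, h0, B, hB⟩ := hr
    obtain ⟨F₁, r, hle, hr', hc⟩ := exists_prime_index_subfield F₀ h0
    have hB' := fun s hs i j => hle (hB s hs i j)
    obtain ⟨ζ, hζ, hrat⟩ := exists_rational_form hf C.span F₁ B hB'
      (fun x hx => ⟨1, F₁.one_mem, fun u v => by rw [one_mul]; exact fixes_iff.1 hLf x hx u v⟩)
    exact Or.inl ⟨_, .sub F₁ r _ ζ hr' hc hζ (quadRat_of_irr hQ (by omega) hL
      (irr_of_grpAlg_eq_top C.span) hB' hrat), le_subfieldSubgroup C.span C.normal F₁ B hB'⟩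
  push Not at hr
  exact Or.inr ⟨L, C.residualCore hr, H11.not_unitary_of_bilin hf hLf C.span hr⟩

include hQ hn hH hA hB in
theorem even_asch : (∃ X, EClass ⇑Q X ∧ H ≤ X) ∨ InOrthogonalResidualClass H := by
  by_cases hI : Irr H
  swap
  · exact Or.inl (even_caseR hQ hn hH hI)
  rcases master (by omega) H with a | a | a | a | a | a
  · exact absurd hI a
  · exact Or.inl (even_caseZ hQ hn hH hA hI
      (a.caseZf (isSesq_polar hQ) (fixes_of_le_iso (hH.trans (omegaGL_le _)))))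
  · exact Or.inl (even_caseT hQ hn hH hA hB hI a)
  · exact absurd a (even_not_caseE hQ hn hH)
  · exact absurd a (even_not_caseW hQ hn hH hI)
  · exact even_caseS hQ hn hH a

include hQ hn hA hB in
theorem even_max_cases (hM : IsMaximalIn (omegaGL ⇑Q) H) :
    (∃ X, EClass ⇑Q X ∧ H = X ⊓ omegaGL ⇑Q) ∨ InOrthogonalResidualClass H := by
  rcases even_asch hQ hn hM.1.le hA hB with ⟨X, h1, h2⟩ | h
  · exact Or.inl ⟨X, h1, eq_inf_of_le hM h2 (h1.not_le hQ (by omega))⟩
  · exact Or.inr h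

end

theorem odd_card_of_dec {t k : ℕ} {D : Fin t → Submodule F (ι → F)}
    (hD : IsNondegenerateMDecomposition (polar Q) k D) (hk : Odd k) : Odd (Fintype.card F) :=
  odd_card_of_two_ne_zero (two_ne_zero_of_odd_nondeg
    (hD.nondegenerate ⟨0, by have := hD.decomp.two_le; omega⟩) (by rwa [hD.decomp.finrank_eq]))

theorem plus_of_pair {k : ℕ} {D : Fin 2 → Submodule F (ι → F)} (hD : IsMDecomposition k D)
    (hs : ∀ i, IsTotallySingularQuad ⇑Q (D i)) : IsPlusTypeOn ⇑Q ⊤ :=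
  ⟨D 0, le_top, hs 0, by rw [hD.finrank_eq, finrank_top, finrank_fun, IsMDecomposition_mul_eq hD]⟩

theorem plus_iff_of_decNI {k : ℕ} {D : Fin 2 → Submodule F (ι → F)} (hk : Odd k)
    (hD : IsNondegenerateMDecomposition (polar Q) k D) (hi : ¬ AreIsometricFor ⇑Q (D 0) (D 1)) :
    IsPlusTypeOn ⇑Q ⊤ ↔ ¬ IsSquare (-1 : F) := by
  rw [← sup_of_dec_two hD.decomp, plus_sup_odd (hD.nondegenerate 0) (hD.nondegenerate 1)
    (hD.orthogonal 0 1 (by decide)) (by rw [hD.decomp.finrank_eq, hD.decomp.finrank_eq])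
    (by rwa [hD.decomp.finrank_eq])]
  tauto

theorem odd_of_sub_minus (hQ : IsNondegenerateQuadraticForm ⇑Q) (he : Even (Fintype.card ι))
    (hp : ¬ IsPlusTypeOn ⇑Q ⊤) {F₀ : Subfield F} {r : ℕ} (hr : r.Prime)
    (hc : Fintype.card F = Nat.card F₀ ^ r) {ζ : F} (hζ : ζ ≠ 0) {P : GL ι F}
    (hP : IsQuadFormRationalStructure (fun v => ζ * Q v) F₀ P) : Odd r :=
  hr.eq_two_or_odd'.resolve_left fun e => hp (plus_of_subfield_two hQ he (e ▸ hc) hζ hP)

end Cfsg.Agent.H99
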