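import Cfsg.Agent.H99.OLocal

/-! Field extension subalgebras for orthogonal groups in even dimension. -/

set_option autoImplicit false
set_option linter.unusedSectionVars false
set_option linter.unusedVariables false
set_option linter.unusedSimpArgs false

namespace Cfsg.Agent.H99

open scoped MatrixGroups Matrix Cfsg.Agent.H11
open Cfsg.Geo QuadraticMap Module
open Cfsg.Agent.H98

variable {ι : Type} [Fintype ι] [DecidableEq ι] {F : Type*} [Field F]
variable {Q : QuadraticForm F (ι → F)}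

/-- The orbit of a vector under a subalgebra. -/
def orb (K : Subalgebra F (Matrix ι ι F)) (x : ι → F) : Submodule F (ι → F) where
  carrier := {y | ∃ k ∈ K, y = k *ᵥ x}
  add_mem' := by
    rintro _ _ ⟨k, hk, rfl⟩ ⟨l, hl, rfl⟩
    exact ⟨k + l, K.add_mem hk hl, (Matrix.add_mulVec _ _ _).symm⟩
  zero_mem' := ⟨0, K.zero_mem, (Matrix.zero_mulVec _).symm⟩
  smul_mem' := by
    rintro c _ ⟨k, hk, rfl⟩
    exact ⟨c • k, K.smul_mem hk c, (Matrix.smul_mulVec _ _ _).symm⟩

theorem self_mem_orb (K : Subalgebra F (Matrix ι ι F)) (x : ι → F) : x ∈ orb K x :=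
  ⟨1, K.one_mem, (Matrix.one_mulVec _).symm⟩

/-- A maximal `K`-invariant subspace with a property which survives adjoining orbits. -/
theorem exists_max_inv (K : Subalgebra F (Matrix ι ι F)) (p : Submodule F (ι → F) → Prop)
    (h0 : p ⊥) : ∃ U : Submodule F (ι → F), p U ∧ (∀ k ∈ K, ∀ v ∈ U, k *ᵥ v ∈ U) ∧
      ∀ x, p (U ⊔ orb K x) → x ∈ U := by
  obtain ⟨U, ⟨h1, h2⟩, h3⟩ := (wellFounded_gt (α := Submodule F (ι → F))).has_min
    {U | p U ∧ ∀ k ∈ K, ∀ v ∈ U, k *ᵥ v ∈ U}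
    ⟨⊥, h0, fun k hk v hv => by rw [(Submodule.mem_bot F).1 hv, Matrix.mulVec_zero]; exact zero_mem _⟩
  refine ⟨U, h1, h2, fun x hx => ?_⟩
  by_contra hxU
  refine h3 (U ⊔ orb K x) ⟨hx, fun k hk v hv => ?_⟩ (lt_of_le_of_ne le_sup_left fun e => hxU ?_)
  · obtain ⟨u, hu, _, ⟨l, hl, rfl⟩, rfl⟩ := Submodule.mem_sup.1 hv
    rw [Matrix.mulVec_add, Matrix.mulVec_mulVec]
    exact Submodule.add_mem_sup (h2 k hk u hu) ⟨k * l, K.mul_mem hk hl, rfl⟩
  · rw [e]; exact Submodule.mem_sup_right (self_mem_orb K x)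

theorem span_two [Nonempty ι] {K : Subalgebra F (Matrix ι ι F)} (hK : IsFieldSubalgebra 2 K)
    {ω : Matrix ι ι F} (hω : ω ∈ K) (hs : ∀ c : F, ω ≠ c • (1 : Matrix ι ι F)) {k : Matrix ι ι F}
    (hk : k ∈ K) : ∃ a b : F, k = a • (1 : Matrix ι ι F) + b • ω := by
  have hli : LinearIndependent F ![(1 : K), ⟨ω, hω⟩] := LinearIndependent.pair_iff.2 fun s t e => by
    have e' : s • (1 : Matrix ι ι F) + t • ω = 0 := congrArg Subtype.val e
    by_cases ht : t = 0
    · rw [ht, zero_smul, add_zero] at e'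
      exact ⟨(smul_eq_zero.1 e').resolve_right one_ne_zero, ht⟩
    · refine absurd ?_ (hs (-(t⁻¹ * s)))
      rw [neg_smul, mul_smul, eq_neg_iff_add_eq_zero, ← inv_smul_smul₀ ht ω, ← smul_add, add_comm, e',
        smul_zero]
  have h1 := hli.span_eq_top_of_card_eq_finrank' (by rw [hK.finrank_eq]; rfl)
  have h2 : (⟨k, hk⟩ : K) ∈ Submodule.span F (Set.range ![(1 : K), ⟨ω, hω⟩]) := h1 ▸ trivial
  rw [Matrix.range_cons, Matrix.range_cons, Matrix.range_empty, Set.union_empty, Set.singleton_union,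
    Submodule.mem_span_pair] at h2
  obtain ⟨a, b, e⟩ := h2
  exact ⟨a, b, (congrArg Subtype.val e).symm⟩

theorem exists_nonscalar [Nonempty ι] {r : ℕ} (hr : 2 ≤ r) {K : Subalgebra F (Matrix ι ι F)}
    (hK : IsFieldSubalgebra r K) : ∃ ω ∈ K, ∀ c : F, ω ≠ c • (1 : Matrix ι ι F) := by
  by_contra h
  push Not at h
  have h1 : K = ⊥ := eq_bot_iff.2 fun k hk => by
    obtain ⟨c, rfl⟩ := h k hk
    exact Subalgebra.smul_mem _ (one_mem _) c
  have := hK.finrank_eq
  rw [h1, Subalgebra.finrank_bot] at this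
  omega

variable [Finite F]

/-- In characteristic two an irreducibly normalised self-adjoint quadratic field forces `4 ∣ n`. -/
theorem four_dvd_of_selfAdj (hQ : IsNondegenerateQuadraticForm ⇑Q) (h2 : (2 : F) = 0)
    (hn : 2 ≤ Fintype.card ι) {K : Subalgebra F (Matrix ι ι F)} (hK : IsFieldSubalgebra 2 K)
    (hs : IsSelfAdjointFor (polar Q) K) {H : Subgroup (GL ι F)} (hH : H ≤ isometryGroup F ⇑Q)
    (hI : Irr H) (hN : H ≤ subalgebraNormalizer K) : 4 ∣ Fintype.card ι := by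
  have : Nonempty ι := Fintype.card_pos_iff.1 (by omega)
  obtain ⟨ω, hω, hωs⟩ := exists_nonscalar le_rfl hK
  have hself : ∀ x, polar Q x x = 0 := fun x => by rw [H11.polar_self', h2, zero_mul]
  have hk : ∀ k ∈ K, ∀ x, polar Q (ω *ᵥ x) x = 0 → polar Q (k *ᵥ x) x = 0 := by
    intro k hk x hx
    obtain ⟨a, b, rfl⟩ := span_two hK hω hωs hk
    rw [Matrix.add_mulVec, Matrix.smul_mulVec, Matrix.smul_mulVec, Matrix.one_mulVec, polar_add_left,
      H11.polar_smul_left', H11.polar_smul_left', hx, hself, mul_zero, mul_zero, add_zero]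
  have hD : ∀ x, polar Q (ω *ᵥ x) x = 0 := by
    refine additive_quad_eq_zero hn (D := fun x => polar Q (ω *ᵥ x) x) (fun u v => ?_)
      (fun c v => ?_) hI fun g hg v hv => ?_
    · simp only [Matrix.mulVec_add, polar_add_left, polar_add_right]
      rw [hs ω hω v u, polar_comm _ v]
      linear_combination polar Q (ω *ᵥ u) v * h2
    · simp only [Matrix.mulVec_smul, H11.polar_smul_left', H11.polar_smul_right']
      ring
    · have e : ω *ᵥ ((g : Matrix ι ι F) *ᵥ v) = (g : Matrix ι ι F) *ᵥ (cj g⁻¹ ω *ᵥ v) := by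
        rw [← cj_mulVec, cj_cj_inv]
      show polar Q (ω *ᵥ ((g : Matrix ι ι F) *ᵥ v)) _ = 0
      rw [e, polar_iso (hH hg)]
      exact hk _ (nz_of_le_normalizer hN g⁻¹ (H.inv_mem hg) ω hω) v hv
  obtain ⟨U, h3, h4, h5⟩ := exists_max_inv K (fun U => ∀ u ∈ U, ∀ v ∈ U, polar Q u v = 0)
    (fun u hu v hv => by rw [(Submodule.mem_bot F).1 hu, polar_zero_left])
  have hf := isSesq_polar hQ
  have h6 : H9.perp hf U = U := by
    refine le_antisymm (fun x hx => h5 x fun u0 hu0 v0 hv0 => ?_) fun u hu v hv => h3 u hu v hv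
    obtain ⟨u, hu, _, ⟨k, hk', rfl⟩, rfl⟩ := Submodule.mem_sup.1 hu0
    obtain ⟨v, hv, _, ⟨l, hl, rfl⟩, rfl⟩ := Submodule.mem_sup.1 hv0
    rw [polar_add_left, polar_add_right, polar_add_right, h3 u hu v hv, ← hs l hl, polar_comm _ _ x,
      hx _ (h4 l hl u hu), hs k hk', hx _ (h4 k hk' v hv), ← hs l hl, Matrix.mulVec_mulVec,
      hk _ (K.mul_mem hl hk') x (hD x)]
    simp
  have h7 := H9.finrank_add_finrank_perp hf U
  rw [h6] at h7
  obtain ⟨c, hc⟩ := IsFieldSubalgebra_dvd hK h4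
  exact ⟨c, by omega⟩

omit [Finite F] in
theorem adj_mul_scalar (hQ : IsNondegenerateQuadraticForm ⇑Q) [Nonempty ι]
    {K : Subalgebra F (Matrix ι ι F)} (hK : IsFieldSubalgebra 2 K)
    (hA : IsAdjointClosedFor (polar Q) K) (hs : ¬ IsSelfAdjointFor (polar Q) K) {k : Matrix ι ι F}
    (hk : k ∈ K) : ∃ c : F, adj (RingEquiv.refl F) (polar Q) k * k = c • (1 : Matrix ι ι F) := by
  have hf := isSesq_polar hQ
  have hA' := hf.adjClosed_iff.1 hA
  by_contra h
  push Not at h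
  refine hs (hf.selfAdj_iff.2 fun x hx => ?_)
  obtain ⟨a, b, rfl⟩ := span_two hK (K.mul_mem (hA' k hk) hk) h hx
  rw [hf.adj_add, hf.adj_smul, hf.adj_smul, hf.adj_one, hf.adj_mul, hf.adj_adj]
  rfl

/-- An irreducibly normalised quadratic field with a non-trivial adjoint acts by similarities. -/
theorem sim_of_not_selfAdj (hQ : IsNondegenerateQuadraticForm ⇑Q) (hn : 3 ≤ Fintype.card ι)
    {K : Subalgebra F (Matrix ι ι F)} (hK : IsFieldSubalgebra 2 K)
    (hA : IsAdjointClosedFor (polar Q) K) (hs : ¬ IsSelfAdjointFor (polar Q) K)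
    {H : Subgroup (GL ι F)} (hH : H ≤ isometryGroup F ⇑Q) (hI : Irr H)
    (hN : H ≤ subalgebraNormalizer K) : ∀ k ∈ K, ∃ c : F, ∀ v, Q (k *ᵥ v) = c * Q v := by
  have : Nonempty ι := Fintype.card_pos_iff.1 (by omega)
  have hf := isSesq_polar hQ
  have hc := fun k hk => adj_mul_scalar hQ hK hA hs (k := k) hk
  choose! N hNk using hc
  have hB : ∀ k ∈ K, ∀ u v, polar Q (k *ᵥ u) (k *ᵥ v) = N k * polar Q u v := fun k hk u v =>
    hf.sim_of_adj_mul (hNk k hk) u v
  have hadd : ∀ k ∈ K, ∀ u v, Q (k *ᵥ (u + v)) - N k * Q (u + v) =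
      (Q (k *ᵥ u) - N k * Q u) + (Q (k *ᵥ v) - N k * Q v) := by
    intro k hk u v
    rw [Matrix.mulVec_add, H11.Q_add, H11.Q_add, hB k hk]; ring
  let U : Submodule F (ι → F) :=
    { carrier := {v | ∀ k ∈ K, Q (k *ᵥ v) = N k * Q v}
      add_mem' := fun {u v} hu hv k hk => by
        have := hadd k hk u v
        rw [hu k hk, hv k hk] at this
        linear_combination this
      zero_mem' := fun k hk => by simp
      smul_mem' := fun c v hv k hk => by
        rw [Matrix.mulVec_smul, H11.Q_smul, H11.Q_smul, hv k hk]; ring }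
  have hU : Inv H U := by
    intro g hg v hv k hk
    have hk' := nz_of_le_normalizer hN g⁻¹ (H.inv_mem hg) k hk
    have e : k *ᵥ ((g : Matrix ι ι F) *ᵥ v) = (g : Matrix ι ι F) *ᵥ (cj g⁻¹ k *ᵥ v) := by
      rw [← cj_mulVec, cj_cj_inv]
    have e2 : N (cj g⁻¹ k) = N k := by
      have h1 := hNk _ hk'
      change adj _ _ (cj g⁻¹ k) * cj g⁻¹ k = N (cj g⁻¹ k) • _ at h1
      rw [hf.adj_cj_of_sim (le_sim_of_le_iso hH (H.inv_mem hg)), ← map_mul, hNk k hk, map_smul,
        map_one] at h1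
      exact (smul_left_injective F one_ne_zero h1).symm
    rw [e, Q_iso (hH hg), Q_iso (hH hg), ← e2]
    exact hv _ hk'
  rcases hI U hU with h | h
  swap
  · exact fun k hk => ⟨N k, fun v => (h ▸ Submodule.mem_top : v ∈ U) k hk⟩
  exfalso
  obtain ⟨ω, hω, hωs⟩ := exists_nonscalar le_rfl hK
  have hω1 : 1 + ω ∈ K := K.add_mem K.one_mem hω
  have := Fintype.ofFinite F
  obtain ⟨x, y, hxy, e⟩ := Fintype.exists_ne_map_eq_of_card_lt
    (fun v : ι → F => (Q (ω *ᵥ v) - N ω * Q v, Q ((1 + ω) *ᵥ v) - N (1 + ω) * Q v)) (by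
      rw [Fintype.card_prod, Fintype.card_fun, ← pow_two]
      exact Nat.pow_lt_pow_right Fintype.one_lt_card (by omega))
  obtain ⟨e1, e2⟩ := Prod.ext_iff.1 e
  have h1 := hadd ω hω (x - y) y
  have h2 := hadd _ hω1 (x - y) y
  rw [sub_add_cancel] at h1 h2
  refine hxy (sub_eq_zero.1 ((Submodule.mem_bot F).1 (h ▸ fun k hk => ?_)))
  generalize x - y = z at h1 h2
  have h3 : Q (ω *ᵥ z) = N ω * Q z := by linear_combination e1 - h1
  have h4 : Q ((1 + ω) *ᵥ z) = N (1 + ω) * Q z := by linear_combination e2 - h2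
  obtain ⟨a, b, rfl⟩ := span_two hK hω hωs hk
  have h5 : N (a • (1 : Matrix ι ι F) + b • ω) = a * a + a * b * (N (1 + ω) - 1 - N ω) + b * b * N ω := by
    have h6 := hNk _ hk
    have h7 := hNk _ hω1
    have h8 := hNk _ hω
    simp only [hf.adj_add, hf.adj_smul, hf.adj_one, RingEquiv.refl_apply, add_mul, mul_add,
      smul_mul_assoc, mul_smul_comm, Matrix.one_mul, Matrix.mul_one, h8] at h6 h7
    refine smul_left_injective F (one_ne_zero (α := Matrix ι ι F)) ?_
    simp only [← h6, add_smul, mul_smul, sub_smul, ← h7]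
    module
  rw [Matrix.add_mulVec, Matrix.one_mulVec, H11.Q_add, h3] at h4
  rw [h5, Matrix.add_mulVec, Matrix.smul_mulVec, Matrix.smul_mulVec, Matrix.one_mulVec]
  qsimp
  rw [h3]
  linear_combination a * b * h4

omit [Finite F] in
/-- A field of similarities of a form of plus type has degree dividing half the dimension. -/
theorem dvd_half_of_sim (hQ : IsNondegenerateQuadraticForm ⇑Q) [Nonempty ι] {r : ℕ}
    {K : Subalgebra F (Matrix ι ι F)} (hK : IsFieldSubalgebra r K)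
    (hA : IsAdjointClosedFor (polar Q) K) (hs : ∀ k ∈ K, ∃ c : F, ∀ v, Q (k *ᵥ v) = c * Q v)
    (hp : IsPlusTypeOn ⇑Q ⊤) : 2 * r ∣ Fintype.card ι := by
  obtain ⟨U, h3, h4, h5⟩ := exists_max_inv K (fun U => ∀ u ∈ U, Q u = 0)
    (fun u hu => by rw [(Submodule.mem_bot F).1 hu, map_zero])
  obtain ⟨M, -, hM, hd⟩ := hp
  obtain ⟨M', h6, -, h7, h8⟩ := exists_ts_sup Q h3 hM
  have h9 : M' ≤ U := fun x hx => h5 x fun u0 hu0 => by
    obtain ⟨u, hu, _, ⟨k, hk, rfl⟩, rfl⟩ := Submodule.mem_sup.1 hu0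
    obtain ⟨c, hc⟩ := hs k hk
    obtain ⟨k', hk', e⟩ := hA k hk
    rw [H11.Q_add, h3 u hu, hc, h7 x hx, polar_comm, e, polar_of_ts h7 hx (h6 (h4 k' hk' u hu))]
    simp
  have h10 := two_mul_le_of_ts (nondegOn_top hQ) le_top h3
  have h11 := Submodule.finrank_mono h9
  rw [finrank_top, Module.finrank_fintype_fun_eq_card] at hd h10
  obtain ⟨c, hc⟩ := IsFieldSubalgebra_dvd hK h4
  exact ⟨c, by rw [mul_assoc, ← hc]; omega⟩

end Cfsg.Agent.H99
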