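import Cfsg.Agent.H99.OTens

/-! A tensor factor `O₄⁺` gives a two-dimensional tensor factor. -/

set_option autoImplicit false
set_option linter.unusedSectionVars false
set_option linter.unusedVariables false
set_option linter.unusedSimpArgs false

namespace Cfsg.Agent.H99

open scoped MatrixGroups Matrix Cfsg.Agent.H11 Kronecker
open Cfsg.Geo QuadraticMap Module
open Cfsg.Agent.H98

variable {ι : Type} [Fintype ι] [DecidableEq ι] {F : Type*} [Field F]
variable {Q : QuadraticForm F (ι → F)}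

section Rows
variable {a b : ℕ} {e : ι ≃ Fin a × Fin b} {P : GL ι F}

/-- The embedding of `F^a ⊗ U`. -/
def rowMap (e : ι ≃ Fin a × Fin b) (P : GL ι F) (U : Submodule F (Fin b → F)) :
    (Fin a → U) →ₗ[F] (ι → F) where
  toFun T := frmV e P fun p => (T p.1 : Fin b → F) p.2
  map_add' _ _ := by rw [← map_add]; rfl
  map_smul' _ _ := by rw [← map_smul]; rfl

/-- The subspace `F^a ⊗ U`. -/
def rows (e : ι ≃ Fin a × Fin b) (P : GL ι F) (U : Submodule F (Fin b → F)) : Submodule F (ι → F) :=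
  LinearMap.range (rowMap e P U)

theorem mem_rows {U : Submodule F (Fin b → F)} {T : Fin a × Fin b → F} :
    frmV e P T ∈ rows e P U ↔ ∀ i, (fun j => T (i, j)) ∈ U := by
  constructor
  · rintro ⟨S, h⟩ i
    obtain rfl := (frmV e P).injective h
    exact (S i).2
  · exact fun h => ⟨fun i => ⟨_, h i⟩, rfl⟩

theorem finrank_rows (U : Submodule F (Fin b → F)) : finrank F (rows e P U) = a * finrank F U := by
  rw [rows, LinearMap.finrank_range_of_inj fun S T h => by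
    have := (frmV e P).injective h
    ext i j; exact congrFun this (i, j)]
  simp [Module.finrank_pi_fintype]

theorem rows_inf (U U' : Submodule F (Fin b → F)) :
    rows e P U ⊓ rows e P U' = rows e P (U ⊓ U') := by
  ext v
  obtain ⟨T, rfl⟩ := (frmV e P).surjective v
  simp only [Submodule.mem_inf, mem_rows, forall_and]

theorem eq_sum_tp (T : Fin a × Fin b → F) :
    T = ∑ i, H9.tp (Pi.single i 1) fun j => T (i, j) := by
  ext ⟨i, j⟩
  simp [H9.tp, Pi.single_apply]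

theorem map_rows {g : GL ι F} {x : GL (Fin a) F} {y : GL (Fin b) F}
    (h : (g : Matrix ι ι F) = frm e P ((x : Matrix (Fin a) (Fin a) F) ⊗ₖ (y : Matrix (Fin b) (Fin b) F)))
    (U : Submodule F (Fin b → F)) : (rows e P U).map (Matrix.toLin' (g : Matrix ι ι F)) =
      rows e P (U.map (Matrix.toLin' (y : Matrix (Fin b) (Fin b) F))) := by
  refine Submodule.eq_of_le_of_finrank_eq ?_ (by
    rw [finrank_map_gl, finrank_rows, finrank_rows, finrank_map_gl])
  rintro _ ⟨v, hv, rfl⟩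
  obtain ⟨T, rfl⟩ := (frmV e P).surjective v
  rw [eq_sum_tp T, map_sum, map_sum]
  refine Submodule.sum_mem _ fun i _ => ?_
  rw [Matrix.toLin'_apply, H9.mulVec_frmV_tp h]
  exact mem_rows.2 fun k => Submodule.smul_mem _ (((x : Matrix (Fin a) (Fin a) F) *ᵥ Pi.single i 1) k)
    (Submodule.mem_map_of_mem (f := Matrix.toLin' (y : Matrix (Fin b) (Fin b) F)) (mem_rows.1 hv i))

end Rows

/-- The determinant as a quadratic form. -/
noncomputable def qDet (F : Type*) [Field F] : QuadraticForm F (Fin 2 × Fin 2 → F) :=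
  QuadraticMap.proj (0, 0) (1, 1) - QuadraticMap.proj (0, 1) (1, 0)

theorem qDet_apply (T : Fin 2 × Fin 2 → F) :
    qDet F T = T (0, 0) * T (1, 1) - T (0, 1) * T (1, 0) := by simp [qDet]

theorem polar_qDet (T S : Fin 2 × Fin 2 → F) : polar (qDet F) T S =
    T (0, 0) * S (1, 1) + T (1, 1) * S (0, 0) - T (0, 1) * S (1, 0) - T (1, 0) * S (0, 1) := by
  simp only [polar, qDet_apply, Pi.add_apply]; ring

theorem nd_qDet : H11.ND (qDet F) := fun T h => by
  ext ⟨i, j⟩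
  have h1 := h (Pi.single (1 - i, 1 - j) 1)
  rw [polar_qDet] at h1
  fin_cases i <;> fin_cases j <;> simpa using h1

theorem exists_tp_of_det {T : Fin 2 × Fin 2 → F} (h : qDet F T = 0) : ∃ u w, T = H9.tp u w := by
  rw [qDet_apply] at h
  by_cases h0 : T (0, 0) = 0
  · by_cases h1 : T (0, 1) = 0
    · exact ⟨![0, 1], fun j => T (1, j), by
        ext ⟨i, j⟩; fin_cases i <;> fin_cases j <;> simp [H9.tp, *]⟩
    · refine ⟨![1, T (1, 1) / T (0, 1)], fun j => T (0, j), ?_⟩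
      have h2 : T (1, 0) = 0 := by simpa [h0, h1] using h
      ext ⟨i, j⟩; fin_cases i <;> fin_cases j <;> simp [H9.tp, *]
  · refine ⟨![1, T (1, 0) / T (0, 0)], fun j => T (0, j), ?_⟩
    ext ⟨i, j⟩; fin_cases i <;> fin_cases j <;> simp [H9.tp, *]
    field_simp; linear_combination h

theorem dep_of_det {u s : Fin 2 → F} (hu : u ≠ 0) (h : u 0 * s 1 - u 1 * s 0 = 0) :
    ∃ c : F, s = c • u := by
  by_cases h0 : u 0 = 0
  · have h1 : u 1 ≠ 0 := fun h1 => hu (by ext i; fin_cases i <;> simp [*])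
    have h2 : s 0 = 0 := by simpa [h0, h1] using h
    exact ⟨s 1 / u 1, by ext i; fin_cases i <;> simp [*]⟩
  · refine ⟨s 0 / u 0, ?_⟩
    ext i; fin_cases i <;> simp [*]
    field_simp; linear_combination h

/-- The member `F² ⊗ w` of the first ruling. -/
def rul (w : Fin 2 → F) : Submodule F (Fin 2 × Fin 2 → F) :=
  slice (Equiv.prodComm (Fin 2) (Fin 2)) 1 w

theorem mem_rul {w : Fin 2 → F} {T : Fin 2 × Fin 2 → F} : T ∈ rul w ↔ ∃ u, H9.tp u w = T := by
  have : ∀ u, sliceMap (Equiv.prodComm (Fin 2) (Fin 2)) (1 : GL _ F) w u = H9.tp u w := fun u => by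
    rw [sliceMap_apply, frmV_apply]; ext; simp [H9.tp, mul_comm]
  simp only [rul, slice, LinearMap.mem_range, this]

theorem mem_slice_one {u : Fin 2 → F} {T : Fin 2 × Fin 2 → F} :
    T ∈ slice (Equiv.refl _) (1 : GL _ F) u ↔ ∃ w, H9.tp u w = T := by
  have : ∀ w, sliceMap (Equiv.refl (Fin 2 × Fin 2)) (1 : GL _ F) u w = H9.tp u w := fun u => by
    rw [sliceMap_apply, frmV_apply]; ext; simp [H9.tp]
  simp only [slice, LinearMap.mem_range, this]

theorem eq_rul_of_even {W : Submodule F (Fin 2 × Fin 2 → F)} (hW : finrank F W = 2)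
    (h : ∀ T ∈ W, qDet F T = 0) {w : Fin 2 → F} (hw : w ≠ 0) (he : Even (finrank F ↥(rul w ⊓ W))) :
    ∃ w', w' ≠ 0 ∧ W = rul w' := by
  obtain ⟨T, hT, hT0⟩ := (Submodule.ne_bot_iff _).1 (H27.ne_bot_of_finrank_pos (W := W) (by omega))
  obtain ⟨u', w', rfl⟩ := exists_tp_of_det (h T hT)
  have hu' : u' ≠ 0 := by rintro rfl; exact hT0 (by ext; simp [H9.tp])
  have hw' : w' ≠ 0 := by rintro rfl; exact hT0 (by ext; simp [H9.tp])
  have h1 : ∀ S ∈ W, S ∈ rul w' ∨ S ∈ slice (Equiv.refl _) (1 : GL _ F) u' := fun S hS => by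
    obtain ⟨s, t, rfl⟩ := exists_tp_of_det (h S hS)
    have h2 := polar_of_ts h hT hS
    rw [polar_qDet] at h2
    rcases mul_eq_zero.1 (show (u' 0 * s 1 - u' 1 * s 0) * (w' 0 * t 1 - w' 1 * t 0) = 0 by
      simp only [H9.tp] at h2; linear_combination h2) with h3 | h3
    · obtain ⟨c, rfl⟩ := dep_of_det hu' h3
      exact Or.inr (mem_slice_one.2 ⟨c • t, by rw [H9.tp_smul_left, H9.tp_smul_right]⟩)
    · obtain ⟨c, rfl⟩ := dep_of_det hw' h3
      exact Or.inl (mem_rul.2 ⟨c • s, by rw [H9.tp_smul_left, H9.tp_smul_right]⟩)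
  by_cases h2 : W ≤ rul w'
  · exact ⟨w', hw', Submodule.eq_of_le_of_finrank_eq h2 (by rw [hW, rul, finrank_slice hw'])⟩
  obtain ⟨S, hS, hS'⟩ := SetLike.not_le_iff_exists.1 h2
  have h3 : W ≤ slice (Equiv.refl _) (1 : GL _ F) u' := fun R hR => by
    rcases h1 R hR with a | a
    · rcases h1 _ (add_mem hR hS) with b | b
      · exact absurd (by simpa using sub_mem b a) hS'
      · simpa using sub_mem b ((h1 S hS).resolve_left hS')
    · exact a
  obtain rfl := Submodule.eq_of_le_of_finrank_eq h3 (by rw [hW, finrank_slice hu'])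
  exfalso
  have h4 : rul w ⊓ slice (Equiv.refl _) (1 : GL _ F) u' = Submodule.span F {H9.tp u' w} := by
    refine le_antisymm ?_ ((Submodule.span_singleton_le_iff_mem _ _).2
      ⟨mem_rul.2 ⟨_, rfl⟩, mem_slice_one.2 ⟨_, rfl⟩⟩)
    rintro R ⟨a, b⟩
    obtain ⟨s, rfl⟩ := mem_rul.1 a
    obtain ⟨t, e⟩ := mem_slice_one.1 b
    obtain ⟨j, hj⟩ := Function.ne_iff.1 hw
    obtain ⟨c, rfl⟩ := dep_of_det hu' (s := s) (by
      have e0 : u' 0 * t j = s 0 * w j := congrFun e (0, j)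
      have e1 : u' 1 * t j = s 1 * w j := congrFun e (1, j)
      exact mul_right_cancel₀ hj (by linear_combination u' 1 * e0 - u' 0 * e1))
    rw [H9.tp_smul_left]
    exact Submodule.smul_mem _ _ (Submodule.mem_span_singleton_self _)
  rw [h4, finrank_span_singleton (H9.tp_ne_zero hu' hw)] at he
  exact absurd he (by decide)

theorem eq_kron_of_rul {z : Matrix (Fin 2 × Fin 2) (Fin 2 × Fin 2) F}
    (h : ∀ w, w ≠ 0 → ∀ T ∈ rul w, z *ᵥ T ∈ rul w) :
    ∃ X : Matrix (Fin 2) (Fin 2) F, X ⊗ₖ (1 : Matrix (Fin 2) (Fin 2) F) = z := by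
  have h1 : ∀ i j k l, k ≠ l → z (i, k) (j, l) = 0 := fun i j k l hkl => by
    obtain ⟨u, e⟩ := mem_rul.1 (h (Pi.single l 1) (by simp) _ (mem_rul.2 ⟨Pi.single j 1, rfl⟩))
    have := congrFun e (i, k)
    rw [← H9.single_eq_tp] at this
    simpa [H9.tp, hkl] using this.symm
  have h2 : ∀ i j, z (i, 1) (j, 1) = z (i, 0) (j, 0) := fun i j => by
    obtain ⟨u, e⟩ := mem_rul.1 (h 1 one_ne_zero _ (mem_rul.2 ⟨Pi.single j 1, rfl⟩))
    have e0 := congrFun e (i, 0)
    have e1 := congrFun e (i, 1)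
    have e2 : H9.tp (Pi.single j (1 : F)) (1 : Fin 2 → F) =
        Pi.single (j, 0) 1 + Pi.single (j, 1) 1 := by
      rw [H9.single_eq_tp, H9.single_eq_tp, ← H9.tp_add_right]; congr 1
      ext k; fin_cases k <;> simp
    rw [e2] at e0 e1
    simp [H9.tp, Matrix.mulVec_add, h1 i j 0 1, h1 i j 1 0] at e0 e1
    rw [← e0, ← e1]
  refine ⟨Matrix.of fun i j => z (i, 0) (j, 0), ?_⟩
  ext ⟨i, k⟩ ⟨j, l⟩
  fin_cases k <;> fin_cases l <;> simp [h1, h2]

theorem tensor_plus_four [Finite F] (hQ : IsNondegenerateQuadraticForm ⇑Q) (h2 : (2 : F) ≠ 0) {a : ℕ}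
    (ha : Odd a) (ha3 : 3 ≤ a) {e : ι ≃ Fin a × Fin 4} {P : GL ι F}
    {f₁ : (Fin a → F) → (Fin a → F) → F} {f₂ : (Fin 4 → F) → (Fin 4 → F) → F}
    (h₁ : IsSesq (RingEquiv.refl F) 1 f₁) (h₂ : IsSesq (RingEquiv.refl F) 1 f₂)
    (hT : IsTensorFormStructure (RingEquiv.refl F) (polar Q) f₁ f₂ e P)
    (hp : IsPlusTypeOn (fun v => f₂ v v) ⊤) {H : Subgroup (GL ι F)} (hH : H ≤ omegaGL ⇑Q)
    (hle : H ≤ tensorProductSubgroup a 4 e P) :
    ∃ (b : ℕ) (e' : ι ≃ Fin 2 × Fin b) (P' : GL ι F), H ≤ tensorProductSubgroup 2 b e' P' ∧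
      IsAdjointClosedFor (polar Q) (tensL e' P') := by
  have hf := isSesq_polar hQ
  have hn : Fintype.card ι = a * 4 := by rw [Fintype.card_congr e]; simp
  obtain ⟨c, -, hcf⟩ := H9.tensorForm_tp h₁ h₂ hT
  have hadj := adj_tensor hf h₁ h₂ hT
  have hsim := fun g hg x y => (tensor_sim hf (by omega) (by omega) h₁ h₂ hT (g := g) (x := x)
    (y := y) hg)
  obtain ⟨Q₂, n₂, rfl⟩ := H11.exists_qf_of_sesq h2 h₂
  obtain ⟨Ψ, hΨ⟩ := exists_iso_even nd_qDet n₂ (by simp) (by simp; decide) (iff_of_true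
    (plus_top_iff.1 ⟨rul 1, le_top, fun T hT => by
      obtain ⟨u, rfl⟩ := mem_rul.1 hT; simp [qDet_apply, H9.tp, mul_comm],
      by rw [rul, finrank_slice one_ne_zero]; simp⟩)
    (plus_top_iff.1 (by
      obtain ⟨U, a, b, c⟩ := hp
      exact ⟨U, a, fun v hv => by rw [H11.Q_eq_half h2, show polar Q₂ v v = 0 from b v hv, mul_zero],
        c⟩)))
  obtain ⟨e₂, P₂, hP₂⟩ := exists_frame_of_linearEquiv Ψ
  simp only [hP₂] at hΨ
  have hΨ' : ∀ T S, polar Q₂ (frmV e₂ P₂ T) (frmV e₂ P₂ S) = polar (qDet F) T S := fun T S => by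
    simp only [polar, ← map_add, hΨ]
  let φ : Matrix (Fin 2) (Fin 2) F →ₐ[F] Matrix ι ι F := (frm e P).toAlgHom.comp
    ((kronR (Fin a) (Fin 4) F).comp ((frm e₂ P₂).toAlgHom.comp (kronL (Fin 2) (Fin 2) F)))
  have hφ : ∀ X, φ X = frm e P ((1 : Matrix (Fin a) (Fin a) F) ⊗ₖ
      frm e₂ P₂ (X ⊗ₖ (1 : Matrix (Fin 2) (Fin 2) F))) := fun _ => rfl
  obtain ⟨b, e', P', h3⟩ := exists_frame_of_algHom two_pos φ
  have hb : 0 < b := by
    have := Fintype.card_congr e'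
    rw [Fintype.card_prod, Fintype.card_fin, Fintype.card_fin] at this; omega
  refine ⟨b, e', P', le_tensorProductSubgroup_of_nz two_pos hb fun g hg z hz => ?_,
    hf.adjClosed_iff.2 fun z hz => ?_⟩
  swap
  · obtain ⟨X, rfl⟩ := mem_tensL.1 hz
    refine mem_tensL.2 ⟨X.adjugate, ?_⟩
    rw [← h3, ← h3, hφ, hφ, hadj, h₁.adj_one, h₂.adj_unique fun u v => ?_]
    obtain ⟨T, rfl⟩ := (frmV e₂ P₂).surjective u
    obtain ⟨S, rfl⟩ := (frmV e₂ P₂).surjective v
    rw [frm_mulVec, frm_mulVec, hΨ', hΨ', polar_qDet, polar_qDet]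
    simp only [kron_one_mulVec, Fin.sum_univ_two, Matrix.adjugate_fin_two]
    simp; ring
  -- the ruling is preserved
  have key : ∀ g ∈ H, ∀ (x : GL (Fin a) F) (y : GL (Fin 4) F), (g : Matrix ι ι F) =
      frm e P ((x : Matrix (Fin a) (Fin a) F) ⊗ₖ (y : Matrix (Fin 4) (Fin 4) F)) → ∀ w, w ≠ 0 →
      ∃ w', w' ≠ 0 ∧ (rul w).map (Matrix.toLin' (((frmG e₂ P₂).symm y : GL _ F) : Matrix _ _ F)) =
        rul w' := by
    intro g hg x y hxy w hw
    obtain ⟨d, hd⟩ := (hsim g (le_sim_of_le_iso (hH.trans (omegaGL_le _)) hg) x y hxy).2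
    have h4 : ∀ T ∈ rul w, qDet F T = 0 := fun T hT => by
      obtain ⟨u, rfl⟩ := mem_rul.1 hT; simp only [qDet_apply, H9.tp]; ring
    have hr : finrank F (rul w) = 2 := finrank_slice hw
    refine eq_rul_of_even (by rw [finrank_map_gl, hr]) ?_ hw ?_
    · rintro _ ⟨T, hT, rfl⟩
      rw [← hΨ, Matrix.toLin'_apply, ← H9.mulVec_frmV_of_frmG, H11.Q_eq_half h2, hd, hΨ',
        H11.polar_self', h4 T hT]; simp
    let U := (rul w).map (frmV e₂ P₂).toLinearMap
    have h5 : ∀ V : Submodule F (Fin 2 × Fin 2 → F),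
        finrank F (V.map (frmV e₂ P₂).toLinearMap) = finrank F V := fun V =>
      LinearEquiv.finrank_map_eq _ _
    have h6 := even_of_omega hQ (by omega) (U := rows e P U) (fun v hv => by
      obtain ⟨T, rfl⟩ := (frmV e P).surjective v
      rw [H11.Q_eq_half h2, eq_sum_tp T, map_sum, hf.sum_left, Finset.sum_eq_zero, mul_zero]
      intro i _
      rw [hf.sum_right]
      refine Finset.sum_eq_zero fun j _ => ?_
      obtain ⟨S, hS, e1⟩ := mem_rows.1 hv i
      obtain ⟨R, hR, e2⟩ := mem_rows.1 hv j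
      rw [hcf, ← e1, ← e2, LinearEquiv.coe_coe, hΨ', polar_of_ts h4 hS hR]; simp)
      (by rw [finrank_rows, h5, hr]; omega) (hH hg)
    have h7 : U.map (Matrix.toLin' (y : Matrix (Fin 4) (Fin 4) F)) = ((rul w).map (Matrix.toLin'
        (((frmG e₂ P₂).symm y : GL _ F) : Matrix _ _ F))).map (frmV e₂ P₂).toLinearMap := by
      rw [← Submodule.map_comp, ← Submodule.map_comp]
      congr 1
      exact LinearMap.ext fun T => H9.mulVec_frmV_of_frmG e₂ P₂ y T
    rw [map_rows hxy, rows_inf, finrank_rows, finrank_rows, h7, ← Submodule.map_inf _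
      (frmV e₂ P₂).injective, h5, h5, hr, ← Nat.mul_sub, Nat.even_mul] at h6
    have h8 := h6.resolve_left (Nat.not_even_iff_odd.2 ha)
    have h9 := Submodule.finrank_mono (inf_le_left : rul w ⊓ (rul w).map (Matrix.toLin'
      (((frmG e₂ P₂).symm y : GL _ F) : Matrix _ _ F)) ≤ _)
    rw [Nat.even_iff] at h8 ⊢
    omega
  obtain ⟨X, rfl⟩ := mem_tensL.1 hz
  obtain ⟨x, y, hxy⟩ := mem_tensorProductSubgroup.1 (hle hg)
  have hxy' : ((g⁻¹ : GL ι F) : Matrix ι ι F) = frm e P (((x⁻¹ : GL _ F) : Matrix (Fin a) (Fin a) F) ⊗ₖ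
      ((y⁻¹ : GL _ F) : Matrix (Fin 4) (Fin 4) F)) := by
    apply Units.inv_eq_of_mul_eq_one_right
    rw [hxy, ← map_mul, ← Matrix.mul_kronecker_mul, Units.mul_inv, Units.mul_inv,
      Matrix.one_kronecker_one, map_one]
  obtain ⟨X', hX'⟩ := eq_kron_of_rul (z := cj ((frmG e₂ P₂).symm y)
      (X ⊗ₖ (1 : Matrix (Fin 2) (Fin 2) F))) fun w hw T hT => by
    obtain ⟨w', -, h4⟩ := key _ (H.inv_mem hg) _ _ hxy' w hw
    rw [map_inv] at h4
    generalize (frmG e₂ P₂).symm y = y' at h4 ⊢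
    obtain ⟨u, hu⟩ := mem_rul.1 (h4 ▸ Submodule.mem_map_of_mem hT :
      Matrix.toLin' ((y'⁻¹ : GL _ F) : Matrix _ _ F) T ∈ rul w')
    rw [Matrix.toLin'_apply] at hu
    rw [cj_apply, ← Matrix.mulVec_mulVec, ← Matrix.mulVec_mulVec, ← hu, H9.kron_mulVec_tp, Matrix.one_mulVec]
    obtain ⟨S, hS, e1⟩ : H9.tp (X *ᵥ u) w' ∈ (rul w).map _ := h4 ▸ mem_rul.2 ⟨_, rfl⟩
    rw [← e1, Matrix.toLin'_apply, mulVec_inv_mulVec]
    exact hS
  refine mem_tensL.2 ⟨X', ?_⟩
  rw [← h3, ← h3, hφ, hφ, ← cj_apply, cj_kron hxy, map_one, hX', ← cj_frmG,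
    MulEquiv.apply_symm_apply]

end Cfsg.Agent.H99
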