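import Cfsg.Agent.H99.OField

/-! The normaliser of a field of odd degree `n / 2` in an orthogonal group. -/

set_option autoImplicit false
set_option linter.unusedSectionVars false
set_option linter.unusedVariables false
set_option linter.unusedSimpArgs false

namespace Cfsg.Agent.H99

open scoped MatrixGroups Matrix Cfsg.Agent.H11
open Cfsg.Geo QuadraticMap Module
open Cfsg.Agent.H98

variable {ι : Type} [Fintype ι] [DecidableEq ι] {F : Type*} [Field F]
variable {Q : QuadraticForm F (ι → F)} {r : ℕ} {K : Subalgebra F (Matrix ι ι F)}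

theorem field_mulVec_eq_zero (hK : IsFieldSubalgebra r K) {k : Matrix ι ι F} (hk : k ∈ K)
    {x : ι → F} (hx : x ≠ 0) (h : k *ᵥ x = 0) : k = 0 := by
  by_contra h0
  obtain ⟨l, hl, e⟩ := hK.inv k hk h0
  rw [hK.comm k hk l hl] at e
  exact hx (by rw [← Matrix.one_mulVec x, ← e, ← Matrix.mulVec_mulVec, h, Matrix.mulVec_zero])

/-- The map `(a, b) ↦ a x + b y`. -/
def pairMap (K : Subalgebra F (Matrix ι ι F)) (x y : ι → F) : (K × K) →ₗ[F] (ι → F) where
  toFun p := (p.1 : Matrix ι ι F) *ᵥ x + (p.2 : Matrix ι ι F) *ᵥ y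
  map_add' p q := by simp [Matrix.add_mulVec]; abel
  map_smul' c p := by simp [Matrix.smul_mulVec]

theorem finrank_orb (hK : IsFieldSubalgebra r K) {x : ι → F} (hx : x ≠ 0) :
    finrank F (orb K x) = r := by
  let φ : K →ₗ[F] (ι → F) := (pairMap K x 0).comp (LinearMap.inl F K K)
  have h1 : ∀ k : K, φ k = (k : Matrix ι ι F) *ᵥ x := fun k => by simp [φ, pairMap]
  have h2 : LinearMap.range φ = orb K x := by
    ext v
    exact ⟨fun ⟨k, e⟩ => ⟨k, k.2, e.symm.trans (h1 k)⟩, fun ⟨k, hk, e⟩ => ⟨⟨k, hk⟩, (h1 _).trans e.symm⟩⟩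
  rw [← h2, LinearMap.finrank_range_of_inj ((injective_iff_map_eq_zero _).2 fun k hk =>
    Subtype.ext (field_mulVec_eq_zero hK k.2 hx ((h1 k).symm.trans hk))), hK.finrank_eq]

theorem orb_le {W : Submodule F (ι → F)} (hW : ∀ k ∈ K, ∀ v ∈ W, k *ᵥ v ∈ W) {x : ι → F}
    (hx : x ∈ W) : orb K x ≤ W := by
  rintro _ ⟨k, hk, rfl⟩; exact hW k hk x hx

theorem orb_inv (x : ι → F) : ∀ k ∈ K, ∀ v ∈ orb K x, k *ᵥ v ∈ orb K x := by
  rintro k hk _ ⟨l, hl, rfl⟩
  exact ⟨k * l, K.mul_mem hk hl, Matrix.mulVec_mulVec _ _ _⟩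

section
variable (hK : IsFieldSubalgebra r K) (hn : Fintype.card ι = 2 * r) (hr : 0 < r)
include hK hn

theorem pairMap_bijective {x y : ι → F} (hx : x ≠ 0) (hy : y ∉ orb K x) :
    Function.Bijective (pairMap K x y) := by
  have hi : Function.Injective (pairMap K x y) := (injective_iff_map_eq_zero _).2 fun ⟨a, b⟩ h => by
    change (a : Matrix ι ι F) *ᵥ x + (b : Matrix ι ι F) *ᵥ y = 0 at h
    have hb : (b : Matrix ι ι F) = 0 := by
      by_contra h0
      obtain ⟨l, hl, e⟩ := hK.inv _ b.2 h0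
      rw [hK.comm _ b.2 l hl] at e
      refine hy ⟨-(l * a), K.neg_mem (K.mul_mem hl a.2), ?_⟩
      rw [Matrix.neg_mulVec, eq_neg_iff_add_eq_zero, ← Matrix.one_mulVec y, ← e,
        ← Matrix.mulVec_mulVec, ← Matrix.mulVec_mulVec, ← Matrix.mulVec_add, add_comm, h,
        Matrix.mulVec_zero]
    rw [hb, Matrix.zero_mulVec, add_zero] at h
    exact Prod.ext (Subtype.ext (field_mulVec_eq_zero hK a.2 hx h)) (Subtype.ext hb)
  exact ⟨hi, (LinearMap.injective_iff_surjective_of_finrank_eq_finrank (by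
    rw [Module.finrank_prod, hK.finrank_eq, Module.finrank_fintype_fun_eq_card, hn, two_mul])).1 hi⟩

theorem exists_pair_repr {x y : ι → F} (hx : x ≠ 0) (hy : y ∉ orb K x) (v : ι → F) :
    ∃ a ∈ K, ∃ b ∈ K, v = a *ᵥ x + b *ᵥ y := by
  obtain ⟨⟨a, b⟩, e⟩ := (pairMap_bijective hK hn hx hy).2 v
  exact ⟨a, a.2, b, b.2, e.symm⟩

theorem exists_Klin {x y : ι → F} (hx : x ≠ 0) (hy : y ∉ orb K x) (p q : ι → F) :
    ∃ z : Matrix ι ι F, (∀ k ∈ K, z * k = k * z) ∧ z *ᵥ x = p ∧ z *ᵥ y = q := by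
  let Φ := LinearEquiv.ofBijective _ (pairMap_bijective hK hn hx hy)
  let z := LinearMap.toMatrix' ((pairMap K p q).comp Φ.symm.toLinearMap)
  have hz : ∀ a ∈ K, ∀ b ∈ K, z *ᵥ (a *ᵥ x + b *ᵥ y) = a *ᵥ p + b *ᵥ q := fun a ha b hb => by
    rw [LinearMap.toMatrix'_mulVec]
    change pairMap K p q (Φ.symm (Φ (⟨a, ha⟩, ⟨b, hb⟩))) = _
    rw [LinearEquiv.symm_apply_apply]; rfl
  refine ⟨z, fun k hk => matrix_ext_mulVec fun v => ?_, by simpa using hz 1 K.one_mem 0 K.zero_mem,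
    by simpa using hz 0 K.zero_mem 1 K.one_mem⟩
  obtain ⟨a, ha, b, hb, rfl⟩ := exists_pair_repr hK hn hx hy v
  rw [← Matrix.mulVec_mulVec, ← Matrix.mulVec_mulVec, hz a ha b hb, Matrix.mulVec_add,
    Matrix.mulVec_add k, Matrix.mulVec_mulVec x, Matrix.mulVec_mulVec y,
    hz _ (K.mul_mem hk ha) _ (K.mul_mem hk hb), Matrix.mulVec_mulVec, Matrix.mulVec_mulVec]

include hr in
theorem exists_not_mem_orb {x : ι → F} (hx : x ≠ 0) : ∃ y, y ∉ orb K x := by
  by_contra h
  push Not at h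
  have := finrank_orb hK hx
  rw [(eq_top_iff (a := orb K x)).2 fun y _ => h y, finrank_top, Module.finrank_fintype_fun_eq_card] at this
  omega

include hr in
theorem eq_orb_of_inv {W : Submodule F (ι → F)} (hW : ∀ k ∈ K, ∀ v ∈ W, k *ᵥ v ∈ W) (h1 : W ≠ ⊤)
    {x : ι → F} (hx : x ∈ W) (hx0 : x ≠ 0) : W = orb K x := by
  refine le_antisymm (fun y hy => ?_) (orb_le hW hx)
  by_contra h
  refine h1 (eq_top_iff.2 fun v _ => ?_)
  obtain ⟨a, ha, b, hb, rfl⟩ := exists_pair_repr hK hn hx0 h v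
  exact add_mem (hW a ha x hx) (hW b hb y hy)

end

variable [Finite F]

omit [Finite F] in
theorem polar_skew {z : Matrix ι ι F} (h : ∀ x, polar Q x (z *ᵥ x) = 0) (u v : ι → F) :
    polar Q u (z *ᵥ v) = -polar Q v (z *ᵥ u) := by
  have := h (u + v)
  rw [Matrix.mulVec_add, polar_add_left, polar_add_right, polar_add_right, h, h] at this
  linear_combination this

omit [Finite F] in
theorem sq_inj_of_char_two (hK : IsFieldSubalgebra r K) (h2 : (2 : F) = 0) {s t : Matrix ι ι F}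
    (hs : s ∈ K) (ht : t ∈ K) (h : s * s = t * t) : s = t := by
  by_contra h3
  obtain ⟨y, hy, e⟩ := hK.inv _ (K.sub_mem hs ht) (sub_ne_zero.2 h3)
  have h1 : (s - t) * (s - t) = 0 := by
    rw [sub_mul, mul_sub, mul_sub, h, hK.comm _ hs _ ht,
      show t * t - t * s - (t * s - t * t) = (2 : F) • (t * t - t * s) by module, h2, zero_smul]
  exact h3 (sub_eq_zero.1 (by rw [← mul_one (_ - _), ← e, ← mul_assoc, h1, zero_mul]))

theorem exists_sq_of_char_two (hK : IsFieldSubalgebra r K) (h2 : (2 : F) = 0) {l : Matrix ι ι F}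
    (hl : l ∈ K) : ∃ s ∈ K, s * s = l := by
  have hi : Function.Injective fun s : K => s * s := fun s t h =>
    Subtype.ext (sq_inj_of_char_two hK h2 s.2 t.2 (congrArg Subtype.val h))
  obtain ⟨s, e⟩ := Finite.surjective_of_injective hi ⟨l, hl⟩
  exact ⟨s, s.2, congrArg Subtype.val e⟩

section
variable (hQ : IsNondegenerateQuadraticForm ⇑Q) (hK : IsFieldSubalgebra r K)
  (hs : IsSelfAdjointFor (polar Q) K) (hn : Fintype.card ι = 2 * r) (hr : 0 < r)

include hK hs in
theorem skew_mul {z : Matrix ι ι F} (hz : ∀ k ∈ K, z * k = k * z) (h : ∀ x, polar Q x (z *ᵥ x) = 0)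
    {l : Matrix ι ι F} (hl : l ∈ K) (x : ι → F) : polar Q x ((l * z) *ᵥ x) = 0 := by
  by_cases h2 : (2 : F) = 0
  · obtain ⟨s, hs', rfl⟩ := exists_sq_of_char_two hK h2 hl
    rw [mul_assoc, ← Matrix.mulVec_mulVec, ← hs s hs', ← hz s hs', ← Matrix.mulVec_mulVec, h]
  · have := polar_skew h (l *ᵥ x) x
    rw [hs l hl, Matrix.mulVec_mulVec, Matrix.mulVec_mulVec, hz l hl] at this
    exact (mul_eq_zero.1 (show (2 : F) * _ = 0 by linear_combination this)).resolve_left h2

include hQ hK hs hn hr in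
theorem skew_eq_zero {z : Matrix ι ι F} (hz : ∀ k ∈ K, z * k = k * z)
    (h : ∀ x, polar Q x (z *ᵥ x) = 0) {x : ι → F} (hx : x ≠ 0) (hzx : z *ᵥ x = 0) : z = 0 := by
  obtain ⟨y, hy⟩ := exists_not_mem_orb hK hn hr hx
  have h1 : ∀ a ∈ K, z *ᵥ (a *ᵥ x) = 0 := fun a ha => by
    rw [Matrix.mulVec_mulVec, hz a ha, ← Matrix.mulVec_mulVec, hzx, Matrix.mulVec_zero]
  have h2 : z *ᵥ y = 0 := (isSesq_polar hQ).eq_zero_of_right fun v => by
    obtain ⟨a, ha, b, hb, rfl⟩ := exists_pair_repr hK hn hx hy v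
    rw [polar_add_left, polar_skew h, h1 a ha, hs b hb, Matrix.mulVec_mulVec, skew_mul hK hs hz h hb]
    simp
  refine matrix_ext_mulVec fun v => ?_
  obtain ⟨a, ha, b, hb, rfl⟩ := exists_pair_repr hK hn hx hy v
  rw [Matrix.mulVec_add, h1 a ha, Matrix.mulVec_mulVec, hz b hb, ← Matrix.mulVec_mulVec, h2]
  simp

include hQ hK hs hn hr in
theorem skew_dep {z z' : Matrix ι ι F} (hz : ∀ k ∈ K, z * k = k * z)
    (h : ∀ x, polar Q x (z *ᵥ x) = 0) (hz' : ∀ k ∈ K, z' * k = k * z')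
    (h' : ∀ x, polar Q x (z' *ᵥ x) = 0) (h0 : z' ≠ 0) : ∃ k ∈ K, z = k * z' := by
  have : Nonempty ι := Fintype.card_pos_iff.1 (by omega)
  have hf := isSesq_polar hQ
  obtain ⟨x, hx⟩ := exists_ne (0 : ι → F)
  have key : ∀ z : Matrix ι ι F, (∀ k ∈ K, z * k = k * z) → (∀ x, polar Q x (z *ᵥ x) = 0) →
      z *ᵥ x ∈ H9.perp hf (orb K x) := fun z a b => (H9.mem_perp' hf).2 (by
    rintro _ ⟨k, hk, rfl⟩
    rw [hs k hk, Matrix.mulVec_mulVec, skew_mul hK hs a b hk])
  have h1 := eq_orb_of_inv hK hn hr (W := H9.perp hf (orb K x))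
    (fun k hk v hv w hw => by rw [hs k hk]; exact hv _ (orb_inv x k hk w hw))
    (fun e => hx (hf.eq_zero_of_right fun v =>
      (e ▸ Submodule.mem_top : v ∈ H9.perp hf (orb K x)) x (self_mem_orb K x)))
    (key z' hz' h') fun e => h0 (skew_eq_zero hQ hK hs hn hr hz' h' hx e)
  obtain ⟨k, hk, e⟩ : z *ᵥ x ∈ orb K (z' *ᵥ x) := h1 ▸ key z hz h
  refine ⟨k, hk, sub_eq_zero.1 (skew_eq_zero hQ hK hs hn hr (fun l hl => ?_) (fun v => ?_) hx ?_)⟩
  · rw [sub_mul, mul_sub, hz l hl, mul_assoc, hz' l hl, ← mul_assoc, ← mul_assoc, hK.comm k hk l hl]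
  · rw [Matrix.sub_mulVec, polar_sub_right, h, skew_mul hK hs hz' h' hk, sub_zero]
  · rw [Matrix.sub_mulVec, e, Matrix.mulVec_mulVec, sub_self]

include hQ hK hs hn hr in
theorem exists_half_odd (h2 : (2 : F) ≠ 0) : ∃ j : Matrix ι ι F, (∀ k ∈ K, j * k = k * j) ∧
    (∀ x, polar Q x (j *ᵥ x) = 0) ∧ j ≠ 0 := by
  have : Nonempty ι := Fintype.card_pos_iff.1 (by omega)
  have hf := isSesq_polar hQ
  by_contra hc
  push Not at hc
  have h1 : ∀ z : Matrix ι ι F, (∀ k ∈ K, z * k = k * z) → adj (RingEquiv.refl F) (polar Q) z = z :=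
    fun z hz => (sub_eq_zero.1 (hc (z - adj (RingEquiv.refl F) (polar Q) z) (fun k hk => by
      have := congrArg (adj (RingEquiv.refl F) (polar Q)) (hz k hk)
      rw [hf.adj_mul, hf.adj_mul, hf.selfAdj_iff.1 hs k hk] at this
      rw [sub_mul, mul_sub, hz k hk, this]) fun x => by
        rw [Matrix.sub_mulVec, polar_sub_right, ← hf.adj_spec, polar_comm, sub_self])).symm
  obtain ⟨x, hx⟩ := exists_ne (0 : ι → F)
  obtain ⟨y, hy⟩ := exists_not_mem_orb hK hn hr hx
  obtain ⟨p, hp, p1, p2⟩ := exists_Klin hK hn hx hy x 0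
  obtain ⟨q, hq, q1, q2⟩ := exists_Klin hK hn hx hy 0 x
  have h3 := h1 (p * q) fun k hk => by rw [mul_assoc, hq k hk, ← mul_assoc, hp k hk, mul_assoc]
  rw [hf.adj_mul, h1 p hp, h1 q hq] at h3
  have h4 := congrArg (· *ᵥ y) h3
  simp only [← Matrix.mulVec_mulVec, p2, q2, p1, Matrix.mulVec_zero] at h4
  exact hx h4.symm

include hQ hK hs hn hr in
theorem exists_half_even (h2 : (2 : F) = 0) : ∃ w : Matrix ι ι F, (∀ k ∈ K, w * k = k * w) ∧
    ∀ x, polar Q x (w *ᵥ x) = Q x := by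
  have : Nonempty ι := Fintype.card_pos_iff.1 (by omega)
  have hf := isSesq_polar hQ
  have h0 : ∀ l ∈ K, ∀ x, polar Q x (l *ᵥ x) = 0 := fun l hl x => by
    simpa using skew_mul hK hs (z := 1) (by simp) (fun x => by
      rw [Matrix.one_mulVec, H11.polar_self', h2, zero_mul]) hl x
  have h0' : ∀ a ∈ K, ∀ b ∈ K, ∀ x, polar Q (a *ᵥ x) (b *ᵥ x) = 0 := fun a ha b hb x => by
    rw [hs a ha, Matrix.mulVec_mulVec, h0 _ (K.mul_mem ha hb)]
  obtain ⟨x, hx⟩ := exists_ne (0 : ι → F)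
  obtain ⟨y, hy⟩ := exists_not_mem_orb hK hn hr hx
  -- every semilinear functional is represented
  have key : ∀ v : ι → F, ∃ a ∈ K, ∀ l ∈ K, polar Q ((l * l * a) *ᵥ x) y = Q (l *ᵥ v) := by
    intro v
    choose! sq hsq hsq' using fun l hl => exists_sq_of_char_two hK h2 (l := l) hl
    have hu : ∀ s ∈ K, ∀ t ∈ K, s * s = t * t → s = t := fun s hs t ht =>
      sq_inj_of_char_two hK h2 hs ht
    let ψ : Dual F K :=
      { toFun := fun l => Q (sq l *ᵥ v)
        map_add' := fun l m => by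
          rw [hu _ (hsq _ (l + m).2) _ (K.add_mem (hsq _ l.2) (hsq _ m.2)) (by
            rw [hsq' _ (l + m).2, add_mul, mul_add, mul_add, hsq' _ l.2, hsq' _ m.2,
              hK.comm _ (hsq _ l.2) _ (hsq _ m.2), add_assoc, ← add_assoc (sq m * sq l),
              ← two_smul F, h2, zero_smul, zero_add]; rfl), Matrix.add_mulVec, H11.Q_add,
            h0' _ (hsq _ l.2) _ (hsq _ m.2), add_zero]
        map_smul' := fun c l => by
          have : CharP F 2 := CharTwo.of_one_ne_zero_of_two_eq_zero one_ne_zero h2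
          obtain ⟨d, rfl⟩ := FiniteField.isSquare_of_char_two (ringChar.eq F 2) c
          rw [hu _ (hsq _ ((d * d) • l).2) _ (K.smul_mem (hsq _ l.2) d) (by
            rw [hsq' _ ((d * d) • l).2, smul_mul_smul_comm, hsq' _ l.2]; rfl),
            Matrix.smul_mulVec, H11.Q_smul]
          simp [pow_two] }
    let Φ : K →ₗ[F] Dual F K := LinearMap.mk₂ F (fun a l => polar Q (((l * a : K) : Matrix ι ι F) *ᵥ x) y)
      (fun a b l => by simp [mul_add, Matrix.add_mulVec, polar_add_left])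
      (fun c a l => by simp [Matrix.smul_mulVec, H11.polar_smul_left'])
      (fun a l m => by simp [add_mul, Matrix.add_mulVec, polar_add_left])
      (fun c a l => by simp [Matrix.smul_mulVec, H11.polar_smul_left'])
    have hi : Function.Injective Φ := (injective_iff_map_eq_zero _).2 fun a ha => by
      refine Subtype.ext (field_mulVec_eq_zero hK a.2 hx (hf.eq_zero_of_left fun u => ?_))
      obtain ⟨s, hs', t, ht, rfl⟩ := exists_pair_repr hK hn hx hy u
      rw [polar_add_right, h0' _ a.2 _ hs', ← hs t ht, Matrix.mulVec_mulVec, zero_add]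
      exact LinearMap.congr_fun ha ⟨t, ht⟩
    obtain ⟨a, ha⟩ := (LinearMap.injective_iff_surjective_of_finrank_eq_finrank
      (Subspace.dual_finrank_eq (K := F) (V := K)).symm).1 hi ψ
    refine ⟨a, a.2, fun l hl => ?_⟩
    have h3 := LinearMap.congr_fun ha (⟨l, hl⟩ * ⟨l, hl⟩)
    change polar Q ((l * l * (a : Matrix ι ι F)) *ᵥ x) y = Q (sq (l * l) *ᵥ v) at h3
    rw [h3, hu _ (hsq _ (K.mul_mem hl hl)) l hl (hsq' _ (K.mul_mem hl hl))]
  obtain ⟨a, ha, e1⟩ := key x
  obtain ⟨b, hb, e2⟩ := key y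
  obtain ⟨w, hw, w1, w2⟩ := exists_Klin hK hn hx hy (a *ᵥ y) (y + b *ᵥ x)
  refine ⟨w, hw, fun v => ?_⟩
  obtain ⟨l, hl, m, hm, rfl⟩ := exists_pair_repr hK hn hx hy v
  have h3 : ∀ k ∈ K, ∀ u, w *ᵥ (k *ᵥ u) = k *ᵥ (w *ᵥ u) := fun k hk u => by
    rw [Matrix.mulVec_mulVec, hw k hk, Matrix.mulVec_mulVec]
  rw [Matrix.mulVec_add, h3 l hl, h3 m hm, w1, w2, Matrix.mulVec_add, H11.Q_add, ← e1 l hl, ← e2 m hm]
  simp only [polar_add_left, polar_add_right, Matrix.mulVec_mulVec]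
  rw [h0' _ hl _ (K.mul_mem hm hb), h0' _ hm _ (K.mul_mem hl ha), h0' _ hm _ hm,
    ← hs _ (K.mul_mem hl ha), polar_comm _ (m *ᵥ y) ((m * b) *ᵥ x), ← hs m hm ((m * b) *ᵥ x),
    Matrix.mulVec_mulVec, Matrix.mulVec_mulVec, hK.comm _ (K.mul_mem hl ha) _ hl, ← mul_assoc,
    ← mul_assoc]
  ring

include hQ hK hs hn hr in
theorem exists_half_elt : ∃ w : Matrix ι ι F, (∀ k ∈ K, w * k = k * w) ∧
    (∀ x, polar Q x (w *ᵥ x) = Q x) ∧ w ∉ K ∧ ∃ s ∈ Algebra.adjoin F (insert w (K : Set _)),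
      (∀ k ∈ K, s * k = k * s) ∧ (∀ x, polar Q x (s *ᵥ x) = 0) ∧ s ≠ 0 := by
  have : Nonempty ι := Fintype.card_pos_iff.1 (by omega)
  have hf := isSesq_polar hQ
  by_cases h2 : (2 : F) = 0
  · obtain ⟨w, h3, h4⟩ := exists_half_even hQ hK hs hn hr h2
    have h5 : ∀ x, polar Q x ((1 : Matrix ι ι F) *ᵥ x) = 0 := fun x => by
      rw [Matrix.one_mulVec, H11.polar_self', h2, zero_mul]
    refine ⟨w, h3, h4, fun hw => ?_, 1, one_mem _, by simp, h5, one_ne_zero⟩
    have h6 : ∀ x, Q x = 0 := fun x => by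
      simpa [h4] using skew_mul hK hs (z := 1) (by simp) h5 hw x
    obtain ⟨x, hx⟩ := exists_ne (0 : ι → F)
    obtain ⟨y, hy⟩ := (hQ.nondegenerate x hx).1
    exact hy (by simp [polar, h6])
  · obtain ⟨j, h3, h4, h5⟩ := exists_half_odd hQ hK hs hn hr h2
    refine ⟨j + (2 : F)⁻¹ • 1, fun k hk => by simp [add_mul, mul_add, h3 k hk], fun x => ?_,
      fun hw => h5 ?_, j, ?_, h3, h4, h5⟩
    · rw [Matrix.add_mulVec, polar_add_right, h4, Matrix.smul_mulVec, Matrix.one_mulVec,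
        H11.polar_smul_right', zero_add, ← H11.Q_eq_half h2]
    · have hj : j ∈ K := by simpa using K.sub_mem hw (K.smul_mem K.one_mem (2 : F)⁻¹)
      refine matrix_ext_mulVec fun v => ?_
      rw [Matrix.zero_mulVec]
      refine hf.eq_zero_of_right fun u => ?_
      have := polar_skew h4 u v
      rw [polar_comm _ v, hs j hj] at this
      exact (mul_eq_zero.1 (show (2 : F) * _ = 0 by linear_combination this)).resolve_left h2
    · have := Subalgebra.sub_mem _ (Algebra.subset_adjoin (R := F)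
        (Set.mem_insert (j + (2 : F)⁻¹ • (1 : Matrix ι ι F)) (K : Set _)))
        (Subalgebra.smul_mem _ (one_mem _) (2 : F)⁻¹)
      simpa using this

end

theorem field_half (hQ : IsNondegenerateQuadraticForm ⇑Q) (hr : Odd r) (h3 : 3 ≤ r)
    (hn : Fintype.card ι = 2 * r) (hK : IsFieldSubalgebra r K) (hs : IsSelfAdjointFor (polar Q) K)
    {H : Subgroup (GL ι F)} (hH : H ≤ omegaGL ⇑Q) (hI : Irr H) (hN : H ≤ subalgebraNormalizer K) :
    ∃ K', IsFieldSubalgebra 2 K' ∧ IsAdjointClosedFor (polar Q) K' ∧ H ≤ subalgebraNormalizer K' := by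
  have : Nonempty ι := Fintype.card_pos_iff.1 (by omega)
  have hf := isSesq_polar hQ
  have hH' := hH.trans (omegaGL_le _)
  have hNz := nz_of_le_normalizer hN
  have hr0 : 0 < r := by omega
  -- no totally singular `K`-line
  have hA : ∀ x, x ≠ 0 → ¬ ∀ u ∈ orb K x, Q u = 0 := by
    intro x hx hU
    have hd := finrank_orb hK hx
    have h1 : Inv H (orb K x) := inv_of_le_stab fun g hg => mem_stab_of_map_eq (by
      have h4 := even_of_omega hQ (by omega) hU (by omega) (hH hg)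
      obtain ⟨c, hc⟩ := IsFieldSubalgebra_dvd hK
        (W := orb K x ⊓ (orb K x).map (Matrix.toLin' (g : Matrix ι ι F))) (by
          rintro k hk _ ⟨h5, v, hv, rfl⟩
          refine ⟨orb_inv x k hk _ h5, cj g⁻¹ k *ᵥ v,
            orb_inv x _ (hNz g⁻¹ (H.inv_mem hg) k hk) v hv, ?_⟩
          rw [Matrix.toLin'_apply, Matrix.toLin'_apply, ← cj_mulVec, cj_cj_inv])
      have h6 := Submodule.finrank_mono (inf_le_left : orb K x ⊓
        (orb K x).map (Matrix.toLin' (g : Matrix ι ι F)) ≤ orb K x)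
      rw [hd] at h4 h6
      have h7 : c = 1 := by
        rcases c with _ | _ | c
        · rw [hc] at h4; simp at h4; exact absurd h4 (Nat.not_even_iff_odd.2 hr)
        · rfl
        · nlinarith
      rw [h7, mul_one] at hc
      have h8 := Submodule.eq_of_le_of_finrank_eq (inf_le_right : orb K x ⊓
        (orb K x).map (Matrix.toLin' (g : Matrix ι ι F)) ≤ _) (by rw [hc, finrank_map_gl, hd])
      have h9 := Submodule.eq_of_le_of_finrank_eq (inf_le_left : orb K x ⊓
        (orb K x).map (Matrix.toLin' (g : Matrix ι ι F)) ≤ _) (by rw [hc, hd])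
      exact h8.symm.trans h9)
    rcases hI _ h1 with e | e <;> rw [e] at hd
    · rw [finrank_bot] at hd; omega
    · rw [finrank_top, finrank_fun] at hd; omega
  obtain ⟨w, hw, hwQ, hwK, s, hsE, hs1, hs2, hs0⟩ := exists_half_elt hQ hK hs hn hr0
  have hadj : ∀ u v, polar Q (w *ᵥ u) v = polar Q u ((1 - w) *ᵥ v) := fun u v => by
    have := hwQ (u + v)
    rw [Matrix.mulVec_add, polar_add_left, polar_add_right, polar_add_right, hwQ, hwQ, H11.Q_add,
      polar_comm _ v] at this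
    rw [Matrix.sub_mulVec, Matrix.one_mulVec, polar_sub_right]
    linear_combination this
  set E := Algebra.adjoin F (insert w (K : Set (Matrix ι ι F))) with hE
  have hKE : K ≤ E := fun k hk => Algebra.subset_adjoin (Set.mem_insert_of_mem _ hk)
  have hwE : w ∈ E := Algebra.subset_adjoin (Set.mem_insert _ _)
  have hc : IsComm E := by
    have h1 : E ≤ Subalgebra.centralizer F (insert w (K : Set (Matrix ι ι F))) :=
      Algebra.adjoin_le (by
        rintro a (rfl | ha) b (rfl | hb)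
        exacts [rfl, (hw b hb).symm, hw a ha, hK.comm b hb a ha])
    have h2 : E ≤ Subalgebra.centralizer F (E : Set (Matrix ι ι F)) :=
      Algebra.adjoin_le fun a ha b hb => (h1 hb a ha).symm
    exact fun x hx y hy => h2 hy x hx
  have hNE : Nz H E := fun g hg => by
    have h1 : E ≤ E.comap (cj g : Matrix ι ι F →ₐ[F] Matrix ι ι F) := Algebra.adjoin_le (by
      rintro a (rfl | ha)
      · obtain ⟨k, hk, e⟩ := skew_dep hQ hK hs hn hr0 (z := cj g a - a) (fun k hk => by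
          have := congrArg (cj g) (hw _ (hNz g⁻¹ (H.inv_mem hg) k hk))
          rw [← cj_apply, map_mul, map_mul, cj_cj_inv] at this
          rw [sub_mul, mul_sub, this, hw k hk]) (fun x => by
            obtain ⟨y, rfl⟩ : ∃ y, (g : Matrix ι ι F) *ᵥ y = x := ⟨_, mulVec_inv_mulVec g x⟩
            rw [Matrix.sub_mulVec, polar_sub_right, cj_mulVec, polar_iso (hH' hg), hwQ, hwQ,
              Q_iso (hH' hg), sub_self]) hs1 hs2 hs0
        change cj g a ∈ E
        rw [sub_eq_iff_eq_add.1 e]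
        exact add_mem (mul_mem (hKE hk) hsE) hwE
      · exact hKE (hNz g hg a ha))
    exact fun a ha => h1 ha
  have hAE : ∀ x ∈ E, adj (RingEquiv.refl F) (polar Q) x ∈ E := fun x hx => by
    induction hx using Algebra.adjoin_induction with
    | mem a ha =>
      rcases ha with rfl | ha
      · rw [hf.adj_unique hadj]; exact sub_mem (one_mem _) hwE
      · rw [hf.selfAdj_iff.1 hs a ha]; exact hKE ha
    | algebraMap c =>
      rw [Algebra.algebraMap_eq_smul_one, hf.adj_smul, hf.adj_one]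
      exact E.smul_mem (one_mem _) _
    | add a b _ _ ha hb => rw [hf.adj_add]; exact add_mem ha hb
    | mul a b _ _ ha hb => rw [hf.adj_mul]; exact mul_mem hb ha
  have hinj : ∀ z ∈ E, z ≠ 0 → ∀ x, z *ᵥ x = 0 → x = 0 := by
    intro z hz hz0 x hx
    by_contra hx0
    have h1 : ∀ a ∈ E, ∀ v ∈ LinearMap.ker (Matrix.toLin' z), a *ᵥ v ∈ LinearMap.ker (Matrix.toLin' z) :=
      fun a ha v hv => by
        rw [LinearMap.mem_ker, Matrix.toLin'_apply] at hv ⊢
        rw [Matrix.mulVec_mulVec, hc z hz a ha, ← Matrix.mulVec_mulVec, hv, Matrix.mulVec_zero]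
    have h2 := eq_orb_of_inv hK hn hr0 (fun k hk => h1 k (hKE hk)) (fun e => hz0 (matrix_ext_mulVec
      fun v => by simpa using (e ▸ Submodule.mem_top : v ∈ LinearMap.ker (Matrix.toLin' z))))
      (show x ∈ LinearMap.ker (Matrix.toLin' z) from hx) hx0
    obtain ⟨k, hk, e⟩ : w *ᵥ x ∈ orb K x := h2 ▸ h1 w hwE x hx
    have h4 : ∀ l ∈ K, w *ᵥ (l *ᵥ x) = (l * k) *ᵥ x := fun l hl => by
      rw [Matrix.mulVec_mulVec, hw l hl, ← Matrix.mulVec_mulVec, e, Matrix.mulVec_mulVec]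
    by_cases h5 : k + k = 1
    · refine hwK (sub_eq_zero.1 (skew_eq_zero hQ hK hs hn hr0 (z := w - k) (fun l hl => by
        rw [sub_mul, mul_sub, hw l hl, hK.comm k hk l hl]) (fun v => ?_) hx0
        (by rw [Matrix.sub_mulVec, e, sub_self])) ▸ hk)
      have h2' : (2 : F) ≠ 0 := fun h => by
        rw [← two_smul F, h, zero_smul] at h5; exact zero_ne_one h5
      have h6 : k = (2 : F)⁻¹ • 1 := by rw [← h5, ← two_smul F, inv_smul_smul₀ h2']
      rw [Matrix.sub_mulVec, polar_sub_right, hwQ, h6, Matrix.smul_mulVec, Matrix.one_mulVec,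
        H11.polar_smul_right', ← H11.Q_eq_half h2', sub_self]
    · have hk' : k + k - 1 ∈ K := sub_mem (add_mem hk hk) (one_mem _)
      obtain ⟨m, hm, e2⟩ := hK.inv _ hk' (sub_ne_zero.2 h5)
      have h6 : ∀ l ∈ K, polar Q x (l *ᵥ x) = 0 := fun l hl => by
        have h7 := hadj x ((m * l) *ᵥ x)
        rw [e, hs k hk, Matrix.sub_mulVec, Matrix.one_mulVec, h4 _ (K.mul_mem hm hl),
          Matrix.mulVec_mulVec, hK.comm _ (K.mul_mem hm hl) _ hk, polar_sub_right] at h7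
        rw [← one_mul l, ← e2, mul_assoc, sub_mul, add_mul, one_mul, Matrix.sub_mulVec,
          Matrix.add_mulVec, polar_sub_right, polar_add_right]
        linear_combination h7
      refine hA x hx0 ?_
      rintro _ ⟨l, hl, rfl⟩
      rw [← hwQ, h4 l hl, hs l hl, Matrix.mulVec_mulVec, h6 _ (K.mul_mem hl (K.mul_mem hl hk))]
  have hF : IsFld E := fun z hz hz0 => by
    have hi : Function.Injective (LinearMap.mulLeft F (⟨z, hz⟩ : E)) :=
      (injective_iff_map_eq_zero _).2 fun y hy => Subtype.ext (matrix_ext_mulVec fun v => by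
        rw [ZeroMemClass.coe_zero, Matrix.zero_mulVec]
        refine hinj z hz hz0 _ ?_
        rw [Matrix.mulVec_mulVec, show z * y = 0 from congrArg Subtype.val hy, Matrix.zero_mulVec])
    obtain ⟨y, hy⟩ := LinearMap.surjective_of_injective hi 1
    exact ⟨y, y.2, congrArg Subtype.val hy⟩
  have hd : 2 ∣ finrank F E := by
    have h1 := IsFieldSubalgebra_dvd_card (K := E) ⟨hc, hF, rfl⟩
    have h2 : finrank F (Subalgebra.toSubmodule K) < finrank F (Subalgebra.toSubmodule E) :=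
      Submodule.finrank_lt_finrank_of_lt (lt_of_le_of_ne hKE fun e => hwK (by
        have : w ∈ Subalgebra.toSubmodule K := e ▸ hwE
        exact this))
    rw [Subalgebra.finrank_toSubmodule, Subalgebra.finrank_toSubmodule, hK.finrank_eq] at h2
    obtain ⟨c, hc⟩ := h1
    have h4 : c = 1 := by
      rcases c with _ | _ | c
      · omega
      · rfl
      · nlinarith
    exact ⟨r, by rw [← hn, hc, h4, mul_one]⟩
  obtain ⟨K', h1, h2⟩ := exists_subfield_alg hc hF hd
  refine ⟨K', h1, hf.adjClosed_iff.2 fun x hx => ?_, (nz_of_pow_char hNE h2).le_normalizer⟩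
  rw [h2] at hx ⊢
  exact ⟨hAE x hx.1, by rw [← hf.adj_pow, hx.2]⟩

end Cfsg.Agent.H99
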