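import Cfsg.Agent.H99.OSub
import Cfsg.Agent.H99.ExclSL
import Cfsg.Agent.H27.Dec

/-! Local analysis of subspaces, decompositions and fields for orthogonal groups. -/

set_option autoImplicit false
set_option linter.unusedSectionVars false
set_option linter.unusedVariables false
set_option linter.unusedSimpArgs false

namespace Cfsg.Agent.H99

open scoped MatrixGroups Matrix Cfsg.Agent.H11
open Cfsg.Geo QuadraticMap Module
open Cfsg.Agent.H98

variable {ι : Type} [Fintype ι] [DecidableEq ι] {F : Type*} [Field F] [Finite F]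
variable {Q : QuadraticForm F (ι → F)}

omit [Finite F] in
theorem mem_stab_of_map_eq {W : Submodule F (ι → F)} {g : GL ι F}
    (h : W.map (Matrix.toLin' (g : Matrix ι ι F)) = W) : g ∈ subspaceStabilizer W :=
  mem_stab_of_mapsTo fun v hv => by
    rw [← h]; exact ⟨v, hv, rfl⟩

theorem mem_stab_of_omega (hQ : IsNondegenerateQuadraticForm ⇑Q) (hn : 5 ≤ Fintype.card ι)
    {M : Submodule F (ι → F)} (hM : ∀ u ∈ M, Q u = 0) (hd : 2 * finrank F M = Fintype.card ι)
    {g : GL ι F} (hg : g ∈ omegaGL ⇑Q)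
    (h : finrank F M ≤ finrank F ↥(M ⊓ M.map (Matrix.toLin' (g : Matrix ι ι F))) + 1) :
    g ∈ subspaceStabilizer M := by
  obtain ⟨a, ha⟩ := even_of_omega hQ hn hM hd hg
  have h1 : finrank F ↥(M ⊓ M.map (Matrix.toLin' (g : Matrix ι ι F))) ≤ finrank F M :=
    Submodule.finrank_mono inf_le_left
  have h2 := Submodule.eq_of_le_of_finrank_le
    (inf_le_left : M ⊓ M.map (Matrix.toLin' (g : Matrix ι ι F)) ≤ M) (by omega)
  refine mem_stab_of_map_eq (Submodule.eq_of_le_of_finrank_le ?_ (finrank_map_gl g M).le).symm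
  rw [← h2]
  exact inf_le_right.trans (by rw [h2])

theorem exists_max_of_submax (hQ : IsNondegenerateQuadraticForm ⇑Q) (hn : 5 ≤ Fintype.card ι)
    (hp : IsPlusTypeOn ⇑Q ⊤) {W : Submodule F (ι → F)} (hW : IsTotallySingularQuad ⇑Q W)
    (hd : 2 * (finrank F W + 1) = Fintype.card ι) :
    ∃ M : Submodule F (ι → F), W ≤ M ∧ IsTotallySingularQuad ⇑Q M ∧
      2 * finrank F M = Fintype.card ι ∧
      subspaceStabilizer W ⊓ omegaGL ⇑Q ≤ subspaceStabilizer M := by
  obtain ⟨M₀, -, h1, h2⟩ := hp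
  obtain ⟨M, h3, -, h4, h5⟩ := exists_ts_sup Q hW h1
  have h6 := two_mul_le_of_ts (nondegOn_top hQ) le_top h4
  rw [finrank_top, finrank_fun] at h2 h6
  refine ⟨M, h3, h4, by omega, fun g hg => mem_stab_of_omega hQ hn h4 (by omega) hg.2 ?_⟩
  have h7 : W ≤ M ⊓ M.map (Matrix.toLin' (g : Matrix ι ι F)) :=
    le_inf h3 (by rw [← H9.map_eq_of_mem_stab hg.1]; exact Submodule.map_mono h3)
  have := Submodule.finrank_mono h7
  omega

/-- the singular vectors of a totally isotropic subspace -/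
def singPart (Q : QuadraticForm F (ι → F)) {W : Submodule F (ι → F)}
    (hW : IsTotallySingularFor (polar Q) W) : Submodule F (ι → F) where
  carrier := {v | v ∈ W ∧ Q v = 0}
  add_mem' {a b} ha hb := ⟨W.add_mem ha.1 hb.1, by
    rw [H28.Q_add, ha.2, hb.2, hW a ha.1 b hb.1]; simp⟩
  zero_mem' := ⟨W.zero_mem, map_zero Q⟩
  smul_mem' c a ha := ⟨W.smul_mem c ha.1, by rw [H28.Q_smul, ha.2, mul_zero]⟩

theorem ts_or_point {H : Subgroup (GL ι F)} (hH : H ≤ isometryGroup F ⇑Q)
    {W : Submodule F (ι → F)} (h0 : W ≠ ⊥) (hW : IsTotallySingularFor (polar Q) W)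
    (hle : H ≤ subspaceStabilizer W)
    (hmin : ∀ U : Submodule F (ι → F), Inv H U → U ≤ W → U = ⊥ ∨ U = W) :
    IsTotallySingularQuad ⇑Q W ∨ ((2 : F) = 0 ∧ ∃ v, Q v ≠ 0 ∧ W = Submodule.span F {v}) := by
  rcases hmin (singPart Q hW) (fun g hg v hv => ⟨inv_of_le_stab hle g hg v hv.1,
    (Q_iso (hH hg) v).trans hv.2⟩) (fun v hv => hv.1) with h | h
  · right
    have han : ∀ v ∈ W, Q v = 0 → v = 0 := fun v hv hQv => by
      have : v ∈ singPart Q hW := ⟨hv, hQv⟩
      rwa [h, Submodule.mem_bot] at this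
    obtain ⟨v, hv, hv0⟩ := Submodule.exists_mem_ne_zero_of_ne_bot h0
    have hQv : Q v ≠ 0 := fun hh => hv0 (han v hv hh)
    have h2 : (2 : F) = 0 := by
      have := hW v hv v hv
      rw [H28.B_self] at this
      exact (mul_eq_zero.1 this).resolve_right hQv
    refine ⟨h2, v, hQv, le_antisymm (fun w hw => ?_) ((Submodule.span_singleton_le_iff_mem _ _).2 hv)⟩
    obtain ⟨t, ht⟩ := H27.exists_sq_eq_of_two_eq_zero h2 (Q w / Q v)
    have h3 := han (w - t • v) (W.sub_mem hw (W.smul_mem _ hv)) (by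
      rw [H28.Q_sub, H28.Q_smul, hW w hw _ (W.smul_mem _ hv), ← ht]
      field_simp
      linear_combination (Q w) * h2)
    rw [sub_eq_zero] at h3
    rw [h3]
    exact Submodule.smul_mem _ _ (Submodule.mem_span_singleton_self v)
  · left
    intro w hw
    rw [← h] at hw
    exact hw.2

theorem pair_ts {H : Subgroup (GL ι F)} (hH : H ≤ isometryGroup F ⇑Q) (hI : Irr H) {k : ℕ}
    (hk : 3 ≤ k) {D : Fin 2 → Submodule F (ι → F)} (hD : IsMDecomposition k D)
    (hti : ∀ i, IsTotallySingularFor (polar Q) (D i)) (hle : H ≤ decompositionStabilizer D)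
    (i : Fin 2) : IsTotallySingularQuad ⇑Q (D i) := by
  have h1 : Inv H (⨆ j, singPart Q (hti j)) := by
    intro g hg v hv
    obtain ⟨σ, hσ⟩ := mem_of_decStab (hle hg)
    have : (⨆ j, singPart Q (hti j)) ≤ (⨆ j, singPart Q (hti j)).comap
        (Matrix.toLin' (g : Matrix ι ι F)) := iSup_le fun j x hx =>
      Submodule.mem_iSup_of_mem (σ j) ⟨hσ j x hx.1, (Q_iso (hH hg) x).trans hx.2⟩
    exact this hv
  rcases hI _ h1 with h | h
  · obtain ⟨v, hv, hv0, hQv⟩ := exists_sing_mem Q (D 0) (by rw [hD.finrank_eq]; exact hk)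
    have : v ∈ ⨆ j, singPart Q (hti j) := Submodule.mem_iSup_of_mem 0 ⟨hv, hQv⟩
    rw [h, Submodule.mem_bot] at this
    exact absurd this hv0
  · intro x hx
    have h2 : x ∈ singPart Q (hti 0) ⊔ singPart Q (hti 1) := by
      have : (⨆ j, singPart Q (hti j)) ≤ singPart Q (hti 0) ⊔ singPart Q (hti 1) :=
        iSup_le fun j => by fin_cases j; exacts [le_sup_left, le_sup_right]
      exact this (h ▸ Submodule.mem_top)
    obtain ⟨a, ha, b, hb, rfl⟩ := Submodule.mem_sup.1 h2
    fin_cases i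
    · have := IsMDec.eq_zero hD (i := 0) (j := 1) (by decide)
        (by simpa using (D 0).sub_mem hx ha.1) hb.1
      rw [this, add_zero]; exact ha.2
    · have := IsMDec.eq_zero hD (i := 0) (j := 1) (by decide) ha.1
        (by simpa using (D 1).sub_mem hx hb.1)
      rw [this, zero_add]; exact hb.2

theorem pair_fixed (hQ : IsNondegenerateQuadraticForm ⇑Q) (hn : 5 ≤ Fintype.card ι) {k : ℕ}
    (hk : Odd k) {D : Fin 2 → Submodule F (ι → F)} (hD : IsMDecomposition k D)
    (hts : ∀ i, IsTotallySingularQuad ⇑Q (D i)) :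
    decompositionStabilizer D ⊓ omegaGL ⇑Q ≤ subspaceStabilizer (D 0) := by
  rintro g ⟨⟨σ, hσ⟩, hg⟩
  by_cases h0 : σ 0 = 0
  · exact mem_stab_of_map_eq (by rw [hσ, h0])
  exfalso
  have h1 := even_of_omega hQ hn (hts 0) (by rw [hD.finrank_eq, card_eq_of_dec hD]) hg
  rw [hσ, show D 0 ⊓ D (σ 0) = ⊥ from eq_bot_iff.2 fun x hx =>
    IsMDec.eq_zero hD (Ne.symm h0) hx.1 hx.2, finrank_bot, hD.finrank_eq] at h1
  exact Nat.not_even_iff_odd.2 hk h1

/-! ### Decompositions into planes -/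

section Planes

variable {t k : ℕ} {D : Fin t → Submodule F (ι → F)}

/-- vectors of given length lying in a member of a decomposition -/
def lenSet (Q : QuadraticForm F (ι → F)) (D : Fin t → Submodule F (ι → F)) (c : F) : Set (ι → F) :=
  {v | (∃ i, v ∈ D i) ∧ Q v = c}

omit [Finite F] in
theorem lenSet_inv {g : GL ι F} (hg : g ∈ isometryGroup F ⇑Q) (hD : g ∈ decompositionStabilizer D)
    {c : F} {v : ι → F} (hv : v ∈ lenSet Q D c) : (g : Matrix ι ι F) *ᵥ v ∈ lenSet Q D c := by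
  obtain ⟨⟨i, hi⟩, hv⟩ := hv
  obtain ⟨s, hs⟩ := mem_of_decStab hD
  exact ⟨⟨_, hs i v hi⟩, (Q_iso hg v).trans hv⟩

omit [Finite F] in
theorem hyp_coords {W : Submodule F (ι → F)} (hW : finrank F W = 2)
    (hn : IsNondegenerateOn (polar Q) W) (hp : IsPlusTypeOn ⇑Q W) :
    ∃ u ∈ W, ∃ w ∈ W, polar Q u w = 1 ∧ (∀ a b : F, Q (a • u + b • w) = a * b) ∧
      (∀ a b c d : F, polar Q (a • u + b • w) (c • u + d • w) = a * d + b * c) ∧
      ∀ x ∈ W, ∃ a b : F, x = a • u + b • w := by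
  obtain ⟨u, hu, w, hw, hQu, hQw, huw⟩ := H11.exists_hyp_of_plus_plane hW hn hp
  refine ⟨u, hu, w, hw, huw, fun a b => ?_, fun a b c d => ?_,
    fun x hx => H11.plane_repr hW hu hw hQu hQw huw hx⟩
  · qsimp; rw [hQu, hQw, huw]; ring
  · qsimp; rw [hQu, hQw, polar_comm Q w u, huw]; ring

omit [Finite F] in
theorem aniso_of_not_plus {W : Submodule F (ι → F)} (hW : finrank F W = 2)
    (hp : ¬ IsPlusTypeOn ⇑Q W) {v : ι → F} (hv : v ∈ W) (h : Q v = 0) : v = 0 := by
  by_contra h0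
  refine hp ⟨Submodule.span F {v}, (Submodule.span_singleton_le_iff_mem _ _).2 hv, fun x hx => ?_,
    by rw [finrank_span_singleton h0, hW]⟩
  obtain ⟨c, rfl⟩ := Submodule.mem_span_singleton.1 hx
  rw [H28.Q_smul, h, mul_zero]

omit [Finite F] in
theorem not_plus_of_aniso {W : Submodule F (ι → F)} (hW : W ≠ ⊥)
    (h : ∀ v ∈ W, Q v = 0 → v = 0) : ¬ IsPlusTypeOn ⇑Q W := by
  rintro ⟨U, h1, h2, h3⟩
  rw [show U = ⊥ from eq_bot_iff.2 fun x hx => h x (h1 hx) (h2 x hx), finrank_bot] at h3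
  exact hW (Submodule.finrank_eq_zero.1 (by omega))

omit [Finite F] in
/-- hyperbolic planes over fields with at most three elements -/
theorem span_lenSet_ne (hq : ∀ a : F, a ≠ 0 → a * a = 1)
    (hD : IsNondegenerateMDecomposition (polar Q) 2 D) (hp : ∀ i, IsPlusTypeOn ⇑Q (D i)) :
    Submodule.span F (lenSet Q D 1) ≠ ⊥ ∧ Submodule.span F (lenSet Q D 1) ≠ ⊤ := by
  let o : Fin t := ⟨0, by have := hD.decomp.two_le; omega⟩
  obtain ⟨u, hu, w, hw, huw, h1, h2, h3⟩ :=
    hyp_coords (hD.decomp.finrank_eq o) (hD.nondegenerate o) (hp o)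
  constructor
  · intro h
    have h4 : (1 : F) • u + (1 : F) • w ∈ Submodule.span F (lenSet Q D 1) :=
      Submodule.subset_span ⟨⟨o, add_mem (Submodule.smul_mem _ _ hu) (Submodule.smul_mem _ _ hw)⟩,
        by rw [h1, mul_one]⟩
    rw [h, Submodule.mem_bot] at h4
    have := h1 1 1
    rw [h4, map_zero] at this
    simp at this
  · intro h
    have h4 : Submodule.span F (lenSet Q D 1) ≤
        LinearMap.ker (polarBilin Q ((1 : F) • u + (-1 : F) • w)) := by
      rw [Submodule.span_le]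
      rintro v ⟨⟨i, hi⟩, hv⟩
      change polar Q _ v = 0
      by_cases hio : i = o
      · subst hio
        obtain ⟨a, b, rfl⟩ := h3 v hi
        rw [h1] at hv
        have ha : a ≠ 0 := by rintro rfl; simp at hv
        rw [h2]
        linear_combination a * hv - b * hq a ha
      · exact hD.orthogonal o i (Ne.symm hio) _
          (add_mem (Submodule.smul_mem _ _ hu) (Submodule.smul_mem _ _ hw)) v hi
    have h5 : polar Q ((1 : F) • u + (-1 : F) • w) ((0 : F) • u + (1 : F) • w) = 0 :=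
      h4 (h ▸ Submodule.mem_top)
    rw [h2] at h5
    simp at h5

omit [Finite F] in
theorem inv_span {H : Subgroup (GL ι F)} {T : Set (ι → F)}
    (h : ∀ g ∈ H, ∀ v ∈ T, (g : Matrix ι ι F) *ᵥ v ∈ T) : Inv H (Submodule.span F T) := by
  intro g hg v hv
  have : Submodule.span F T ≤ (Submodule.span F T).comap (Matrix.toLin' (g : Matrix ι ι F)) :=
    Submodule.span_le.2 fun x hx => Submodule.subset_span (h g hg x hx)
  exact this hv

omit [Finite F] in
theorem not_irr_of_plus_planes (hq : ∀ a : F, a ≠ 0 → a * a = 1) {H : Subgroup (GL ι F)}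
    (hH : H ≤ isometryGroup F ⇑Q) (hD : IsNondegenerateMDecomposition (polar Q) 2 D)
    (hp : ∀ i, IsPlusTypeOn ⇑Q (D i)) (hle : H ≤ decompositionStabilizer D) : ¬ Irr H := fun hI =>
  (hI _ (inv_span fun g hg v hv => lenSet_inv (hH hg) (hle hg) hv)).elim
    (span_lenSet_ne hq hD hp).1 (span_lenSet_ne hq hD hp).2

theorem lenSet_nonempty (hD : IsNondegenerateMDecomposition (polar Q) k D) (hk : 2 ≤ k) (c : F)
    (i : Fin t) : ∃ v ∈ D i, v ∈ lenSet Q D c := by
  obtain ⟨v, hv, h⟩ := H28.NondegOn.exists_eq (Q := Q) (W := D i) (fun x hx h => by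
    by_contra h0
    obtain ⟨y, hy, h1⟩ := (hD.nondegenerate i x hx h0).2
    exact h1 (h y hy)) (by rw [hD.decomp.finrank_eq]; exact hk) c
  exact ⟨v, hv, ⟨i, hv⟩, h⟩

omit [Finite F] in
theorem lenSet_five [Fintype F] (hq : Fintype.card F = 5)
    (hD : IsNondegenerateMDecomposition (polar Q) 2 D) (hp : ∀ i, IsPlusTypeOn ⇑Q (D i)) :
    ∀ v ∈ lenSet Q D 1, ∀ w ∈ lenSet Q D 1, polar Q v w = 0 ∨ w = v ∨ w = -v := by
  rintro v ⟨⟨i, hi⟩, hv⟩ w ⟨⟨j, hj⟩, hw⟩
  by_cases hij : i = j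
  swap
  · exact Or.inl (hD.orthogonal i j hij v hi w hj)
  subst hij
  obtain ⟨u, -, u', -, -, h1, h2, h3⟩ :=
    hyp_coords (hD.decomp.finrank_eq i) (hD.nondegenerate i) (hp i)
  obtain ⟨a, b, rfl⟩ := h3 v hi
  obtain ⟨c, d, rfl⟩ := h3 w hj
  rw [h1] at hv hw
  rw [h2]
  have hb : b ≠ 0 := by rintro rfl; simp at hv
  have hc : c ≠ 0 := by rintro rfl; simp at hw
  have h4 := FiniteField.pow_card_sub_one_eq_one (b * c) (mul_ne_zero hb hc)
  rw [hq] at h4
  have h5 : (b * c - 1) * (b * c + 1) * ((b * c) ^ 2 + 1) = 0 := by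
    linear_combination h4
  rcases mul_eq_zero.1 h5 with h6 | h6
  · rcases mul_eq_zero.1 h6 with h7 | h7
    · right; left
      rw [show c = a by linear_combination a * h7 - c * hv, show d = b by
        linear_combination (-d) * h7 + b * hw]
    · right; right
      rw [show c = -a by linear_combination a * h7 - c * hv, show d = -b by
        linear_combination d * h7 - b * hw]
      module
  · left
    have : b * c * (a * d + b * c) = 0 := by
      linear_combination h6 + c * d * hv + hw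
    exact (mul_eq_zero.1 this).resolve_left (mul_ne_zero hb hc)

omit [Finite F] in
theorem cases_of_card_three [Fintype F] (hq : Fintype.card F = 3) (a : F) :
    a = 0 ∨ a = 1 ∨ a = -1 := by
  by_cases ha : a = 0
  · exact Or.inl ha
  · exact Or.inr (mul_self_eq_one_iff.1 (H11.sq_eq_one_of_card_three hq ha))

omit [Finite F] in
theorem three_eq_zero_of_card [Fintype F] (hq : Fintype.card F = 3) : (3 : F) = 0 := by
  have := FiniteField.cast_card_eq_zero F
  rwa [hq] at this

omit [Finite F] in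
theorem lenSet_three [Fintype F] (hq : Fintype.card F = 3)
    (hD : IsNondegenerateMDecomposition (polar Q) 2 D) (hp : ∀ i, ¬ IsPlusTypeOn ⇑Q (D i)) :
    ∀ v ∈ lenSet Q D 1, ∀ w ∈ lenSet Q D 1, polar Q v w = 0 ∨ w = v ∨ w = -v := by
  rintro v ⟨⟨i, hi⟩, hv⟩ w ⟨⟨j, hj⟩, hw⟩
  by_cases hij : i = j
  swap
  · exact Or.inl (hD.orthogonal i j hij v hi w hj)
  subst hij
  have h3 := three_eq_zero_of_card hq
  rcases cases_of_card_three hq (polar Q v w) with h | h | h
  · exact Or.inl h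
  · right; right
    have := aniso_of_not_plus (hD.decomp.finrank_eq i) (hp i) (add_mem hi hj) (by
      rw [H28.Q_add, hv, hw, h]; linear_combination h3)
    exact eq_neg_of_add_eq_zero_right this
  · right; left
    have := aniso_of_not_plus (hD.decomp.finrank_eq i) (hp i) (sub_mem hi hj) (by
      rw [H28.Q_sub, hv, hw, h]; linear_combination h3)
    exact (sub_eq_zero.1 this).symm

omit [Finite F] in
theorem lenSet_four [Fintype F] (hq : Fintype.card F = 4)
    (hD : IsNondegenerateMDecomposition (polar Q) 2 D) (hp : ∀ i, IsPlusTypeOn ⇑Q (D i)) :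
    ∀ v ∈ lenSet Q D 1, ∀ w ∈ lenSet Q D 1, polar Q v w = 0 ∨ polar Q v w = 1 := by
  rintro v ⟨⟨i, hi⟩, hv⟩ w ⟨⟨j, hj⟩, hw⟩
  by_cases hij : i = j
  swap
  · exact Or.inl (hD.orthogonal i j hij v hi w hj)
  subst hij
  have hc2 : (2 : F) = 0 := two_eq_zero_of_even (by rw [hq])
  obtain ⟨u, -, u', -, -, h1, h2, h3⟩ :=
    hyp_coords (hD.decomp.finrank_eq i) (hD.nondegenerate i) (hp i)
  obtain ⟨a, b, rfl⟩ := h3 v hi
  obtain ⟨c, d, rfl⟩ := h3 w hj
  rw [h1] at hv hw
  rw [h2]
  have hb : b ≠ 0 := by rintro rfl; simp at hv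
  have hc : c ≠ 0 := by rintro rfl; simp at hw
  have h4 := FiniteField.pow_card_sub_one_eq_one (b * c) (mul_ne_zero hb hc)
  rw [hq] at h4
  have h5 : (b * c - 1) * ((b * c) ^ 2 + b * c + 1) = 0 := by
    linear_combination h4
  have h7 : b * c * (a * d) = 1 := by linear_combination c * d * hv + hw
  rcases mul_eq_zero.1 h5 with h6 | h6
  · left
    linear_combination (1 - a * d) * h6 + h7 + hc2
  · right
    have : b * c * (a * d + b * c - 1) = 0 := by
      linear_combination h6 + h7 - b * c * hc2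
    exact sub_eq_zero.1 ((mul_eq_zero.1 this).resolve_left (mul_ne_zero hb hc))

/-- hyperbolic planes over the field with four elements are defined over the prime field -/
theorem subfield_of_plus_four [Fintype F] (hQ : IsNondegenerateQuadraticForm ⇑Q)
    (hq : Fintype.card F = 4) (hD : IsNondegenerateMDecomposition (polar Q) 2 D)
    (hp : ∀ i, IsPlusTypeOn ⇑Q (D i)) (F₀ : Subfield F) :
    ∃ (P : GL ι F) (b : ι → ι → F), IsQuadFormRationalStructure (fun v => 1 * Q v) F₀ P ∧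
      (∀ j, b j ∈ lenSet Q D 1) ∧ (∀ g : GL ι F, (∀ i j, polar Q (b i) ((g : Matrix ι ι F) *ᵥ b j) ∈ F₀) →
        g ∈ subfieldSubgroup F₀ P) := by
  classical
  have hc2 : (2 : F) = 0 := two_eq_zero_of_even (by rw [hq])
  obtain ⟨ω, hω0, hω1⟩ : ∃ ω : F, ω ≠ 0 ∧ ω ≠ 1 := by
    by_contra hcon
    push Not at hcon
    have : (Finset.univ : Finset F) ⊆ {0, 1} := fun x _ => by
      by_cases hx : x = 0
      · simp [hx]
      · simp [hcon x hx]
    have h1 := (Finset.card_le_card this).trans Finset.card_le_two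
    rw [Finset.card_univ] at h1
    omega
  have hω3 := FiniteField.pow_card_sub_one_eq_one ω hω0
  rw [hq] at hω3
  have hω : ω ^ 2 + ω + 1 = 0 := by
    have : (ω - 1) * (ω ^ 2 + ω + 1) = 0 := by linear_combination hω3
    exact (mul_eq_zero.1 this).resolve_left (sub_ne_zero.2 hω1)
  choose u hu w hw huw h1 h2 h3 using fun i =>
    hyp_coords (hD.decomp.finrank_eq i) (hD.nondegenerate i) (hp i)
  let b : Fin t × Fin 2 → ι → F := fun p =>
    ![(1 : F) • u p.1 + (1 : F) • w p.1, ω • u p.1 + (ω ^ 2) • w p.1] p.2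
  have hbD : ∀ p, b p ∈ D p.1 := by
    rintro ⟨i, a⟩
    fin_cases a <;>
      exact add_mem (Submodule.smul_mem _ _ (hu i)) (Submodule.smul_mem _ _ (hw i))
  have hbT : ∀ p, b p ∈ lenSet Q D 1 := by
    refine fun p => ⟨⟨_, hbD p⟩, ?_⟩
    obtain ⟨i, a⟩ := p
    fin_cases a
    · exact (h1 i 1 1).trans (mul_one _)
    · exact (h1 i _ _).trans (by linear_combination hω3)
  have hdual : ∀ p p', polarBilin Q (b (p.1, p.2 + 1)) (b p') = if p = p' then 1 else 0 := by
    rintro ⟨i, a⟩ ⟨j, c⟩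
    rw [polarBilin_apply_apply]
    by_cases hij : i = j
    · subst hij
      fin_cases a <;> fin_cases c
      · exact (h2 i _ _ _ _).trans (by simp; linear_combination hω - hc2)
      · exact (h2 i _ _ _ _).trans (by simp; linear_combination ω ^ 3 * hc2)
      · exact (h2 i _ _ _ _).trans (by simp; linear_combination hc2)
      · exact (h2 i _ _ _ _).trans (by simp; linear_combination hω - hc2)
    · rw [if_neg (by simp [hij])]
      exact hD.orthogonal i j hij _ (hbD (i, a + 1)) _ (hbD (j, c))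
  have hli := H27.linearIndependent_of_dual_family (fun p : Fin t × Fin 2 =>
    polarBilin Q (b (p.1, p.2 + 1))) b hdual
  have hcard : Fintype.card (Fin t × Fin 2) = Fintype.card ι := by
    rw [card_eq_of_dec hD.decomp]; simp
  haveI : Nonempty (Fin t × Fin 2) := ⟨(⟨0, by have := hD.decomp.two_le; omega⟩, 0)⟩
  let e : Fin t × Fin 2 ≃ ι := Fintype.equivOfCardEq hcard
  let B : Basis ι F (ι → F) :=
    (basisOfLinearIndependentOfCardEqFinrank hli (by rw [hcard, finrank_fun])).reindex e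
  have hB : ∀ j, B j = b (e.symm j) := fun j => by simp [B]
  have hrepr : ∀ v j, B.repr v j = polar Q (B (e ((e.symm j).1, (e.symm j).2 + 1))) v := by
    intro v j
    conv_rhs => rw [← B.sum_repr v, ← polarBilin_apply_apply, map_sum]
    simp only [hB, Equiv.symm_apply_apply, map_smul, hdual, smul_eq_mul, mul_ite, mul_one, mul_zero,
      EmbeddingLike.apply_eq_iff_eq, Finset.sum_ite_eq, Finset.mem_univ, if_true]
  obtain ⟨P, hP1, hP2⟩ := exists_subfield_of_basis B F₀
  have hT := lenSet_four hq hD hp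
  refine ⟨P, B, fun x hx => ?_, fun j => hB j ▸ hbT _, fun g hg => hP2 g fun i j => ?_⟩
  · change 1 * Q _ ∈ F₀
    rw [hP1]
    refine quad_sum_mem _ _ _ hx (fun a => ?_) (fun a c => ?_)
    · rw [hB, (hbT _).2, one_mul]; exact F₀.one_mem
    · rw [hB, hB, one_mul]
      rcases hT _ (hbT (e.symm a)) _ (hbT (e.symm c)) with h | h <;> rw [h]
      exacts [F₀.zero_mem, F₀.one_mem]
  · rw [hrepr]; exact hg _ _

theorem le_subfield_of_plus_four [Fintype F] (hQ : IsNondegenerateQuadraticForm ⇑Q)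
    (hq : Fintype.card F = 4) (hD : IsNondegenerateMDecomposition (polar Q) 2 D)
    (hp : ∀ i, IsPlusTypeOn ⇑Q (D i)) (F₀ : Subfield F) :
    ∃ P : GL ι F, IsQuadFormRationalStructure (fun v => 1 * Q v) F₀ P ∧
      decompositionStabilizer D ⊓ isometryGroup F ⇑Q ≤ subfieldSubgroup F₀ P := by
  obtain ⟨P, b, h1, h2, h3⟩ := subfield_of_plus_four hQ hq hD hp F₀
  refine ⟨P, h1, fun g hg => h3 g fun i j => ?_⟩
  rcases lenSet_four hq hD hp _ (h2 i) _ (lenSet_inv hg.2 hg.1 (h2 j)) with h | h <;> rw [h]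
  exacts [F₀.zero_mem, F₀.one_mem]

omit [Finite F] in
theorem nondegOn_inf_perp {W U : Submodule F (ι → F)} (hW : IsNondegenerateOn (polar Q) W)
    (hU : IsNondegenerateOn (polar Q) U) (hle : U ≤ W) :
    U ⊔ (W ⊓ H28.perp Q U) = W ∧ IsNondegenerateOn (polar Q) (W ⊓ H28.perp Q U) := by
  have ho : AreOrthogonalFor (polar Q) U (W ⊓ H28.perp Q U) := fun u hu v hv => hv.2 u hu
  have h1 : U ⊔ (W ⊓ H28.perp Q U) = W := Submodule.eq_of_le_of_finrank_le (sup_le hle inf_le_left)
    (by rw [finrank_sup_of_orth hU ho, ← finrank_inf_perp hW hle, add_comm])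
  refine ⟨h1, fun x hx hx0 => ?_⟩
  obtain ⟨y, hy, hxy⟩ := (hW x hx.1 hx0).1
  rw [← h1] at hy
  obtain ⟨a, ha, b, hb, rfl⟩ := Submodule.mem_sup.1 hy
  rw [polar_add_left, ho a ha x hx, zero_add] at hxy
  exact ⟨⟨b, hb, hxy⟩, b, hb, by rwa [polar_comm]⟩

omit [Finite F] in
theorem nondegOn_of_aniso_two [Fintype F] (hq : Fintype.card F = 2) {W : Submodule F (ι → F)}
    (hW : finrank F W = 2) (h : ∀ v ∈ W, Q v = 0 → v = 0) : IsNondegenerateOn (polar Q) W := by
  intro w hw hw0
  obtain ⟨x, hx, hxw⟩ := H27.exists_not_mem_span_singleton (W := W) hW.ge w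
  have hx0 := ne_zero_of_not_mem hxw
  have h1 : x + w ≠ 0 := fun hh => hxw (by
    rw [eq_neg_of_add_eq_zero_left hh]
    exact Submodule.neg_mem _ (Submodule.mem_span_singleton_self w))
  have h2 := H28.Q_add Q x w
  rw [eq_one_of_card_two hq (fun hh => h1 (h _ (add_mem hx hw) hh)),
    eq_one_of_card_two hq (fun hh => hx0 (h _ hx hh)),
    eq_one_of_card_two hq (fun hh => hw0 (h _ hw hh))] at h2
  have h3 : polar Q x w ≠ 0 := by
    intro hh
    rw [hh] at h2
    simp at h2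
  exact ⟨⟨x, hx, h3⟩, x, hx, by rwa [polar_comm]⟩

/-- the anisotropic planes inside the members of a decomposition -/
def anisoPlanes (Q : QuadraticForm F (ι → F)) (D : Fin t → Submodule F (ι → F)) :
    Set (Submodule F (ι → F)) :=
  {W | (∃ i, W ≤ D i) ∧ finrank F W = 2 ∧ ∀ v ∈ W, Q v = 0 → v = 0}

omit [Finite F] in
theorem anisoPlanes_inv {g : GL ι F} (hg : g ∈ isometryGroup F ⇑Q)
    (hD : g ∈ decompositionStabilizer D) {W : Submodule F (ι → F)} (hW : W ∈ anisoPlanes Q D) :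
    W.map (Matrix.toLin' (g : Matrix ι ι F)) ∈ anisoPlanes Q D := by
  obtain ⟨⟨i, hi⟩, h1, h2⟩ := hW
  obtain ⟨s, hs⟩ := mem_of_decStab hD
  refine ⟨⟨s i, ?_⟩, by rw [finrank_map_gl, h1], ?_⟩
  · rintro _ ⟨x, hx, rfl⟩; exact hs i x (hi hx)
  · rintro _ ⟨x, hx, rfl⟩ h
    rw [Matrix.toLin'_apply, Q_iso hg] at h
    rw [h2 x hx h, map_zero]

theorem anisoPlanes_orth [Fintype F] (hq : Fintype.card F = 2)
    (hD : IsNondegenerateMDecomposition (polar Q) 4 D) (hp : ∀ i, IsPlusTypeOn ⇑Q (D i)) :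
    ∀ W ∈ anisoPlanes Q D, ∀ U ∈ anisoPlanes Q D, W ≠ U → AreOrthogonalFor (polar Q) W U := by
  rintro W ⟨⟨i, hi⟩, h1, h2⟩ U ⟨⟨j, hj⟩, h3, h4⟩ hne
  by_cases hij : i = j
  swap
  · exact fun x hx y hy => hD.orthogonal i j hij x (hi hx) y (hj hy)
  subst hij
  have hW := nondegOn_of_aniso_two hq h1 h2
  obtain ⟨h5, h6⟩ := nondegOn_inf_perp (hD.nondegenerate i) hW hi
  set W' := D i ⊓ H28.perp Q W
  have ho : AreOrthogonalFor (polar Q) W W' := fun u hu v hv => hv.2 u hu
  have h7 : finrank F W' = 2 := by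
    have := finrank_sup_of_orth hW ho
    rw [h5, hD.decomp.finrank_eq, h1] at this
    omega
  have h8 : ¬ IsPlusTypeOn ⇑Q W' := fun hh =>
    not_plus_of_aniso (H27.ne_bot_of_finrank_pos (by omega)) h2
      (plus_of_sup h6 hW (orth_symm ho) hh (by rw [sup_comm, h5]; exact hp i))
  have h9 : ∀ x ∈ U, x ∈ W ∨ x ∈ W' := by
    intro x hx
    obtain ⟨a, ha, b, hb, rfl⟩ := Submodule.mem_sup.1 (h5 ▸ hj hx : x ∈ W ⊔ W')
    by_cases ha0 : a = 0
    · right; rwa [ha0, zero_add]
    by_cases hb0 : b = 0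
    · left; rwa [hb0, add_zero]
    exfalso
    have h10 := h4 _ hx (by
      rw [Q_add_of_perp (ho a ha b hb), eq_one_of_card_two hq (fun hh => ha0 (h2 a ha hh)),
        eq_one_of_card_two hq (fun hh => hb0 (aniso_of_not_plus h7 h8 hb hh))]
      have := two_eq_zero_of_even (F := F) (by rw [hq])
      linear_combination this)
    have h11 : a ∈ W ⊓ W' := ⟨ha, by rw [eq_neg_of_add_eq_zero_left h10]; exact W'.neg_mem hb⟩
    rw [inf_eq_bot_of_orth hW ho] at h11
    exact ha0 h11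
  have h10 : ¬ U ≤ W := fun hh => hne (Submodule.eq_of_le_of_finrank_le hh (by omega)).symm
  obtain ⟨x, hx, hxW⟩ := SetLike.not_le_iff_exists.1 h10
  have hx' := (h9 x hx).resolve_left hxW
  intro a ha y hy
  refine ho a ha y ?_
  rcases h9 y hy with h | h
  · rcases h9 _ (U.add_mem hx hy) with h' | h'
    · exact absurd (by simpa using W.sub_mem h' h) hxW
    · simpa using W'.sub_mem h' hx'
  · exact h

theorem anisoPlanes_nonempty [Fintype F] (hq : Fintype.card F = 2)
    (hD : IsNondegenerateMDecomposition (polar Q) 4 D) (i : Fin t) :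
    ∃ W ∈ anisoPlanes Q D, W ≤ D i := by
  have hc2 : (2 : F) = 0 := two_eq_zero_of_even (by rw [hq])
  have key : ∀ u ∈ D i, ∀ v ∈ D i, Q u = 1 → polar Q u v = 1 → (Q v = 1 ∨ Q v = 0) →
      finrank F (Submodule.span F {u, v}) = 2 ∧ Submodule.span F {u, v} ≤ D i ∧
      ∀ x ∈ Submodule.span F {u, v}, ∃ a b : F, x = a • u + b • v := by
    intro u hu v hv h1 h2 _
    have hli : LinearIndependent F ![u, v] := LinearIndependent.pair_iff.2 fun s t e => by
      have h3 := congrArg (polar Q u) e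
      have h4 := congrArg (polar Q v) e
      qsimp at h3 h4
      rw [polar_comm _ v u, h2] at h4
      rw [h2] at h3
      exact ⟨by linear_combination h4 - t * Q v * hc2, by linear_combination h3 - s * Q u * hc2⟩
    have := finrank_span_eq_card hli
    rw [Matrix.range_cons, Matrix.range_cons, Matrix.range_empty, Set.union_empty,
      Set.singleton_union] at this
    refine ⟨this, Submodule.span_le.2 ?_, fun x hx => ?_⟩
    · rintro x (rfl | rfl); exacts [hu, hv]
    · obtain ⟨a, b, h⟩ := Submodule.mem_span_pair.1 hx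
      exact ⟨a, b, h.symm⟩
  obtain ⟨u, hu, -, hQu⟩ := lenSet_nonempty hD (by omega) 1 i
  have hu0 : u ≠ 0 := by rintro rfl; simp at hQu
  obtain ⟨v, hv, h1, h2⟩ : ∃ v ∈ D i, polar Q u v = 1 ∧ Q v = 1 := by
    obtain ⟨x, hx, hux⟩ := (hD.nondegenerate i u hu hu0).2
    replace hux := eq_one_of_card_two hq hux
    rcases zero_or_one_of_card_two hq (Q x) with h | h
    swap
    · exact ⟨x, hx, hux, h⟩
    obtain ⟨h3, h4, h5⟩ := key u hu x hx hQu hux (Or.inr h)
    have hnd : IsNondegenerateOn (polar Q) (Submodule.span F {u, x}) := by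
      intro y hy hy0
      obtain ⟨a, b, rfl⟩ := h5 y hy
      have : ∃ z ∈ Submodule.span F {u, x}, polar Q z (a • u + b • x) ≠ 0 := by
        by_cases hb : b = 0
        · have ha : a ≠ 0 := by rintro rfl; exact hy0 (by simp [hb])
          refine ⟨x, Submodule.subset_span (by simp), ?_⟩
          qsimp
          rw [polar_comm _ x u, hux, hb]
          simpa using ha
        · refine ⟨u, Submodule.subset_span (by simp), ?_⟩
          qsimp
          rw [hux, hc2]
          simpa using hb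
      obtain ⟨z, hz, h6⟩ := this
      exact ⟨⟨z, hz, h6⟩, z, hz, by rwa [polar_comm]⟩
    obtain ⟨h6, h7⟩ := nondegOn_inf_perp (hD.nondegenerate i) hnd h4
    have h8 := finrank_inf_perp (hD.nondegenerate i) h4
    rw [hD.decomp.finrank_eq, h3] at h8
    obtain ⟨y, hy, hQy⟩ := H28.NondegOn.exists_eq (Q := Q)
      (W := D i ⊓ H28.perp Q (Submodule.span F {u, x})) (fun x hx h => by
        by_contra h0
        obtain ⟨y, hy, h1⟩ := (h7 x hx h0).2
        exact h1 (h y hy)) (by omega) 1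
    refine ⟨x + y, add_mem hx hy.1, ?_, ?_⟩
    · rw [polar_add_right, hux, show polar Q u y = 0 from hy.2 u (Submodule.subset_span (by simp)),
        add_zero]
    · rw [Q_add_of_perp (hy.2 x (Submodule.subset_span (by simp))), h, hQy, zero_add]
  obtain ⟨h3, h4, h5⟩ := key u hu v hv hQu h1 (Or.inl h2)
  refine ⟨_, ⟨⟨i, h4⟩, h3, fun x hx hQx => ?_⟩, h4⟩
  obtain ⟨a, b, rfl⟩ := h5 x hx
  qsimp at hQx
  rw [hQu, h1, h2] at hQx
  rcases zero_or_one_of_card_two hq a with rfl | rfl <;>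
    rcases zero_or_one_of_card_two hq b with rfl | rfl
  · simp
  · simp at hQx
  · simp at hQx
  · exact absurd (by linear_combination hQx - hc2) (one_ne_zero (α := F))

theorem planes_of_plus_four [Fintype F] (hQ : IsNondegenerateQuadraticForm ⇑Q)
    (hq : Fintype.card F = 2) {H : Subgroup (GL ι F)} (hH : H ≤ isometryGroup F ⇑Q) (hI : Irr H)
    (hD : IsNondegenerateMDecomposition (polar Q) 4 D) (hp : ∀ i, IsPlusTypeOn ⇑Q (D i))
    (hle : H ≤ decompositionStabilizer D) :
    ∃ (s : ℕ) (E : Fin s → Submodule F (ι → F)), IsOrthogonalMDecomposition ⇑Q 2 E ∧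
      (∀ i, ¬ IsPlusTypeOn ⇑Q (E i)) ∧ H ≤ decompositionStabilizer E := by
  have h2 := hD.decomp.two_le
  obtain ⟨W, hW, -⟩ := anisoPlanes_nonempty hq hD ⟨0, by omega⟩
  obtain ⟨s, E, h1, h3, h4, h5⟩ := H11.exists_dec_of_set (isSesq_polar hQ) hI (anisoPlanes Q D)
    two_pos (by rw [card_eq_of_dec hD.decomp]; omega) ⟨W, hW⟩ (fun W hW => hW.2.1)
    (fun W hW => nondegOn_of_aniso_two hq hW.2.1 hW.2.2) (anisoPlanes_orth hq hD hp)
    (fun g hg W hW => anisoPlanes_inv (hH hg) (hle hg) hW)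
  exact ⟨s, E, H11.orthDec_of_trans hH h1 h5,
    fun i => not_plus_of_aniso (IsMDec.ne_bot h1.decomp i) (h4 i).2.2, h3⟩

end Planes

end Cfsg.Agent.H99
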