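import Cfsg.Agent.H99.OEven

/-! Non-maximal geometric subgroups of even-dimensional orthogonal groups. -/

set_option autoImplicit false
set_option linter.unusedSectionVars false
set_option linter.unusedVariables false
set_option linter.unusedSimpArgs false

namespace Cfsg.Agent.H99

open scoped MatrixGroups Matrix Cfsg.Agent.H11 Kronecker
open Cfsg.Geo QuadraticMap Module
open Cfsg.Agent.H98

theorem exists_between {G : Type*} [Group G] {S A M : Subgroup G} (h1 : A ⊓ S ≤ M) (h2 : ¬ S ≤ M)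
    {g : G} (hS : g ∈ S) (hM : g ∈ M) (hA : g ∉ A) : ∃ K, A ⊓ S < K ∧ K < S :=
  ⟨M ⊓ S, lt_of_le_of_ne (le_inf h1 inf_le_right) fun e => hA (e.ge ⟨hM, hS⟩).1,
    lt_of_le_of_ne inf_le_right fun e => h2 (e.ge.trans inf_le_left)⟩

variable {ι : Type} [Fintype ι] [DecidableEq ι] {F : Type*} [Field F]
variable {Q : QuadraticForm F (ι → F)}

theorem exists_dual_vec {ε : F} {f : (ι → F) → (ι → F) → F} (hf : IsSesq (RingEquiv.refl F) ε f)
    {x : ι → F} {W : Submodule F (ι → F)} (h : x ∉ W) : ∃ y, f x y = 1 ∧ ∀ w ∈ W, f w y = 0 := by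
  rw [← H9.perp_perp hf W, H9.mem_perp] at h
  push Not at h
  obtain ⟨y, hy, hxy⟩ := h
  exact ⟨(f x y)⁻¹ • y, by rw [H9.bil_smul_right hf, inv_mul_cancel₀ hxy], fun w hw => by
    rw [H9.bil_smul_right hf, (H9.mem_perp' hf).1 hy w hw, mul_zero]⟩

theorem mem_norm_of_comm {K : Subalgebra F (Matrix ι ι F)} {g : GL ι F}
    (h : ∀ k ∈ K, (g : Matrix ι ι F) * k = k * g) : g ∈ subalgebraNormalizer K := by
  intro k
  refine ⟨fun hk => by rw [← cj_apply, (cj_eq_iff _ _ _).2 (h k hk)]; exact hk, fun hk => ?_⟩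
  have := (cj_eq_iff _ _ _).2 (h _ hk)
  rw [← cj_apply] at this hk
  rwa [← (cj g).injective this]

section Dec
variable {t k : ℕ} {D : Fin t → Submodule F (ι → F)}

theorem add_not_mem (hD : IsNondegenerateMDecomposition (polar Q) k D) {i : Fin t} {x e : ι → F}
    (hx : x ∈ D i) (hx0 : x ≠ 0) (he : ∀ y ∈ D i, polar Q y e = 0) (he0 : e ≠ 0) (j : Fin t) :
    x + e ∉ D j := by
  intro h
  by_cases hij : i = j
  · subst hij
    obtain ⟨y, hy, h1⟩ := (hD.nondegenerate i e (by simpa using sub_mem h hx) he0).1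
    exact h1 (he y hy)
  · obtain ⟨y, hy, h1⟩ := (hD.nondegenerate i x hx hx0).1
    have := hD.orthogonal i j hij y hy _ h
    rw [polar_add_right, he y hy, add_zero] at this
    exact h1 this

theorem not_mem_decStab (hD : IsNondegenerateMDecomposition (polar Q) k D) {g : GL ι F} {i : Fin t}
    {v x e : ι → F} (hv : v ∈ D i) (hg : (g : Matrix ι ι F) *ᵥ v = x + e) (hx : x ∈ D i) (hx0 : x ≠ 0)
    (he : ∀ y ∈ D i, polar Q y e = 0) (he0 : e ≠ 0) : g ∉ decompositionStabilizer D := fun h => by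
  obtain ⟨s, hs⟩ := mem_of_decStab h
  exact add_not_mem hD hx hx0 he he0 _ (hg ▸ hs i v hv)

variable [Finite F]

theorem exists_perp_mem {W : Submodule F (ι → F)} (hW : 2 ≤ finrank F W) (a : ι → F) :
    ∃ x ∈ W, x ≠ 0 ∧ polar Q a x = 0 := by
  have := finrank_le_inf_perp Q W a
  obtain ⟨x, hx, h0⟩ := (Submodule.ne_bot_iff _).1
    (H27.ne_bot_of_finrank_pos (W := W ⊓ LinearMap.ker (polarBilin Q a)) (by omega))
  exact ⟨x, hx.1, h0, hx.2⟩

theorem exists_sing_perp (hQ : IsNondegenerateQuadraticForm ⇑Q) {W : Submodule F (ι → F)}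
    (hW : finrank F W + 3 ≤ Fintype.card ι) : ∃ e, e ≠ 0 ∧ Q e = 0 ∧ ∀ y ∈ W, polar Q y e = 0 := by
  have := H9.finrank_add_finrank_perp (isSesq_polar hQ) W
  obtain ⟨e, he, h0, h1⟩ := exists_sing_mem Q (H9.perp (isSesq_polar hQ) W) (by omega)
  exact ⟨e, h0, h1, (H9.mem_perp' _).1 he⟩

theorem eich_not_dec (hQ : IsNondegenerateQuadraticForm ⇑Q) (hn : 5 ≤ Fintype.card ι)
    (hD : IsNondegenerateMDecomposition (polar Q) k D) {i : Fin t} {z e : ι → F} (hz : z ∈ D i)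
    (hz0 : z ≠ 0) (he : ∀ y ∈ D i, polar Q y e = 0) (he0 : e ≠ 0) (hQe : Q e = 0) :
    ∃ g ∈ omegaGL ⇑Q, g ∉ decompositionStabilizer D ∧ ∀ x, (g : Matrix ι ι F) *ᵥ x =
      x + polar Q e x • z - (polar Q z x + Q z * polar Q e x) • e := by
  obtain ⟨g, hg, h⟩ := exists_eich hQ hn hQe (w := z) (by rw [polar_comm, he z hz])
  obtain ⟨x, hx, h1⟩ := (hD.nondegenerate i z hz hz0).2
  refine ⟨g, hg, not_mem_decStab hD hx (e := -(polar Q z x • e)) ?_ hx (by rintro rfl; simp at h1)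
    (fun y hy => by rw [polar_neg_right, H11.polar_smul_right', he y hy]; simp) (by simp [h1, he0]), h⟩
  rw [h, polar_comm _ e, he x hx]
  simp [sub_eq_add_neg]

theorem not_le_setStab (hQ : IsNondegenerateQuadraticForm ⇑Q) (hn : 5 ≤ Fintype.card ι)
    (hD : IsNondegenerateMDecomposition (polar Q) k D) (hk : k + 3 ≤ Fintype.card ι)
    {T : Set (ι → F)} (hT : ∀ v ∈ T, ∃ i, v ∈ D i) {a : ι → F} (ha : a ∈ T) (ha0 : a ≠ 0) :
    ¬ omegaGL ⇑Q ≤ setStab T := by
  obtain ⟨i, hi⟩ := hT a ha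
  obtain ⟨e, he0, hQe, he⟩ := exists_sing_perp hQ (W := D i) (by rw [hD.decomp.finrank_eq]; exact hk)
  have h1 := add_not_mem hD hi ha0 he he0
  refine (ond hQ).not_le_of_set hn T (fun g hg v hv => (mem_setStab.1 hg v).1 hv) ha ha0
    (w := a + e) (fun h => ?_) (fun h => h1 i (h ▸ zero_mem _)) ?_
  · obtain ⟨j, hj⟩ := hT _ h
    exact h1 j hj
  · rw [Q_add_of_perp (he a hi), hQe, add_zero]

/-- A decomposition refined by an invariant frame does not have a maximal stabiliser. -/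
theorem between_of_frame (hQ : IsNondegenerateQuadraticForm ⇑Q) (h2 : (2 : F) ≠ 0)
    (hD : IsNondegenerateMDecomposition (polar Q) k D) (hk : 2 ≤ k) (ht : 4 ≤ t) {c : F} (hc : c ≠ 0)
    (hne : ∀ i, ∃ v ∈ D i, Q v = c)
    (ho : ∀ v ∈ lenSet Q D c, ∀ w ∈ lenSet Q D c, polar Q v w = 0 ∨ w = v ∨ w = -v) :
    ∃ K, decompositionStabilizer D ⊓ omegaGL ⇑Q < K ∧ K < omegaGL ⇑Q := by
  have hn := IsMDecomposition_mul_eq hD.decomp
  have hn' : 4 * k ≤ Fintype.card ι := hn ▸ Nat.mul_le_mul_right k ht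
  choose a ha hQa using hne
  have haT : ∀ i, a i ∈ lenSet Q D c := fun i => ⟨⟨i, ha i⟩, hQa i⟩
  have ha0 : ∀ i, a i ≠ 0 := fun i h => hc (by rw [← hQa i, h, map_zero])
  have hQab : ∀ i j, i ≠ j → Q (a i - a j) = 2 * c := fun i j h => by
    qsimp; rw [hQa, hQa, hD.orthogonal i j h _ (ha i) _ (ha j)]; ring
  have hneg : ∀ v ∈ lenSet Q D c, -v ∈ lenSet Q D c := by
    rintro v ⟨⟨i, hi⟩, hv⟩
    exact ⟨⟨i, neg_mem hi⟩, by rw [QuadraticMap.map_neg, hv]⟩
  have hr : ∀ i j, i ≠ j → (a i) - ((Q (a i - a j))⁻¹ * polar Q (a i - a j) (a i)) • (a i - a j) = a j ∧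
      (a j) - ((Q (a i - a j))⁻¹ * polar Q (a i - a j) (a j)) • (a i - a j) = a i := fun i j h => by
    rw [hQab i j h, polar_sub_left, polar_sub_left, H11.polar_self', H11.polar_self', hQa, hQa,
      hD.orthogonal i j h _ (ha i) _ (ha j), hD.orthogonal j i h.symm _ (ha j) _ (ha i), sub_zero,
      zero_sub, mul_neg, inv_mul_cancel₀ (mul_ne_zero h2 hc)]
    constructor <;> module
  have hrT : ∀ i j, i ≠ j → ∀ v ∈ lenSet Q D c,
      v - ((Q (a i - a j))⁻¹ * polar Q (a i - a j) v) • (a i - a j) ∈ lenSet Q D c := by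
    intro i j h v hv
    have e : ∀ w, -w - ((Q (a i - a j))⁻¹ * polar Q (a i - a j) (-w)) • (a i - a j) =
        -(w - ((Q (a i - a j))⁻¹ * polar Q (a i - a j) w) • (a i - a j)) := fun w => by
      rw [polar_neg_right]; module
    rcases ho _ (haT i) v hv with h1 | rfl | rfl
    · rcases ho _ (haT j) v hv with h3 | rfl | rfl
      · rw [polar_sub_left, h1, h3]; simpa using hv
      · rw [(hr i j h).2]; exact haT i
      · rw [e, (hr i j h).2]; exact hneg _ (haT i)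
    · rw [(hr i j h).1]; exact haT j
    · rw [e, (hr i j h).1]; exact hneg _ (haT j)
  let i0 : Fin t := ⟨0, by omega⟩
  let i1 : Fin t := ⟨1, by omega⟩
  let i2 : Fin t := ⟨2, by omega⟩
  let i3 : Fin t := ⟨3, by omega⟩
  have n01 : i0 ≠ i1 := by simp [i0, i1]
  have n23 : i2 ≠ i3 := by simp [i2, i3]
  obtain ⟨g, hg, h⟩ := exists_refl_two hQ (by omega) (u := a i2 - a i3) (v := a i0 - a i1)
    (by rw [hQab _ _ n23]; exact mul_ne_zero h2 hc) (by rw [hQab _ _ n01]; exact mul_ne_zero h2 hc)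
    (by rw [hQab _ _ n23, hQab _ _ n01]; exact IsSquare.mul_self _)
  obtain ⟨x, hx, hx0, hax⟩ := exists_perp_mem (Q := Q) (W := D i0)
    (by rw [hD.decomp.finrank_eq]; exact hk) (a i0)
  refine exists_between (M := setStab (lenSet Q D c))
    (fun g hg => mem_setStab_of_finite fun v hv => lenSet_inv (omegaGL_le _ hg.2) hg.1 hv)
    (not_le_setStab hQ (by omega) hD (by omega) (fun v hv => hv.1) (haT i0) (ha0 i0)) hg
    (mem_setStab_of_finite fun v hv => by rw [h]; exact hrT _ _ n23 _ (hrT _ _ n01 v hv))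
    (not_mem_decStab hD (add_mem hx (ha i0)) (e := a i1) ?_ hx hx0
      (fun y hy => hD.orthogonal _ _ n01 y hy _ (ha i1)) (ha0 i1))
  have o : ∀ i j, i ≠ j → ∀ y ∈ D j, polar Q (a i) y = 0 := fun i j h y hy =>
    hD.orthogonal i j h _ (ha i) y hy
  rw [Matrix.mulVec_add, h, h, (hr _ _ n01).1]
  simp only [polar_sub_left, hax, o i1 i0 n01.symm x hx, sub_zero, mul_zero, zero_smul,
    o i2 i0 (by simp [i0, i2]) x hx, o i3 i0 (by simp [i0, i3]) x hx,
    o i2 i1 (by simp [i1, i2]) _ (ha i1), o i3 i1 (by simp [i1, i3]) _ (ha i1)]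

omit [Finite F] in
theorem lenSet_three_three [Fintype F] (hq : Fintype.card F = 3)
    (hD : IsOrthogonalMDecomposition ⇑Q 3 D) : ∃ c : F, c ≠ 0 ∧ (∀ i, ∃ v ∈ D i, Q v = c) ∧
      ∀ v ∈ lenSet Q D c, ∀ w ∈ lenSet Q D c, polar Q v w = 0 ∨ w = v ∨ w = -v := by
  have ht2 := hD.decomp.decomp.two_le
  let o : Fin t := ⟨0, by omega⟩
  obtain ⟨c, hc, ⟨v₀, hv₀⟩, hvw⟩ := (H11.nd_restrict (hD.decomp.nondegenerate o)).three_frame hq
    (hD.decomp.decomp.finrank_eq o)
  refine ⟨c, hc, fun i => ?_, ?_⟩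
  · obtain ⟨φ, hφ⟩ := hD.isometric o i
    exact ⟨φ v₀, (φ v₀).2, (hφ v₀).trans hv₀⟩
  rintro v ⟨⟨i, hi⟩, hv⟩ w ⟨⟨j, hj⟩, hw⟩
  by_cases hij : i = j
  swap
  · exact Or.inl (hD.decomp.orthogonal i j hij v hi w hj)
  subst hij
  obtain ⟨φ, hφ⟩ := hD.isometric i o
  rcases hvw (φ ⟨v, hi⟩) (φ ⟨w, hj⟩) ((hφ _).trans hv) ((hφ _).trans hw) with a | a | a
  · left
    have h1 := hφ (⟨v, hi⟩ + ⟨w, hj⟩)
    have h2 : polar Q (φ ⟨v, hi⟩ : ι → F) (φ ⟨w, hj⟩ : ι → F) = 0 := a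
    rw [map_add, Submodule.coe_add, Submodule.coe_add, H11.Q_add, H11.Q_add, hφ, hφ, h2] at h1
    linear_combination -h1
  · exact Or.inr (Or.inl (congrArg Subtype.val (φ.injective a)))
  · rw [← map_neg] at a
    exact Or.inr (Or.inr (congrArg Subtype.val (φ.injective a)))

theorem between_of_small_plus (hQ : IsNondegenerateQuadraticForm ⇑Q)
    (hq : ∀ a : F, a ≠ 0 → a * a = 1) (hD : IsNondegenerateMDecomposition (polar Q) 2 D)
    (ht : 4 ≤ t) (hp : ∀ i, IsPlusTypeOn ⇑Q (D i)) :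
    ∃ K, decompositionStabilizer D ⊓ omegaGL ⇑Q < K ∧ K < omegaGL ⇑Q := by
  have hn := IsMDecomposition_mul_eq hD.decomp
  choose a ha haT using lenSet_nonempty hD le_rfl 1
  have ha0 : ∀ i, a i ≠ 0 := fun i h => one_ne_zero (by rw [← (haT i).2, h, map_zero])
  let i0 : Fin t := ⟨0, by omega⟩
  let s : Fin 3 → Fin t := fun j => ⟨j + 1, by omega⟩
  have hs : Function.Injective s := fun j j' h => by simpa [s, Fin.ext_iff] using h
  have hli : LinearIndependent F (a ∘ s) :=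
    (hD.decomp.indep.linearIndependent D ha ha0).comp s hs
  obtain ⟨e, he, he0, hQe⟩ := exists_sing_mem Q (Submodule.span F (Set.range (a ∘ s)))
    (by rw [finrank_span_eq_card hli]; simp)
  have h1 : Submodule.span F (Set.range (a ∘ s)) ≤ H28.perp Q (D i0) :=
    Submodule.span_le.2 (by
      rintro _ ⟨j, rfl⟩
      exact H28.mem_perp.2 fun y hy => hD.orthogonal i0 (s j) (by simp [i0, s]) y hy _ (ha _))
  obtain ⟨g, hg, h2, h3⟩ := eich_not_dec hQ (by omega) hD (ha i0) (ha0 i0) (H28.mem_perp.1 (h1 he))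
    he0 hQe
  have h4 := span_lenSet_ne hq hD hp
  have h5 : e ∈ Submodule.span F (lenSet Q D 1) :=
    Submodule.span_mono (by rintro _ ⟨j, rfl⟩; exact haT _) he
  exact exists_between (M := subspaceStabilizer (Submodule.span F (lenSet Q D 1)))
    (inv_span (H := decompositionStabilizer D ⊓ omegaGL ⇑Q)
      fun g hg v hv => lenSet_inv (omegaGL_le _ hg.2) hg.1 hv).le_stab
    (not_omega_le_stab hQ (by omega) h4.1 h4.2) hg (mem_stab_of_mapsTo fun v hv => by
      rw [h3]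
      exact sub_mem (add_mem hv (Submodule.smul_mem _ _ (Submodule.subset_span (haT i0))))
        (Submodule.smul_mem _ _ h5)) h2

omit [Finite F] in
theorem between_of_plus_four [Fintype F] (hQ : IsNondegenerateQuadraticForm ⇑Q)
    (hq : Fintype.card F = 4) (hD : IsNondegenerateMDecomposition (polar Q) 2 D)
    (ht : 3 ≤ t) (hp : ∀ i, IsPlusTypeOn ⇑Q (D i)) :
    ∃ K, decompositionStabilizer D ⊓ omegaGL ⇑Q < K ∧ K < omegaGL ⇑Q := by
  have hn := IsMDecomposition_mul_eq hD.decomp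
  have h2 : (2 : F) = 0 := H9.two_eq_zero_of_not_odd (by rw [hq]; decide)
  choose a ha haT using lenSet_nonempty hD le_rfl 1
  have ha0 : ∀ i, a i ≠ 0 := fun i h => one_ne_zero (by rw [← (haT i).2, h, map_zero])
  let i0 : Fin t := ⟨0, by omega⟩
  let i1 : Fin t := ⟨1, by omega⟩
  let i2 : Fin t := ⟨2, by omega⟩
  have n12 : i1 ≠ i2 := by simp [i1, i2]
  obtain ⟨F₀, r, -, hr, hc⟩ := exists_prime_index_subfield ⊥
    (mt (H11.card_prime_of_bot (F := F)) (by rw [hq]; decide))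
  obtain ⟨P, b, -, hb, hP⟩ := subfield_of_plus_four hQ hq hD hp F₀
  have hm : ∀ v ∈ lenSet Q D 1, ∀ w ∈ lenSet Q D 1, polar Q v w ∈ F₀ := fun v hv w hw => by
    rcases lenSet_four hq hD hp v hv w hw with h | h <;> rw [h]
    exacts [zero_mem _, one_mem _]
  obtain ⟨g, hg, h3, h4⟩ := eich_not_dec hQ (by omega) hD (ha i0) (ha0 i0) (e := a i1 + a i2)
    (fun y hy => by
      rw [polar_add_right, hD.orthogonal i0 i1 (by simp [i0, i1]) y hy _ (ha _),
        hD.orthogonal i0 i2 (by simp [i0, i2]) y hy _ (ha _), add_zero])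
    (fun h => add_not_mem hD (ha i1) (ha0 i1) (fun y hy => hD.orthogonal _ _ n12 y hy _ (ha _))
      (ha0 i2) i0 (h ▸ zero_mem _))
    (by rw [Q_add_of_perp (hD.orthogonal _ _ n12 _ (ha _) _ (ha _)), (haT _).2, (haT _).2]
        linear_combination h2)
  refine exists_between (M := subfieldSubgroup F₀ P) (fun g hg => hP g fun i j =>
    hm _ (hb i) _ (lenSet_inv (omegaGL_le _ hg.2) hg.1 (hb j)))
    (not_omega_le_subfield hQ (by omega) (subfield_ne_top_of_prime hr hc) P) hg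
    (hP g fun i j => ?_) h3
  rw [h4]
  qsimp
  rw [(haT _).2]
  have h5 := fun v hv => hm _ (haT v) _ (hb hv)
  have h6 := fun v hv => hm _ (hb hv) _ (haT v)
  exact sub_mem (add_mem (hm _ (hb i) _ (hb j)) (mul_mem (add_mem (h5 _ _) (h5 _ _)) (h6 _ _)))
    (mul_mem (add_mem (h5 _ _) (mul_mem (one_mem _) (add_mem (h5 _ _) (h5 _ _))))
      (add_mem (h6 _ _) (h6 _ _)))

omit [Finite F] in
theorem aniso_basis [Fintype F] (hq : Fintype.card F = 2) {W : Submodule F (ι → F)}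
    (hW : finrank F W = 2) (h : ∀ v ∈ W, Q v = 0 → v = 0) : ∃ a ∈ W, ∃ b ∈ W, Q a = 1 ∧ Q b = 1 ∧
      polar Q a b = 1 ∧ ∀ x ∈ W, ∃ s t : F, x = s • a + t • b := by
  obtain ⟨a, ha, ha0⟩ := (Submodule.ne_bot_iff _).1 (H27.ne_bot_of_finrank_pos (W := W) (by omega))
  obtain ⟨b, hb, hab⟩ := (nondegOn_of_aniso_two hq hW h a ha ha0).2
  have o := zero_or_one_of_card_two hq
  have h2 : (2 : F) = 0 := H9.two_eq_zero_of_not_odd (by rw [hq]; decide)
  have h3 : polar Q a b = 1 := (o _).resolve_left hab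
  have hli : LinearIndependent F ![a, b] := LinearIndependent.pair_iff.2 fun s t e => by
    have h4 := congrArg (polar Q a) e
    have h5 := congrArg (polar Q b) e
    qsimp at h4 h5
    rw [polar_comm _ b a, h3, h2] at h5
    rw [h3, h2] at h4
    exact ⟨by linear_combination h5, by linear_combination h4⟩
  have h1 : Submodule.span F (Set.range ![a, b]) = W := Submodule.eq_of_le_of_finrank_le
    (Submodule.span_le.2 (by rintro _ ⟨i, rfl⟩; fin_cases i; exacts [ha, hb]))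
    (by rw [finrank_span_eq_card hli, hW]; rfl)
  refine ⟨a, ha, b, hb, (o _).resolve_left fun e => ha0 (h a ha e),
    (o _).resolve_left fun e => hab (by rw [h b hb e, polar_zero_right]), h3, fun x hx => ?_⟩
  rw [← h1, Matrix.range_cons, Matrix.range_cons, Matrix.range_empty, Set.union_empty,
    Set.singleton_union, Submodule.mem_span_pair] at hx
  obtain ⟨s, t, e⟩ := hx
  exact ⟨s, t, e.symm⟩

omit [Finite F] in
theorem between_of_four_two [Fintype F] (hQ : IsNondegenerateQuadraticForm ⇑Q)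
    (hq : Fintype.card F = 2) (hD : IsNondegenerateMDecomposition (polar Q) 4 D)
    (hp : ∀ i, IsPlusTypeOn ⇑Q (D i)) :
    ∃ K, decompositionStabilizer D ⊓ omegaGL ⇑Q < K ∧ K < omegaGL ⇑Q := by
  have hn := IsMDecomposition_mul_eq hD.decomp
  have ht := hD.decomp.two_le
  have h2 : (2 : F) = 0 := H9.two_eq_zero_of_not_odd (by rw [hq]; decide)
  let i0 : Fin t := ⟨0, by omega⟩
  let i1 : Fin t := ⟨1, by omega⟩
  have n01 : i0 ≠ i1 := by simp [i0, i1]
  obtain ⟨W, hW, hW0⟩ := anisoPlanes_nonempty hq hD i0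
  obtain ⟨U, hU, hU1⟩ := anisoPlanes_nonempty hq hD i1
  obtain ⟨a, ha, b, hb, qa, qb, hab, hx⟩ := aniso_basis hq hW.2.1 hW.2.2
  obtain ⟨c, hc, d, hd, qc, qd, hcd, hy⟩ := aniso_basis hq hU.2.1 hU.2.2
  have o : ∀ x ∈ D i0, ∀ y ∈ U, polar Q x y = 0 := fun x hx y hy =>
    hD.orthogonal _ _ n01 x hx y (hU1 hy)
  have hac := o a (hW0 ha) c hc
  have had := o a (hW0 ha) d hd
  have hbc := o b (hW0 hb) c hc
  have hbd := o b (hW0 hb) d hd
  have hba : polar Q b a = 1 := by rw [polar_comm, hab]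
  have hdc : polar Q d c = 1 := by rw [polar_comm, hcd]
  have hca : polar Q c a = 0 := by rw [polar_comm, hac]
  have hda : polar Q d a = 0 := by rw [polar_comm, had]
  have hcb : polar Q c b = 0 := by rw [polar_comm, hbc]
  have hdb : polar Q d b = 0 := by rw [polar_comm, hbd]
  obtain ⟨g, hg, h⟩ := exists_eich hQ (by omega) (e := a + c) (w := b + d)
    (by rw [Q_add_of_perp hac, qa, qc]; linear_combination h2)
    (by qsimp; rw [hab, had, hcb, hcd]; linear_combination h2)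
  have qbd : Q (b + d) = 0 := by rw [Q_add_of_perp hbd, qb, qd]; linear_combination h2
  have neg : ∀ v : ι → F, -v = v := fun v => by
    rw [neg_eq_iff_add_eq_zero, ← two_smul F, h2, zero_smul]
  have ga : (g : Matrix ι ι F) *ᵥ a = c := by
    rw [h, qbd]; qsimp; rw [h2, hca, hba, hda]; simp [neg]
  have gb : (g : Matrix ι ι F) *ᵥ b = d := by
    rw [h, qbd]; qsimp; rw [h2, hab, hcb, hdb]; simp [← add_assoc, ← two_smul F b, h2]
  have gc : (g : Matrix ι ι F) *ᵥ c = a := by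
    rw [h, qbd]; qsimp; rw [h2, hac, hbc, hdc]; simp [neg]
  have gd : (g : Matrix ι ι F) *ᵥ d = b := by
    rw [h, qbd]; qsimp; rw [h2, had, hcd, hbd]; simp [add_comm b, ← add_assoc, ← two_smul F d, h2]
  have gx : ∀ x, polar Q a x = 0 → polar Q b x = 0 → polar Q c x = 0 → polar Q d x = 0 →
      (g : Matrix ι ι F) *ᵥ x = x := fun x h1 h3 h4 h5 => by
    rw [h, qbd]; qsimp; simp [*]
  have h7 := finrank_inf_perp (Q := Q) (hD.nondegenerate i0) hW0
  rw [hD.decomp.finrank_eq, hW.2.1] at h7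
  obtain ⟨x, hx1, hx0⟩ := (Submodule.ne_bot_iff _).1
    (H27.ne_bot_of_finrank_pos (W := D i0 ⊓ H28.perp Q W) (by omega))
  have a0 : a ≠ 0 := by rintro rfl; simp at qa
  refine exists_between (M := setStab {v | ∃ W ∈ anisoPlanes Q D, v ∈ W})
    (fun g hg => mem_setStab_of_finite ?_)
    (not_le_setStab hQ (by omega) hD (by omega) ?_ ⟨W, hW, ha⟩ a0) hg (mem_setStab_of_finite ?_)
    (not_mem_decStab hD (add_mem hx1.1 (hW0 ha)) (e := c) ?_ hx1.1 hx0 (fun y hy => o y hy c hc)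
      (by rintro rfl; simp at qc))
  · rintro v ⟨X, hX, hv⟩
    exact ⟨_, anisoPlanes_inv (omegaGL_le _ hg.2) hg.1 hX, v, hv, rfl⟩
  · rintro v ⟨X, ⟨⟨i, hi⟩, -⟩, hv⟩
    exact ⟨i, hi hv⟩
  · rintro v ⟨X, hX, hv⟩
    by_cases e1 : W = X
    · obtain ⟨s, t, rfl⟩ := hx v (e1 ▸ hv)
      rw [Matrix.mulVec_add, Matrix.mulVec_smul, Matrix.mulVec_smul, ga, gb]
      exact ⟨U, hU, add_mem (U.smul_mem _ hc) (U.smul_mem _ hd)⟩
    by_cases e2 : U = X
    · obtain ⟨s, t, rfl⟩ := hy v (e2 ▸ hv)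
      rw [Matrix.mulVec_add, Matrix.mulVec_smul, Matrix.mulVec_smul, gc, gd]
      exact ⟨W, hW, add_mem (W.smul_mem _ ha) (W.smul_mem _ hb)⟩
    have o1 := anisoPlanes_orth hq hD hp W hW X hX e1
    have o2 := anisoPlanes_orth hq hD hp U hU X hX e2
    rw [gx v (o1 a ha v hv) (o1 b hb v hv) (o2 c hc v hv) (o2 d hd v hv)]
    exact ⟨X, hX, hv⟩
  · rw [Matrix.mulVec_add, ga, gx x (H28.mem_perp.1 hx1.2 a ha) (H28.mem_perp.1 hx1.2 b hb)
      (by rw [polar_comm, o x hx1.1 c hc]) (by rw [polar_comm, o x hx1.1 d hd])]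

end Dec

variable [Finite F]

theorem between_of_submax (hQ : IsNondegenerateQuadraticForm ⇑Q) (hn : 5 ≤ Fintype.card ι)
    (hp : IsPlusTypeOn ⇑Q ⊤) {W : Submodule F (ι → F)} (hW : IsTotallySingularQuad ⇑Q W)
    (hd : 2 * (finrank F W + 1) = Fintype.card ι) :
    ∃ K, subspaceStabilizer W ⊓ omegaGL ⇑Q < K ∧ K < omegaGL ⇑Q := by
  obtain ⟨M, h1, h2, h3, h4⟩ := exists_max_of_submax hQ hn hp hW hd
  obtain ⟨w, hw, hwW⟩ := SetLike.exists_of_lt (lt_of_le_of_ne h1 (by rintro rfl; omega))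
  obtain ⟨x, hx, hx0⟩ := (Submodule.ne_bot_iff _).1 (H27.ne_bot_of_finrank_pos (W := W) (by omega))
  have h5 : x ∉ Submodule.span F {w} := H27.not_mem_span_symm
    (fun h => hwW ((Submodule.span_singleton_le_iff_mem _ _).2 hx h)) hx0
  obtain ⟨y, hy, hy'⟩ := exists_dual_vec (isSesq_polar hQ) h5
  obtain ⟨e, he, hQe, hxe⟩ := H27.exists_singular_partner (Q := Q) (LinearMap.ker (polarBilin Q w))
    (x := x) (y := y) (polar_of_ts h2 hw (h1 hx)) (hy' w (Submodule.mem_span_singleton_self w))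
    (hW x hx) (hy ▸ one_ne_zero)
  obtain ⟨g, hg, h⟩ := exists_eich hQ hn hQe (w := w) (by rw [polar_comm]; exact he)
  have h6 : ∀ v ∈ M, (g : Matrix ι ι F) *ᵥ v = v + polar Q e v • w := fun v hv => by
    rw [h, polar_of_ts h2 hw hv, h2 w hw]; simp
  refine exists_between h4 (not_omega_le_stab hQ hn (H27.ne_bot_of_finrank_pos (by omega))
    (by rintro rfl; rw [finrank_top, finrank_fun] at h3; omega)) hg
    (mem_stab_of_mapsTo fun v hv => h6 v hv ▸ add_mem hv (M.smul_mem _ hw)) fun h7 => hwW ?_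
  have : (g : Matrix ι ι F) *ᵥ x ∈ W := (h7 x).1 hx
  rw [h6 x (h1 hx), polar_comm, hxe, one_smul] at this
  simpa using sub_mem this hx

theorem between_of_plus_plane (hQ : IsNondegenerateQuadraticForm ⇑Q) (hn : 5 ≤ Fintype.card ι)
    (hq : ∀ a : F, a ≠ 0 → a * a = 1) {W : Submodule F (ι → F)} (hd : finrank F W = 2)
    (hW : IsNondegenerateOn (polar Q) W) (hp : IsPlusTypeOn ⇑Q W) :
    ∃ K, subspaceStabilizer W ⊓ omegaGL ⇑Q < K ∧ K < omegaGL ⇑Q := by
  have := Fintype.ofFinite F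
  obtain ⟨v, hv, hQv, hle⟩ := H11.fix_point_of_plus_plane hq hd hW hp
    (H := subspaceStabilizer W ⊓ omegaGL ⇑Q) (inf_le_right.trans (omegaGL_le _)) inf_le_left
  obtain ⟨z, hz, hz0, hvz⟩ := exists_perp_mem (Q := Q) hd.ge v
  obtain ⟨e, he0, hQe, he⟩ := exists_sing_perp hQ (W := W) (by omega)
  obtain ⟨g, hg, h⟩ := exists_eich hQ hn hQe (w := z) (by rw [polar_comm, he z hz])
  obtain ⟨u, hu, hzu⟩ := (hW z hz hz0).2
  have hf := finrank_span_singleton (K := F) (v := v) (by rintro rfl; simp at hQv)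
  refine exists_between hle (not_omega_le_stab hQ hn (H27.ne_bot_of_finrank_pos (by omega))
    (by intro e; rw [e, finrank_top, finrank_fun] at hf; omega)) hg
    (mem_stab_of_mapsTo fun x hx => ?_) fun h7 => ?_
  · obtain ⟨c, rfl⟩ := Submodule.mem_span_singleton.1 hx
    rw [Matrix.mulVec_smul, h, polar_comm _ e, he v hv, polar_comm _ z, hvz]
    simpa using hx
  · have h1 : (g : Matrix ι ι F) *ᵥ u ∈ W := (h7 u).1 hu
    rw [h, polar_comm _ e, he u hu] at h1
    have h2 : e ∈ W := by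
      have := sub_mem hu h1
      simp only [zero_smul, add_zero, mul_zero, sub_sub_cancel] at this
      exact (W.smul_mem_iff hzu).1 this
    obtain ⟨y, hy, h3⟩ := (hW e h2 he0).1
    exact h3 (he y hy)

theorem between_of_pair (hQ : IsNondegenerateQuadraticForm ⇑Q) (hn : 5 ≤ Fintype.card ι) {k : ℕ}
    (hk : Odd k) {D : Fin 2 → Submodule F (ι → F)} (hD : IsMDecomposition k D)
    (hts : ∀ i, IsTotallySingularQuad ⇑Q (D i)) :
    ∃ K, decompositionStabilizer D ⊓ omegaGL ⇑Q < K ∧ K < omegaGL ⇑Q := by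
  have := Fintype.ofFinite F
  have h1 := IsMDecomposition_mul_eq hD
  have h0 := hD.finrank_eq 0
  obtain ⟨w, hw, hw0⟩ := (Submodule.ne_bot_iff _).1 (H27.ne_bot_of_finrank_pos (W := D 0) (by omega))
  obtain ⟨e, he, hew⟩ := H27.exists_not_mem_span_singleton (W := D 0) (by omega) w
  obtain ⟨y, hy, hy'⟩ := exists_dual_vec (isSesq_polar hQ) hew
  obtain ⟨y₀, hy₀, x, hx, rfl⟩ := Submodule.mem_sup.1
    (sup_of_dec_two hD ▸ Submodule.mem_top : y ∈ D 0 ⊔ D 1)
  have h2 := hy' w (Submodule.mem_span_singleton_self w)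
  rw [polar_add_right, polar_of_ts (hts 0) he hy₀, zero_add] at hy
  rw [polar_add_right, polar_of_ts (hts 0) hw hy₀, zero_add] at h2
  obtain ⟨g, hg, h⟩ := exists_eich hQ hn (hts 0 e he) (polar_of_ts (hts 0) he hw)
  have hd : Disjoint (D 0) (D 1) := hD.indep.pairwiseDisjoint (by decide : (0 : Fin 2) ≠ 1)
  refine exists_between (pair_fixed hQ hn hk hD hts) (not_omega_le_stab hQ hn
    (H27.ne_bot_of_finrank_pos (by omega))
    (by intro e; rw [e, finrank_top, finrank_fun] at h0; omega)) hg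
    (mem_stab_of_mapsTo fun v hv => ?_) fun h7 => ?_
  · rw [h]
    exact sub_mem (add_mem hv (Submodule.smul_mem _ _ hw)) (Submodule.smul_mem _ _ he)
  · obtain ⟨s, hs⟩ := mem_of_decStab h7
    have h3 := hs 1 x hx
    rw [h, hy, h2, hts 0 w hw] at h3
    simp only [one_smul, zero_mul, add_zero, zero_smul, sub_zero] at h3
    generalize s 1 = j at h3
    fin_cases j
    · have h4 : x = 0 := Submodule.disjoint_def.1 hd x (by simpa using sub_mem h3 hw) hx
      rw [h4, polar_zero_right] at hy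
      exact zero_ne_one hy
    · exact hw0 (Submodule.disjoint_def.1 hd w hw (by simpa using sub_mem h3 hx))

omit [Finite F] in
theorem between_of_tensor_two [Fintype F] (hQ : IsNondegenerateQuadraticForm ⇑Q)
    (hq : Fintype.card F = 2) {b : ℕ} (hb : 3 ≤ b) {e : ι ≃ Fin 2 × Fin b} {P : GL ι F}
    {f₁ : (Fin 2 → F) → (Fin 2 → F) → F} {f₂ : (Fin b → F) → (Fin b → F) → F}
    (hf₁ : IsSymplecticForm f₁) (hf₂ : IsSymplecticForm f₂)
    (hT : IsTensorFormStructure id (polar Q) f₁ f₂ e P) (h0 : ∀ u v, Q (frmV e P (H9.tp u v)) = 0) :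
    ∃ K, tensorProductSubgroup 2 b e P ⊓ omegaGL ⇑Q < K ∧ K < omegaGL ⇑Q := by
  have hn := Fintype.card_congr e
  rw [Fintype.card_prod, Fintype.card_fin, Fintype.card_fin] at hn
  have h2 : (2 : F) = 0 := H9.two_eq_zero_of_not_odd (by rw [hq]; decide)
  have o := zero_or_one_of_card_two hq
  have h₁ := isSesq_of_symplectic hf₁
  have h₂ := isSesq_of_symplectic hf₂
  obtain ⟨c, hc, hcf⟩ := H9.tensorForm_tp h₁ h₂ hT
  obtain rfl : c = 1 := (o c).resolve_left hc
  let e0 : Fin 2 → F := Pi.single 0 1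
  let e1 : Fin 2 → F := Pi.single 1 1
  have f00 : f₁ e0 e0 = 0 := hf₁.alternating _
  have f11 : f₁ e1 e1 = 0 := hf₁.alternating _
  have hrep : ∀ u : Fin 2 → F, u = u 0 • e0 + u 1 • e1 := fun u => by
    ext i; fin_cases i <;> simp [e0, e1]
  have f01 : f₁ e0 e1 = 1 := (o _).resolve_left fun h => by
    refine (by simp [e0] : e0 ≠ 0) (h₁.eq_zero_of_left fun x => ?_)
    rw [hrep x, h₁.add_right, H9.bil_smul_right h₁, H9.bil_smul_right h₁, f00, h]; simp
  have f10 : f₁ e1 e0 = 1 := by rw [H9.bil_symm_of_char_two h2 h₁, f01]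
  have w0 : om4 F *ᵥ e0 = e1 := by ext i; fin_cases i <;> simp [om4, e0, e1]
  have w1 : om4 F *ᵥ e1 = e0 + e1 := by ext i; fin_cases i <;> simp [om4, e0, e1]
  obtain ⟨v₀, hv₀⟩ : ∃ v : Fin b → F, v ≠ 0 := by
    have : Nonempty (Fin b) := ⟨⟨0, by omega⟩⟩
    exact exists_ne 0
  have h3 := H9.finrank_add_finrank_perp h₂ (Submodule.span F {v₀})
  rw [finrank_span_singleton hv₀, Fintype.card_fin] at h3
  obtain ⟨v₁, hv₁, hv₁'⟩ := H27.exists_not_mem_span_singleton
    (W := H9.perp h₂ (Submodule.span F {v₀})) (by omega) v₀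
  obtain ⟨y, hy, hy'⟩ := exists_dual_vec h₂ (H27.not_mem_span_symm hv₁' hv₀)
  have g1y := hy' v₁ (Submodule.mem_span_singleton_self _)
  have g10 : f₂ v₁ v₀ = 0 := hv₁ v₀ (Submodule.mem_span_singleton_self _)
  have g01 : f₂ v₀ v₁ = 0 := h₂.eq_zero_comm.1 g10
  let ω : Matrix ι ι F := frm e P (om4 F ⊗ₖ (1 : Matrix (Fin b) (Fin b) F))
  have hω : ∀ u v, ω *ᵥ frmV e P (H9.tp u v) = frmV e P (H9.tp (om4 F *ᵥ u) v) := fun u v => by
    rw [H9.mulVec_frmV_tp rfl, Matrix.one_mulVec]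
  have hω2 : ∀ x, ω *ᵥ (ω *ᵥ x) = x + ω *ᵥ x := fun x => by
    rw [Matrix.mulVec_mulVec, ← map_mul, ← Matrix.mul_kronecker_mul, om4_sq, Matrix.mul_one,
      Matrix.add_kronecker, Matrix.one_kronecker_one, map_add, map_one, Matrix.add_mulVec,
      Matrix.one_mulVec]
  have hωf : ∀ u u', f₁ (om4 F *ᵥ u) (om4 F *ᵥ u') = f₁ u u' := fun u u' => by
    rw [hrep u, hrep u']
    simp only [Matrix.mulVec_add, Matrix.mulVec_smul, w0, w1, h₁.add_left, h₁.add_right,
      h₁.smul_left, H9.bil_smul_right h₁, f00, f01, f10, f11]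
    linear_combination u 1 * u' 1 * h2
  have hωB : ∀ x y, polar Q (ω *ᵥ x) (ω *ᵥ y) = polar Q x y := by
    have : (polarBilin Q).compl₁₂ (Matrix.toLin' ω) (Matrix.toLin' ω) = polarBilin Q := by
      refine LinearMap.ext_basis ((Pi.basisFun F _).map (frmV e P)) ((Pi.basisFun F _).map (frmV e P))
        fun ⟨i, j⟩ ⟨k, l⟩ => ?_
      simp only [LinearMap.compl₁₂_apply, Basis.map_apply, Pi.basisFun_apply, H9.single_eq_tp,
        Matrix.toLin'_apply, hω, polarBilin_apply_apply, hcf, hωf]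
    exact fun x y => LinearMap.congr_fun₂ this x y
  have hωQ : ∀ x, Q (ω *ᵥ x) = Q x := H9.quad_fix_of_basis hQ hωB (frmV e P) fun ⟨i, j⟩ => by
    rw [H9.single_eq_tp, hω, h0, h0]
  obtain ⟨z, hz⟩ : ∃ z, z = frmV e P (H9.tp e0 v₀) + frmV e P (H9.tp e1 v₁) := ⟨_, rfl⟩
  have hQz : Q z = 0 := by rw [hz, H11.Q_add, h0, h0, hcf, g01]; simp
  have hzz : polar Q z (ω *ᵥ z) = 0 := by
    have := hωQ (ω *ᵥ z)
    rw [hω2, H11.Q_add, hωQ, hQz] at this
    simpa using this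
  obtain ⟨g, hg, h⟩ := exists_eich hQ (by omega) hQz hzz
  have neg : ∀ v : ι → F, -v = v := fun v => by
    rw [neg_eq_iff_add_eq_zero, ← two_smul F, h2, zero_smul]
  have hgω : (g : Matrix ι ι F) * ω = ω * g := matrix_ext_mulVec fun x => by
    have h4 : polar Q z (ω *ᵥ x) = polar Q z x + polar Q (ω *ᵥ z) x := by
      have := hωB (ω *ᵥ z) x
      rw [hω2, polar_add_left, hωB] at this
      linear_combination this - polar Q z x * h2
    rw [← Matrix.mulVec_mulVec, ← Matrix.mulVec_mulVec, h, h, hωQ, hQz, hωB, h4]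
    simp only [Matrix.mulVec_add, Matrix.mulVec_sub, Matrix.mulVec_smul, hω2, sub_eq_add_neg, neg]
    module
  refine exists_between (inf_le_left.trans (tensor_le_norm e P fun x k hk => fld4_conj hq x hk))
    (not_omega_le_fieldNorm hQ (by omega) le_rfl (isField_tensSub (by omega) e P (isField_fld4 hq)))
    hg (mem_norm_of_comm ?_) fun h7 => ?_
  · rintro _ ⟨_, ⟨s, t, rfl⟩, rfl⟩
    change _ * frm e P (kronL _ _ F _) = frm e P (kronL _ _ F _) * _
    simp only [map_add, map_smul, map_one, mul_add, add_mul, mul_smul_comm, smul_mul_assoc,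
      Matrix.mul_one, Matrix.one_mul]
    exact congrArg _ (congrArg _ hgω)
  · obtain ⟨x, y', hxy⟩ := mem_tensorProductSubgroup.1 h7
    have h4 := H9.mulVec_frmV_tp hxy e0 y
    rw [h, hωQ, hQz, hz, Matrix.mulVec_add, hω, hω, w0, w1] at h4
    simp only [polar_add_left, hcf, f00, f10, hy, g1y, mul_zero, zero_mul, add_zero, zero_smul,
      mul_one, one_smul, sub_eq_add_neg, neg] at h4
    rw [← map_add, ← map_add] at h4
    have h5 := (frmV e P).injective h4
    generalize (x : Matrix (Fin 2) (Fin 2) F) *ᵥ e0 = u at h5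
    generalize (y' : Matrix (Fin b) (Fin b) F) *ᵥ y = y'' at h5
    have h6 : y + v₀ = u 0 • y'' := by
      ext j; simpa [H9.tp, e0, e1] using congrFun h5 (0, j)
    have h8 : v₁ = u 1 • y'' := by
      ext j; simpa [H9.tp, e0, e1] using congrFun h5 (1, j)
    have h9 := congrArg (f₂ v₀) h6
    rw [h8, H9.bil_smul_right h₂, mul_eq_zero] at g01
    rw [h₂.add_right, hy, hf₂.alternating, H9.bil_smul_right h₂] at h9
    rcases g01 with h10 | h10
    · rw [h10, zero_smul] at h8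
      exact hv₁' (h8 ▸ zero_mem _)
    · rw [h10] at h9; simp at h9

end Cfsg.Agent.H99
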