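import Cfsg.Agent.H99.OType

/-! Quadratic forms and subfields. -/

set_option autoImplicit false
set_option linter.unusedSectionVars false
set_option linter.unusedVariables false
set_option linter.unusedSimpArgs false

namespace Cfsg.Agent.H99

open scoped MatrixGroups Matrix
open Cfsg.Geo QuadraticMap Module
open Cfsg.Agent.H98

variable {ι : Type} [Fintype ι] [DecidableEq ι] {F : Type*} [Field F]
variable {Q : QuadraticForm F (ι → F)}

theorem exists_root_of_card_sq [Fintype F] {F₀ : Subfield F}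
    (h : Fintype.card F = Nat.card F₀ ^ 2) (a b : F₀) : ∃ t : F, t ^ 2 = a + b * t := by
  by_cases hr : ∃ r : F₀, r ^ 2 = a + b * r
  · obtain ⟨r, hr⟩ := hr
    exact ⟨r, by exact_mod_cast congrArg Subtype.val hr⟩
  push Not at hr
  haveI : Fact (∀ r : F₀, r ^ 2 ≠ a + b * r) := ⟨hr⟩
  have h1 := card_eq_pow_finrank_subfield F₀
  rw [Nat.card_eq_fintype_card, h] at h1
  have h2 : finrank F₀ F = 2 := (Nat.pow_right_injective (Finite.one_lt_card (α := F₀)) h1).symm
  obtain ⟨f⟩ := FiniteField.nonempty_algHom_of_finrank_dvd (F := F₀) (K := QuadraticAlgebra F₀ a b)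
    (L := F) (by rw [QuadraticAlgebra.finrank_eq_two, h2])
  refine ⟨f QuadraticAlgebra.omega, ?_⟩
  rw [pow_two, ← map_mul, QuadraticAlgebra.omega_mul_omega_eq_add, map_add, map_smul, map_smul,
    map_one]
  simp [Subfield.smul_def]

/-- A form rational over a subfield of index two has plus type. -/
theorem plusA_of_rational [Fintype F] (h : H11.ND Q) (he : Even (Fintype.card ι)) {F₀ : Subfield F}
    (hc : Fintype.card F = Nat.card F₀ ^ 2) (hr : ∀ u : ι → F, (∀ i, u i ∈ F₀) → Q u ∈ F₀) :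
    PlusA Q := by
  classical
  let c : (ι → F₀) →+ (ι → F) :=
    { toFun := fun u i => u i, map_zero' := rfl, map_add' := fun _ _ => rfl }
  have hcs : ∀ (a : F₀) u, c (a • u) = (a : F) • c u := fun _ _ => rfl
  have hci : Function.Injective c := fun u v huv => funext fun i => Subtype.ext (congrFun huv i)
  let q : (ι → F₀) → F₀ := fun u => ⟨Q (c u), hr _ fun i => (u i).2⟩
  have hq : ∀ u v, ((polar q u v : F₀) : F) = polar Q (c u) (c v) := fun u v => by
    simp [polar, q]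
  let Q₀ : QuadraticForm F₀ (ι → F₀) := QuadraticMap.ofPolar q
    (fun a x => Subtype.ext (by simp [q, hcs, H11.Q_smul, mul_assoc]))
    (fun x x' y => Subtype.ext (by
      rw [Subfield.coe_add, hq, hq, hq, map_add, polar_add_left]))
    (fun a x y => Subtype.ext (by
      rw [smul_eq_mul, Subfield.coe_mul, hq, hq, hcs, H28.B_smul_left]))
  have hQ₀ : ∀ u, ((Q₀ u : F₀) : F) = Q (c u) := fun _ => rfl
  have hp : ∀ u v, ((polar Q₀ u v : F₀) : F) = polar Q (c u) (c v) := hq
  have hnd : H11.ND Q₀ := fun x hx => hci (by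
    rw [map_zero]
    refine h _ fun y => ?_
    have h1 : polarBilin Q (c x) = 0 := (Pi.basisFun F ι).ext fun j => by
      have := hp x (Pi.single j 1)
      rw [hx] at this
      rw [Pi.basisFun_apply, polarBilin_apply_apply, LinearMap.zero_apply]
      have h2 : c (Pi.single j 1) = Pi.single j 1 := by
        funext i
        by_cases hij : i = j
        · subst hij; simp [c]
        · simp [c, hij]
      rw [← h2, ← this]; rfl
    exact LinearMap.congr_fun h1 y)
  obtain ⟨s, e, f, hef, he0, hf0, han⟩ := H27.exists_hyp_anisotropic hnd.nondegenerate.1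
  have hdim := hef.finrank_eq H27.polar_hε (H27.polar_hs Q₀)
  rw [Module.finrank_fintype_fun_eq_card, Fintype.card_fin] at hdim
  set W := H27.perpFam (polarBilin Q₀) (Sum.elim e f) with hW
  have hW3 : finrank F₀ W < 3 := by
    by_contra h3
    obtain ⟨v, hv, h0, h1⟩ := H27.exists_singular_of_three_le Q₀ W (by omega)
    exact h0 (han v hv h1)
  have hef' : ∀ i j, polar Q (c (f i)) (c (e j)) = if i = j then 1 else 0 := fun i j => by
    rw [← hp, polar_comm, ← polarBilin_apply_apply, hef.ef]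
    by_cases hij : i = j
    · simp [hij]
    · simp [hij, Ne.symm hij]
  have hli : LinearIndependent F (fun i => c (e i)) :=
    H27.linearIndependent_of_dual_family (fun i => polarBilin Q (c (f i))) _ hef'
  let U := Submodule.span F (Set.range fun i => c (e i))
  have hUd : finrank F U = s := by rw [finrank_span_eq_card hli, Fintype.card_fin]
  have hU : ∀ u ∈ U, Q u = 0 := by
    intro u hu
    obtain ⟨a, rfl⟩ := (Submodule.mem_span_range_iff_exists_fun F).1 hu
    exact H27.quad_sum_eq_zero (fun i => by rw [← hQ₀, he0]; rfl)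
      (fun i j => by rw [← hp, ← polarBilin_apply_apply, hef.ee]; rfl) a
  obtain ⟨m, hm⟩ := he
  by_cases h0 : finrank F₀ W = 0
  · exact ⟨U, hU, by rw [hUd, Module.finrank_fintype_fun_eq_card]; omega⟩
  have h2 : finrank F₀ W = 2 := by omega
  let b := Module.finBasisOfFinrankEq F₀ W h2
  have hb0 : ((b 0 : W) : ι → F₀) ≠ 0 := fun hh => b.ne_zero 0 (Subtype.ext hh)
  have ha : Q₀ (b 0) ≠ 0 := fun hh => hb0 (han _ (b 0).2 hh)
  have ha' : Q (c (b 0)) ≠ 0 := fun hh => ha (Subtype.ext hh)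
  obtain ⟨t, ht⟩ := exists_root_of_card_sq hc (-(Q₀ (b 1)) / Q₀ (b 0))
    (-(polar Q₀ (b 0) (b 1)) / Q₀ (b 0))
  simp only [Subfield.coe_div, Subfield.coe_neg, hQ₀, hp] at ht
  let z : ι → F := t • c (b 0) + c (b 1)
  have hz : Q z = 0 := by
    simp only [z]
    rw [H28.Q_add, H28.Q_smul, H28.B_smul_left, ht]
    field_simp
    ring
  have hzp : ∀ k, polar Q (c (Sum.elim e f k)) z = 0 := fun k => by
    simp only [z]
    rw [polar_add_right, H28.B_smul_right, ← hp, ← hp, ← polarBilin_apply_apply,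
      ← polarBilin_apply_apply, H27.mem_perpFam.1 (b 0).2 k, H27.mem_perpFam.1 (b 1).2 k]
    simp
  have hz0 : z ≠ 0 := by
    intro hz0
    obtain ⟨i, hi⟩ := Function.ne_iff.1 hb0
    have h3 := congrFun hz0 i
    have hi' : (((b 0 : W) : ι → F₀) i : F) ≠ 0 := fun hh => hi (Subtype.ext hh)
    change t * (((b 0 : W) : ι → F₀) i : F) + (((b 1 : W) : ι → F₀) i : F) = 0 at h3
    let t₀ : F₀ := -((b 1 : W) : ι → F₀) i / ((b 0 : W) : ι → F₀) i
    have h4 : t = t₀ := by
      simp only [t₀, Subfield.coe_div, Subfield.coe_neg]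
      field_simp
      linear_combination h3
    have h5 : t₀ • b 0 + b 1 = 0 := Subtype.ext (hci (by
      rw [Submodule.coe_add, Submodule.coe_smul, map_add, hcs, ← h4]
      exact hz0))
    have h6 := congrArg (fun x => b.repr x 1) h5
    simp at h6
  have hzU : z ∉ U := by
    intro hu
    obtain ⟨a, ha⟩ := (Submodule.mem_span_range_iff_exists_fun F).1 hu
    apply hz0
    have : ∀ i, a i = 0 := fun i => by
      have h3 := hzp (.inr i)
      rw [← ha, Sum.elim_inr, ← polarBilin_apply_apply, map_sum] at h3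
      simpa [hef'] using h3
    rw [← ha]
    simp [this]
  refine ⟨U ⊔ Submodule.span F {z}, fun x hx => ?_, ?_⟩
  · obtain ⟨u, hu, y, hy, rfl⟩ := Submodule.mem_sup.1 hx
    obtain ⟨d, rfl⟩ := Submodule.mem_span_singleton.1 hy
    obtain ⟨a, rfl⟩ := (Submodule.mem_span_range_iff_exists_fun F).1 hu
    rw [H28.Q_add, hU _ hu, H28.Q_smul, hz, H28.B_smul_right, ← polarBilin_apply_apply, map_sum,
      LinearMap.sum_apply]
    have : ∀ i, polar Q (c (e i)) z = 0 := fun i => hzp (.inl i)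
    simp [this]
  · rw [Submodule.finrank_sup_span_singleton hzU, hUd, Module.finrank_fintype_fun_eq_card]
    omega

/-- the linear equivalence of an invertible matrix -/
noncomputable def glEquiv (P : GL ι F) : (ι → F) ≃ₗ[F] (ι → F) := frmV (Equiv.refl ι) P

theorem glEquiv_apply (P : GL ι F) (v : ι → F) : glEquiv P v = (P : Matrix ι ι F) *ᵥ v := rfl

theorem plus_top_iff : IsPlusTypeOn ⇑Q ⊤ ↔ PlusA Q :=
  ⟨fun ⟨U, _, h1, h2⟩ => ⟨U, h1, by rwa [finrank_top] at h2⟩,
   fun ⟨U, h1, h2⟩ => ⟨U, le_top, h1, by rwa [finrank_top]⟩⟩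

theorem plus_of_subfield_two [Fintype F] (hQ : IsNondegenerateQuadraticForm ⇑Q)
    (he : Even (Fintype.card ι)) {F₀ : Subfield F} (hc : Fintype.card F = Nat.card F₀ ^ 2)
    {ζ : F} (hζ : ζ ≠ 0) {P : GL ι F}
    (hP : IsQuadFormRationalStructure (fun v => ζ * Q v) F₀ P) : IsPlusTypeOn ⇑Q ⊤ := by
  have h1 : H11.ND ((ζ • Q).comp (glEquiv P : (ι → F) →ₗ[F] (ι → F))) :=
    (nd_smul (ond hQ) hζ).congr (glEquiv P).symm fun x => by simp
  have h2 := plusA_of_rational h1 he hc hP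
  rw [plus_top_iff, ← plusA_smul hζ]
  exact h2.of_equiv (glEquiv P) fun x hx => hx

theorem quad_sum_mem {F₀ : Subfield F} {α : Type*} {ζ : F} (s : Finset α) (v : α → ι → F)
    (u : α → F) (hu : ∀ a, u a ∈ F₀) (h1 : ∀ a, ζ * Q (v a) ∈ F₀)
    (h2 : ∀ a b, ζ * polar Q (v a) (v b) ∈ F₀) : ζ * Q (∑ a ∈ s, u a • v a) ∈ F₀ := by
  classical
  induction s using Finset.induction_on with
  | empty => simp
  | insert a s ha ih =>
    rw [Finset.sum_insert ha, H28.Q_add, H28.Q_smul, H28.B_smul_left, ← polarBilin_apply_apply,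
      map_sum (polarBilin Q (v a)), mul_add, mul_add, Finset.mul_sum, Finset.mul_sum]
    refine F₀.add_mem (F₀.add_mem ?_ ih) (F₀.sum_mem fun b _ => ?_)
    · rw [mul_left_comm]; exact F₀.mul_mem (F₀.pow_mem (hu a) 2) (h1 a)
    · rw [map_smul, polarBilin_apply_apply, smul_eq_mul]
      have : ζ * (u a * (u b * polar Q (v a) (v b))) = u a * (u b * (ζ * polar Q (v a) (v b))) := by
        ring
      rw [this]
      exact F₀.mul_mem (hu a) (F₀.mul_mem (hu b) (h2 a b))

/-- subfield groups from bases -/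
theorem exists_subfield_of_basis (b : Basis ι F (ι → F)) (F₀ : Subfield F) :
    ∃ P : GL ι F, (∀ u, (P : Matrix ι ι F) *ᵥ u = ∑ i, u i • b i) ∧
      ∀ g : GL ι F, (∀ i j, b.repr ((g : Matrix ι ι F) *ᵥ b j) i ∈ F₀) → g ∈ subfieldSubgroup F₀ P := by
  obtain ⟨P, hP⟩ := H11.exists_gl_of_equiv b.equivFun.symm
  refine ⟨P, fun u => by rw [hP, Basis.equivFun_symm_apply], fun g hg => ?_⟩
  refine H98.mem_subfieldSubgroup.2 ⟨1, fun i j => ?_⟩
  have h1 : (P : Matrix ι ι F) *ᵥ Pi.single j 1 = b j := by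
    rw [hP, Basis.equivFun_symm_apply]; simp [Pi.single_apply]
  have h2 : ∀ v, ((P⁻¹ : GL ι F) : Matrix ι ι F) *ᵥ v = b.equivFun v := fun v => by
    conv_lhs => rw [← b.equivFun.symm_apply_apply v, ← hP, inv_mulVec_mulVec]
  have h3 : (cj P⁻¹ (g : Matrix ι ι F)) *ᵥ Pi.single j 1 = b.equivFun ((g : Matrix ι ι F) *ᵥ b j) := by
    rw [cj_apply, inv_inv, ← Matrix.mulVec_mulVec, ← Matrix.mulVec_mulVec, h1, h2]
  have h4 := congrFun h3 i
  rw [Matrix.mulVec_single_one] at h4
  rw [Units.val_one, one_smul]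
  change (cj P⁻¹ (g : Matrix ι ι F)) i j = _ at h4
  rw [h4]
  exact hg i j

theorem quadRat_of_form (h2 : (2 : F) ≠ 0) {F₀ : Subfield F} {ζ : F} {P : GL ι F}
    (h : IsFormRationalStructure (polar Q) F₀ ζ P) :
    IsQuadFormRationalStructure (fun v => ζ * Q v) F₀ P := by
  intro u hu
  have h1 := F₀.div_mem (h u u hu hu) (natCast_mem F₀ 2)
  rw [H28.B_self] at h1
  have : ζ * (2 * Q ((P : Matrix ι ι F) *ᵥ u)) / ((2 : ℕ) : F) = ζ * Q ((P : Matrix ι ι F) *ᵥ u) := by
    push_cast; field_simp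
  rwa [this] at h1

theorem quadRat_of_irr [Finite F] (hQ : IsNondegenerateQuadraticForm ⇑Q) (hn : 2 ≤ Fintype.card ι)
    {L : Subgroup (GL ι F)} (hL : L ≤ isometryGroup F ⇑Q) (hI : Irr L) {F₁ : Subfield F}
    {B : GL ι F} (hB : ∀ s ∈ matrixSet L, ∀ i j,
      ((B : Matrix ι ι F) * s * ((B⁻¹ : GL ι F) : Matrix ι ι F)) i j ∈ F₁) {ζ : F}
    (h : IsFormRationalStructure (polar Q) F₁ ζ B⁻¹) :
    IsQuadFormRationalStructure (fun v => ζ * Q v) F₁ B⁻¹ := by
  haveI := Fintype.ofFinite F₁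
  let σ : F ≃ₐ[F₁] F := FiniteField.frobeniusAlgEquivOfAlgebraic F₁ F
  have hσ : ∀ x, σ x = x ^ Fintype.card F₁ := fun _ => rfl
  have hfix : ∀ x ∈ F₁, σ x = x := fun x hx => σ.commutes ⟨x, hx⟩
  have hfix' : ∀ x ∈ F₁, σ.symm x = x := fun x hx => σ.symm.commutes ⟨x, hx⟩
  set P : Matrix ι ι F := ((B⁻¹ : GL ι F) : Matrix ι ι F) with hPdef
  let τ : (ι → F) → (ι → F) := fun w i => σ.symm (w i)
  have hf := (isSesq_polar hQ).comp_gl B⁻¹
  have hg : ∀ w w', ζ * polar Q (P *ᵥ w) (P *ᵥ w') = σ (ζ * polar Q (P *ᵥ τ w) (P *ᵥ τ w')) := by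
    intro w w'
    rw [hf.eq_formOfGram w w', hf.eq_formOfGram (τ w) (τ w')]
    simp only [formOfGram, Finset.mul_sum, map_sum, RingEquiv.coe_refl, id]
    refine Finset.sum_congr rfl fun i _ => Finset.sum_congr rfl fun j _ => ?_
    have h1 := hfix _ (h (Pi.single i 1) (Pi.single j 1)
      (fun k => by rw [Pi.single_apply]; split_ifs; exacts [F₁.one_mem, F₁.zero_mem])
      (fun k => by rw [Pi.single_apply]; split_ifs; exacts [F₁.one_mem, F₁.zero_mem]))
    set G := gramMatrix (fun u v => polar Q (P *ᵥ u) (P *ᵥ v)) i j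
    change σ (ζ * G) = ζ * G at h1
    have h2 : ζ * (τ w i * G * τ w' j) = τ w i * (ζ * G) * τ w' j := by ring
    rw [h2, map_mul, map_mul, h1]
    simp only [τ, AlgEquiv.apply_symm_apply]
    ring
  let D : (ι → F) → F := fun v => ζ * Q v - σ (ζ * Q (P *ᵥ τ ((B : Matrix ι ι F) *ᵥ v)))
  have hD := additive_quad_eq_zero hn (D := D) (fun u v => by
      have h1 := hg ((B : Matrix ι ι F) *ᵥ u) ((B : Matrix ι ι F) *ᵥ v)
      rw [hPdef, inv_mulVec_mulVec, inv_mulVec_mulVec, ← hPdef] at h1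
      have h2 : τ ((B : Matrix ι ι F) *ᵥ (u + v)) =
          τ ((B : Matrix ι ι F) *ᵥ u) + τ ((B : Matrix ι ι F) *ᵥ v) := by
        funext i; simp [τ, Matrix.mulVec_add]
      simp only [D]
      rw [h2, Matrix.mulVec_add, H28.Q_add, H28.Q_add, mul_add, mul_add, mul_add, mul_add, map_add,
        map_add, ← h1]
      ring)
    (fun c v => by
      have h2 : τ ((B : Matrix ι ι F) *ᵥ (c • v)) = σ.symm c • τ ((B : Matrix ι ι F) *ᵥ v) := by
        funext i; simp [τ, Matrix.mulVec_smul]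
      simp only [D]
      rw [h2, Matrix.mulVec_smul, H28.Q_smul, H28.Q_smul, mul_left_comm ζ (σ.symm c ^ 2), map_mul,
        map_pow, AlgEquiv.apply_symm_apply]
      ring) hI
    (fun g hg v hv => by
      have h1 := hB _ (coe_mem_matrixSet hg)
      set X := (B : Matrix ι ι F) * (g : Matrix ι ι F) * P with hX
      have h2 : (B : Matrix ι ι F) *ᵥ ((g : Matrix ι ι F) *ᵥ v) = X *ᵥ ((B : Matrix ι ι F) *ᵥ v) := by
        rw [hX, ← Matrix.mulVec_mulVec, ← Matrix.mulVec_mulVec, hPdef, inv_mulVec_mulVec]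
      have h3 : ∀ w, τ (X *ᵥ w) = X *ᵥ τ w := fun w => by
        funext i
        simp only [τ, Matrix.mulVec, dotProduct, map_sum, map_mul, hfix' _ (h1 i _)]
      have h4 : ∀ w, P *ᵥ (X *ᵥ w) = (g : Matrix ι ι F) *ᵥ (P *ᵥ w) := fun w => by
        rw [hX, ← Matrix.mulVec_mulVec, ← Matrix.mulVec_mulVec, hPdef, inv_mulVec_mulVec]
      simp only [D] at hv ⊢
      rw [h2, h3, h4, Q_iso (hL hg), Q_iso (hL hg), hv])
  intro u hu
  have h1 := hD (P *ᵥ u)
  have h2 : τ u = u := funext fun i => hfix' _ (hu i)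
  simp only [D] at h1
  rw [hPdef, mulVec_inv_mulVec, h2, sub_eq_zero, hσ] at h1
  rw [mem_subfield_iff_pow, Nat.card_eq_fintype_card]
  exact h1.symm

end Cfsg.Agent.H99
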