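import Mathlib

/-! An isometry of odd order of a symplectic abelian group whose commutator elements are
perpendicular to their images; the group version for groups with central commutators. -/

set_option autoImplicit false
set_option linter.unusedSectionVars false
set_option linter.unusedVariables false

namespace Cfsg.Agent.H99.Xs

section ring

variable {R : Type*} [Ring R]

theorem eq_zero_of_coprime {M : Type*} [AddGroup M] {m : M} {a b : ℕ} (h : Nat.Coprime a b)
    (ha : a • m = 0) (hb : b • m = 0) : m = 0 := by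
  have h1 := addOrderOf_dvd_iff_nsmul_eq_zero.2 ha
  have h2 := addOrderOf_dvd_iff_nsmul_eq_zero.2 hb
  exact AddMonoid.addOrderOf_eq_one_iff.1 (Nat.eq_one_of_dvd_coprimes h h1 h2)

theorem cube_zero {σ : R} {w r : ℕ} (hw : Odd w) (hσ : σ ^ w = 1) (hr : Odd r) (h0 : (r : R) = 0)
    (h : (σ - 1) ^ 3 * (σ + 1) = 0) : (σ - 1) ^ 3 = 0 := by
  set M := (σ - 1) ^ 3 with hM
  have h1 : M * σ = -M := by rw [mul_add, mul_one] at h; exact eq_neg_of_add_eq_zero_left h
  have h2 : ∀ i : ℕ, M * σ ^ (2 * i + 1) = -M := by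
    intro i
    induction i with
    | zero => simpa using h1
    | succ i ih =>
      rw [show 2 * (i + 1) + 1 = (2 * i + 1) + 1 + 1 by ring, pow_succ, pow_succ, ← mul_assoc,
        ← mul_assoc, ih, neg_mul, h1, neg_neg, h1]
  obtain ⟨i, rfl⟩ := hw
  have h3 := h2 i
  rw [hσ, mul_one] at h3
  refine eq_zero_of_coprime (a := 2) (b := r) (Nat.coprime_two_left.2 hr) ?_ ?_
  · rw [two_nsmul]; nth_rewrite 1 [h3]; exact neg_add_cancel M
  · rw [nsmul_eq_mul, h0, zero_mul]

theorem eq_one_of_nil {σ : R} {w r : ℕ} (hσ : σ ^ w = 1) (hc : Nat.Coprime w r) (h0 : (r : R) = 0)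
    (k : ℕ) (h : (σ - 1) ^ (k + 1) = 0) : σ = 1 := by
  induction k with
  | zero => simpa [sub_eq_zero] using h
  | succ k ih =>
    apply ih
    set N := σ - 1 with hN
    have hs : σ = 1 + N := by rw [hN]; abel
    have h1 : N ^ k * N * N = 0 := by rw [← pow_succ, ← pow_succ]; exact h
    have h2 : ∀ i : ℕ, N ^ k * σ ^ i = N ^ k + i • (N ^ k * N) := by
      intro i
      induction i with
      | zero => simp
      | succ i ih =>
        rw [pow_succ, ← mul_assoc, ih]
        nth_rewrite 1 [hs]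
        rw [mul_add, mul_one, add_mul, smul_mul_assoc, h1, smul_zero, add_zero, succ_nsmul]
        abel
    have h3 := h2 w
    rw [hσ, mul_one, left_eq_add] at h3
    rw [pow_succ]
    exact eq_zero_of_coprime hc h3 (by rw [nsmul_eq_mul, h0, zero_mul])

end ring

section abs

variable {E A : Type*} [AddCommGroup E] [AddCommGroup A]

theorem abs_main (B : E →+ E →+ A) (σ : Module.End ℤ E) (halt : ∀ x, B x x = 0)
    (hnd : ∀ x, (∀ y, B x y = 0) → x = 0) (hσ : ∀ x y, B (σ x) (σ y) = B x y) {w r : ℕ}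
    (hw : Odd w) (hσw : σ ^ w = 1) (hr : r.Prime) (h0 : ∀ x : E, r • x = 0)
    (h : ∀ x, B (σ x - x) (σ (σ x - x)) = 0) :
    σ = 1 ∨ (¬ Nat.Coprime w r ∧ ∃ x, B x (σ x - x) ≠ 0 ∧
      B x (σ (σ x - x) - (σ x - x)) = 0) := by
  have skew : ∀ x y, B x y = - B y x := by
    intro x y
    have := halt (x + y)
    simp only [map_add, AddMonoidHom.add_apply, halt, zero_add, add_zero] at this
    exact eq_neg_of_add_eq_zero_right this
  have hsurj : Function.Surjective σ := by
    intro y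
    obtain ⟨i, rfl⟩ := hw
    exact ⟨(σ ^ (2 * i)) y, by rw [← Module.End.mul_apply, ← pow_succ', hσw]; rfl⟩
  have h0' : (r : Module.End ℤ E) = 0 := by
    ext x
    rw [Module.End.natCast_apply, h0]; rfl
  have h1 : ∀ x y, B (σ x - x) (σ (σ y - y)) = B (σ (σ x - x)) (σ y - y) := by
    intro x y
    have := h (x + y)
    have e : σ (x + y) - (x + y) = (σ x - x) + (σ y - y) := by rw [map_add]; abel
    rw [e] at this
    simp only [map_add, AddMonoidHom.add_apply, h, zero_add, add_zero] at this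
    rw [skew (σ (σ x - x))]
    exact eq_neg_of_add_eq_zero_right this
  have h2 : (σ - 1) ^ 3 * (σ + 1) = 0 := by
    have e : (σ - 1) ^ 3 * (σ + 1) = (σ - 1) * (σ * σ - 1) * (σ - 1) := by noncomm_ring
    rw [e]
    ext y
    apply hnd
    intro u
    obtain ⟨x, rfl⟩ := hsurj u
    have h3 : B (σ x - x) (σ (σ (σ y - y))) = B (σ x - x) (σ y - y) := by
      have := h1 x (σ y)
      rw [← map_sub σ (σ y) y] at this
      rw [this, hσ]
    rw [skew]
    simp only [Module.End.mul_apply, LinearMap.sub_apply, Module.End.one_apply]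
    generalize σ y - y = b at h3 ⊢
    rw [map_sub (B (σ x)), hσ]
    simp only [map_sub, AddMonoidHom.sub_apply] at h3 ⊢
    rw [neg_eq_zero]
    have := sub_eq_zero.2 h3
    rw [← neg_eq_zero, ← this]
    abel
  rcases hr.eq_two_or_odd' with rfl | hodd
  · left
    refine eq_one_of_nil hσw (Nat.coprime_two_right.2 hw) h0' 3 ?_
    have e : σ - 1 = σ + 1 := by
      have : (1 : Module.End ℤ E) + 1 = 0 := by rw [one_add_one_eq_two]; exact_mod_cast h0'
      rw [sub_eq_add_neg, neg_eq_of_add_eq_zero_left this]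
    rw [pow_succ]
    nth_rewrite 2 [e]
    exact h2
  have h3 := cube_zero hw hσw hodd h0' h2
  by_cases hc : Nat.Coprime w r
  · exact Or.inl (eq_one_of_nil hσw hc h0' 2 h3)
  by_cases hx : ∀ x, B x (σ x - x) = 0
  · left
    have hx' : ∀ x, B x (σ x) = 0 := fun x => by simpa [halt] using hx x
    have h4 : σ ^ 2 = 1 := by
      ext y
      rw [← sub_eq_zero]
      apply hnd
      intro x
      have := hx' (x + σ y)
      simp only [map_add, AddMonoidHom.add_apply, hx', zero_add, add_zero, hσ] at this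
      rw [map_sub, AddMonoidHom.sub_apply, pow_two, Module.End.mul_apply, Module.End.one_apply,
        skew (σ (σ y)), eq_neg_of_add_eq_zero_left this, sub_self]
    obtain ⟨i, rfl⟩ := hw
    rwa [pow_succ, pow_mul, h4, one_pow, one_mul] at hσw
  right
  push Not at hx
  obtain ⟨u, hu⟩ := hx
  refine ⟨hc, u, hu, ?_⟩
  obtain ⟨x, rfl⟩ := hsurj u
  have e : (σ - 1) ^ 3 = σ * σ * σ - σ * σ - σ * σ - σ * σ + σ + σ + σ - 1 := by noncomm_ring
  have h5 := congrArg (fun f : Module.End ℤ E => B (σ x) (f x)) h3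
  simp only [e, Module.End.mul_apply, LinearMap.sub_apply, LinearMap.add_apply,
    Module.End.one_apply, LinearMap.zero_apply, map_zero, map_sub, map_add, hσ, halt] at h5
  simp only [map_sub, hσ, halt]
  rw [skew (σ x) x] at h5
  refine Eq.trans ?_ h5
  abel

end abs

section grp

variable {G A : Type*} [Group G] [CommGroup A]

theorem grp_main (z : A →* G) (hz : Function.Injective z) (hzc : ∀ a g, z a * g = g * z a)
    (S : Subgroup G) {w r : ℕ} (hr : r.Prime)
    (hS : ∀ s ∈ S, ∀ t ∈ S, ∃ a, a ^ r = 1 ∧ s * t = z a * (t * s)) (g : G)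
    (hg : ∀ s ∈ S, g * s * g⁻¹ ∈ S) (hw : Odd w) (hgw : g ^ w = 1)
    (h : ∀ x ∈ S, Commute (x * g * x⁻¹ * g⁻¹) (g * (x * g * x⁻¹ * g⁻¹) * g⁻¹)) :
    (∀ x ∈ S, ∀ y ∈ S, Commute (x * g * x⁻¹ * g⁻¹) y) ∨
      (¬ Nat.Coprime w r ∧ ∃ x ∈ S, ¬ Commute x (x * g * x⁻¹ * g⁻¹) ∧
        Commute x (g * (x * g * x⁻¹ * g⁻¹) * g⁻¹ * (x * g * x⁻¹ * g⁻¹)⁻¹)) := by
  choose! β hβr hβ using hS
  have hβ' : ∀ s t : S, z (β s t) = s * t * (s : G)⁻¹ * (t : G)⁻¹ := fun s t => by
    rw [hβ s s.2 t t.2]; group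
  have hone : ∀ s t : S, β s t = 1 ↔ Commute (s : G) t := fun s t => by
    rw [← hz.eq_iff, map_one, hβ', Commute, SemiconjBy, mul_inv_eq_one, mul_inv_eq_iff_eq_mul]
  let φ : S →* S →* A := MonoidHom.mk' (fun s => MonoidHom.mk' (fun t => β s t) fun t u => hz (by
      rw [map_mul, hβ' s (t * u), hβ' s t, Subgroup.coe_mul]
      calc _ = (s : G) * t * (s : G)⁻¹ * (s * u * (s : G)⁻¹ * (u : G)⁻¹ * (t : G)⁻¹) := by group
        _ = _ := by rw [← hβ' s u, hzc]; group))
    fun s t => MonoidHom.ext fun u => hz (by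
      change z (β (s * t : S) u) = z (β s u * β t u)
      rw [map_mul, hβ' (s * t) u, hβ' s u, Subgroup.coe_mul]
      calc _ = (s : G) * (t * u * (t : G)⁻¹ * (u : G)⁻¹) * (u * (s : G)⁻¹ * (u : G)⁻¹) := by group
        _ = _ := by rw [← hβ' t u, mul_assoc, hzc]; group)
  have hφ : ∀ s t : S, φ s t = β s t := fun _ _ => rfl
  have hker : ∀ s : S, s ∈ φ.ker ↔ ∀ t : S, Commute (s : G) t := fun s => by
    rw [MonoidHom.mem_ker, MonoidHom.ext_iff]
    exact forall_congr' fun t => hone s t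
  let κ := QuotientGroup.kerLift φ
  have hκ : Function.Injective κ := QuotientGroup.kerLift_injective φ
  letI : CommGroup (S ⧸ φ.ker) :=
    { (inferInstance : Group (S ⧸ φ.ker)) with
      mul_comm := fun a b => hκ (by rw [map_mul, map_mul, mul_comm]) }
  let ψ : S ⧸ φ.ker →* S ⧸ φ.ker →* A := (QuotientGroup.lift φ.ker κ.flip fun s hs => by
    refine MonoidHom.ext fun t => ?_
    obtain ⟨t, rfl⟩ := QuotientGroup.mk_surjective t
    exact (hone t s).2 ((hker s).1 hs t).symm).flip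
  have hψ : ∀ s t : S, ψ (s : S ⧸ φ.ker) (t : S ⧸ φ.ker) = β s t := fun _ _ => rfl
  let c : S →* S := MonoidHom.mk' (fun s => ⟨g * s * g⁻¹, hg s s.2⟩) fun s t => Subtype.ext (by
    change g * (s * t) * g⁻¹ = g * s * g⁻¹ * (g * t * g⁻¹)
    group)
  have hc : ∀ s : S, (c s : G) = g * s * g⁻¹ := fun _ => rfl
  have hcβ : ∀ s t : S, β (c s) (c t) = β s t := fun s t => hz (by
    rw [hβ', hc, hc]
    calc _ = g * ((s : G) * t * (s : G)⁻¹ * (t : G)⁻¹) * g⁻¹ := by group
      _ = _ := by rw [← hβ', ← hzc]; group)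
  have hcp : ∀ (i : ℕ) (s : S), ((c^[i] s : S) : G) = g ^ i * s * (g ^ i)⁻¹ := by
    intro i s
    induction i with
    | zero => simp
    | succ i ih => rw [Function.iterate_succ_apply', hc, ih]; group
  have hcw : ∀ s : S, c^[w] s = s := fun s => Subtype.ext (by rw [hcp, hgw]; group)
  have hcs : Function.Surjective c := by
    intro s
    obtain ⟨i, rfl⟩ := hw
    exact ⟨c^[2 * i] s, by rw [← Function.iterate_succ_apply' c]; exact hcw s⟩
  let cq : S ⧸ φ.ker →* S ⧸ φ.ker := QuotientGroup.map φ.ker φ.ker c fun s hs => by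
    rw [Subgroup.mem_comap, hker]
    intro t
    obtain ⟨t, rfl⟩ := hcs t
    rw [← hone, hcβ, hone]
    exact (hker s).1 hs t
  have hcq : ∀ s : S, cq (s : S ⧸ φ.ker) = (c s : S ⧸ φ.ker) := fun _ => rfl
  let σ : Module.End ℤ (Additive (S ⧸ φ.ker)) := (MonoidHom.toAdditive cq).toIntLinearMap
  have hσ : ∀ s : S, σ (Additive.ofMul (s : S ⧸ φ.ker)) = Additive.ofMul (c s : S ⧸ φ.ker) :=
    fun _ => rfl
  let B : Additive (S ⧸ φ.ker) →+ Additive (S ⧸ φ.ker) →+ Additive A :=
    AddMonoidHom.mk' (fun x => MonoidHom.toAdditive (ψ x.toMul)) fun x y =>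
      AddMonoidHom.ext fun u => by
        change Additive.ofMul (ψ (x.toMul * y.toMul) u.toMul) =
          Additive.ofMul (ψ x.toMul u.toMul * ψ y.toMul u.toMul)
        rw [map_mul]; rfl
  have hB : ∀ s t : S, B (Additive.ofMul (s : S ⧸ φ.ker)) (Additive.ofMul (t : S ⧸ φ.ker)) =
      Additive.ofMul (β s t) := fun _ _ => rfl
  have hB0 : ∀ s t : S, B (Additive.ofMul (s : S ⧸ φ.ker)) (Additive.ofMul (t : S ⧸ φ.ker)) = 0 ↔
      Commute (s : G) t := fun s t => by rw [hB, ← hone]; rfl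
  have hall : ∀ x : Additive (S ⧸ φ.ker), ∃ s : S, x = Additive.ofMul (s : S ⧸ φ.ker) := fun x => by
    obtain ⟨s, hs⟩ := QuotientGroup.mk_surjective x.toMul
    exact ⟨s, by rw [hs]; rfl⟩
  -- the commutator element
  let k : S → S := fun s => s * (c s)⁻¹
  have hk : ∀ s : S, (k s : G) = s * g * (s : G)⁻¹ * g⁻¹ := fun s => by
    change (s : G) * (g * s * g⁻¹)⁻¹ = _
    group
  have hN : ∀ s : S, σ (Additive.ofMul (s : S ⧸ φ.ker)) - Additive.ofMul (s : S ⧸ φ.ker) =
      - Additive.ofMul (k s : S ⧸ φ.ker) := fun s => by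
    rw [hσ]
    change _ = - Additive.ofMul ((s : S ⧸ φ.ker) * (c s : S ⧸ φ.ker)⁻¹)
    rw [ofMul_mul, ofMul_inv]
    abel
  have main := abs_main B σ (fun x => ?_) (fun x hx => ?_) (fun x y => ?_) hw ?_ hr (fun x => ?_)
    (fun x => ?_)
  · rcases main with h1 | ⟨h1, x, h2, h3⟩
    · left
      intro x hx y hy
      have := hN ⟨x, hx⟩
      rw [h1, Module.End.one_apply, sub_self, eq_comm, neg_eq_zero] at this
      have h2 := (hB0 (k ⟨x, hx⟩) ⟨y, hy⟩).1 (by rw [this]; simp)
      rwa [hk] at h2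
    · right
      obtain ⟨s, rfl⟩ := hall x
      refine ⟨h1, s, s.2, fun h4 => h2 ?_, ?_⟩
      · rw [hN, map_neg, neg_eq_zero, hB0, hk]; exact h4
      · have e : σ (- Additive.ofMul (k s : S ⧸ φ.ker)) - - Additive.ofMul (k s : S ⧸ φ.ker) =
            - Additive.ofMul ((c (k s) * (k s)⁻¹ : S) : S ⧸ φ.ker) := by
          rw [map_neg, hσ]
          generalize k s = u
          rw [QuotientGroup.mk_mul, QuotientGroup.mk_inv, ofMul_mul, ofMul_inv]
          abel
        rw [hN, e, map_neg, neg_eq_zero, hB0, Subgroup.coe_mul, Subgroup.coe_inv, hc, hk] at h3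
        exact h3
  · obtain ⟨s, rfl⟩ := hall x
    exact (hB0 s s).2 (Commute.refl _)
  · obtain ⟨s, rfl⟩ := hall x
    have : s ∈ φ.ker := (hker s).2 fun t => (hB0 s t).1 (hx _)
    rw [(QuotientGroup.eq_one_iff s).2 this]; rfl
  · obtain ⟨s, rfl⟩ := hall x
    obtain ⟨t, rfl⟩ := hall y
    rw [hσ, hσ, hB, hB, hcβ]
  · ext x
    obtain ⟨s, rfl⟩ := hall x
    have : ∀ i : ℕ, (σ ^ i) (Additive.ofMul (s : S ⧸ φ.ker)) =
        Additive.ofMul (c^[i] s : S ⧸ φ.ker) := by
      intro i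
      induction i with
      | zero => rfl
      | succ i ih => rw [pow_succ', Module.End.mul_apply, ih, hσ, Function.iterate_succ_apply']
    rw [this, hcw]; rfl
  · obtain ⟨s, rfl⟩ := hall x
    have : s ^ r ∈ φ.ker := by
      rw [MonoidHom.mem_ker, map_pow]
      exact MonoidHom.ext fun t => hβr s s.2 t t.2
    rw [← ofMul_pow, ← QuotientGroup.mk_pow, (QuotientGroup.eq_one_iff _).2 this]; rfl
  · obtain ⟨s, rfl⟩ := hall x
    rw [hN, map_neg, map_neg, map_neg, AddMonoidHom.neg_apply, neg_neg, hσ, hB0, hc, hk]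
    exact h s s.2

end grp

end Cfsg.Agent.H99.Xs
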