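import Cfsg.Agent.H99.Xs0

/-! Eigenspaces of an element normalising a group with scalar commutators. -/

set_option autoImplicit false
set_option linter.unusedSectionVars false
set_option linter.unusedVariables false

namespace Cfsg.Agent.H99.Xs

open Module Module.End

variable {G F V : Type*} [Group G] [Field F] [AddCommGroup V] [Module F V] [FiniteDimensional F V]
  (ρ : Representation F G V)

theorem rho_mul (a b : G) (v : V) : ρ (a * b) v = ρ a (ρ b v) := by rw [map_mul]; rfl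

theorem rho_inj (a : G) : Function.Injective (ρ a) := fun u v h => by
  rw [← ρ.inv_self_apply a u, h, ρ.inv_self_apply]

theorem finrank_map (a : G) (W : Submodule F V) : finrank F (W.map (ρ a)) = finrank F W :=
  (Submodule.equivMapOfInjective _ (rho_inj ρ a) W).finrank_eq.symm

theorem eig_conj (x h : G) (c : F) :
    eigenspace (ρ (x * h * x⁻¹)) c = (eigenspace (ρ h) c).map (ρ x) := by
  ext v
  rw [mem_eigenspace_iff, Submodule.mem_map]
  constructor
  · intro hv
    refine ⟨ρ x⁻¹ v, mem_eigenspace_iff.2 ?_, ρ.self_inv_apply x v⟩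
    apply rho_inj ρ x
    rw [map_smul, ρ.self_inv_apply, ← hv, rho_mul, rho_mul]
  · rintro ⟨u, hu, rfl⟩
    rw [rho_mul, rho_mul, ρ.inv_self_apply, mem_eigenspace_iff.1 hu, map_smul]

theorem finrank_eig_conj (x h : G) (c : F) :
    finrank F (eigenspace (ρ (x * h * x⁻¹)) c) = finrank F (eigenspace (ρ h) c) := by
  rw [eig_conj, finrank_map]

theorem two_eig (f : End F V) {a b : F} (h : a ≠ b) :
    finrank F (eigenspace f a ⊔ eigenspace f b : Submodule F V) =
      finrank F (eigenspace f a) + finrank F (eigenspace f b) := by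
  rw [← Submodule.finrank_sup_add_finrank_inf_eq]
  have : eigenspace f a ⊓ eigenspace f b = ⊥ := by
    rw [eq_bot_iff]
    rintro v ⟨h1, h2⟩
    have h3 : (a - b) • v = 0 := by
      rw [sub_smul, ← mem_eigenspace_iff.1 h1, ← mem_eigenspace_iff.1 h2, sub_self]
    exact (smul_eq_zero.1 h3).resolve_left (sub_ne_zero.2 h)
  rw [this, finrank_bot, add_zero]

theorem three_eig (f : End F V) {a b c : F} (hab : a ≠ b) (hac : a ≠ c) (hbc : b ≠ c) :
    finrank F (eigenspace f a) + finrank F (eigenspace f b) + finrank F (eigenspace f c) ≤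
      finrank F V := by
  rw [← two_eig f hab, ← Submodule.finrank_sup_add_finrank_inf_eq]
  have : (eigenspace f a ⊔ eigenspace f b) ⊓ eigenspace f c = ⊥ := by
    rw [eq_bot_iff]
    rintro v ⟨h1, h2⟩
    obtain ⟨u, hu, w, hw, rfl⟩ := Submodule.mem_sup.1 h1
    have h3 := mem_eigenspace_iff.1 h2
    have h4 := congrArg f h3
    simp only [map_add, map_smul, mem_eigenspace_iff.1 hu, mem_eigenspace_iff.1 hw] at h3 h4
    have h5 : ((c - a) * (c - b)) • (u + w) = 0 := by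
      linear_combination (norm := module) (a + b - c) • h3 - h4
    exact (smul_eq_zero.1 h5).resolve_left
      (mul_ne_zero (sub_ne_zero.2 hac.symm) (sub_ne_zero.2 hbc.symm))
  rw [this, finrank_bot, add_zero]
  exact Submodule.finrank_le _

variable {ρ} {z : Fˣ →* G} (hz : ∀ a, ρ (z a) = (a : F) • (1 : End F V))

include hz in
theorem rho_z (a : Fˣ) (g : G) (v : V) : ρ (z a * g) v = (a : F) • ρ g v := by
  rw [rho_mul, hz]; rfl

include hz in
theorem eig_z (a : Fˣ) (g : G) (c : F) :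
    eigenspace (ρ (z a * g)) (a * c) = eigenspace (ρ g) c := by
  ext v
  rw [mem_eigenspace_iff, mem_eigenspace_iff, rho_z hz, mul_smul]
  exact smul_right_injective _ a.ne_zero |>.eq_iff

include hz in
theorem z_eq_one {a : Fˣ} {v : V} (hv : v ≠ 0) (h : ρ (z a) v = v) : a = 1 := by
  rw [hz] at h
  have : ((a : F) - 1) • v = 0 := by rw [sub_smul, one_smul, sub_eq_zero]; exact h
  exact Units.ext (sub_eq_zero.1 ((smul_eq_zero.1 this).resolve_right hv))

variable {S : Subgroup G} {r : ℕ} (hr : r.Prime)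
  (hS : ∀ s ∈ S, ∀ t ∈ S, ∃ a : Fˣ, a ^ r = 1 ∧ s * t = z a * (t * s))
  (hnd : ∀ h : G, (∀ y ∈ S, Commute h y) → h ∈ z.range)

include hz hS in
theorem comm_of_fix {s t : G} (hs : s ∈ S) (ht : t ∈ S) {v : V} (hv : v ≠ 0) (h1 : ρ s v = v)
    (h2 : ρ t v = v) : Commute s t := by
  obtain ⟨a, -, ha⟩ := hS s hs t ht
  have h3 := congrArg (fun g => ρ g v) ha
  simp only [rho_mul, h1, h2] at h3
  rw [z_eq_one hz hv h3.symm, map_one, one_mul] at ha
  exact ha

theorem pow_ne_one {a : Fˣ} (hr : r.Prime) (h1 : a ≠ 1) (h2 : a ^ r = 1) {m : ℕ}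
    (hm : ¬ r ∣ m) : a ^ m ≠ 1 := by
  have := Fact.mk hr
  rw [Ne, ← orderOf_dvd_iff_pow_eq_one, orderOf_eq_prime h2 h1]
  exact hm

include hz hr hS hnd in
theorem fix_le {a : G} (ha : a ∈ S) (h1 : a ≠ 1) :
    2 * finrank F (eigenspace (ρ a) 1) ≤ finrank F V ∧
      (r ≠ 2 → 3 * finrank F (eigenspace (ρ a) 1) ≤ finrank F V) := by
  by_cases h : ∀ y ∈ S, Commute a y
  · obtain ⟨μ, rfl⟩ := hnd a h
    have : eigenspace (ρ (z μ)) 1 = ⊥ := by
      rw [eq_bot_iff]
      intro v hv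
      by_contra hv0
      apply h1
      rw [z_eq_one hz (a := μ) hv0 (by rw [mem_eigenspace_iff.1 hv, one_smul]), map_one]
    rw [this]; simp
  push Not at h
  obtain ⟨y, hy, hay⟩ := h
  obtain ⟨ζ, hζ, e⟩ := hS y hy a ha
  have hζ1 : ζ ≠ 1 := by
    rintro rfl
    rw [map_one, one_mul] at e
    exact hay e.symm
  have e' : y * a * y⁻¹ = z ζ * a := by rw [e]; group
  have k : ∀ c : F, finrank F (eigenspace (ρ a) (ζ * c)) = finrank F (eigenspace (ρ a) c) := by
    intro c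
    rw [← finrank_eig_conj ρ y a, e', eig_z hz]
  have k1 := k 1
  have k2 := k ζ
  rw [mul_one] at k1
  have n1 : (1 : F) ≠ ζ := fun h => hζ1 (Units.ext h.symm)
  constructor
  · have := two_eig (ρ a) n1
    have h2 := Submodule.finrank_le (eigenspace (ρ a) 1 ⊔ eigenspace (ρ a) ζ)
    omega
  · intro hr2
    have h2 : ζ ^ 2 ≠ 1 := pow_ne_one hr hζ1 hζ fun h =>
      hr2 ((Nat.prime_dvd_prime_iff_eq hr Nat.prime_two).1 h)
    have := three_eig (ρ a) n1 (c := ζ * ζ) (fun h => h2 (Units.ext (by simp [pow_two, ← h])))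
      (fun h => hζ1 (by simpa using h))
    omega

theorem fix_k {g x : G} {c : F} (hc : c ≠ 0) {v : V} (h1 : ρ g v = c • v)
    (h2 : ρ (x * g * x⁻¹) v = c • v) : ρ (x * g * x⁻¹ * g⁻¹) v = v := by
  apply smul_right_injective V hc
  change c • _ = c • v
  rw [← map_smul, ← h1, rho_mul, ρ.inv_self_apply, h2, h1]

theorem fix_conj {g a : G} {c : F} (hc : c ≠ 0) {v : V} (h1 : ρ g v = c • v) (h2 : ρ a v = v) :
    ρ (g * a * g⁻¹) v = v := by
  apply smul_right_injective V hc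
  change c • _ = c • v
  rw [← map_smul, ← h1, rho_mul, ρ.inv_self_apply, rho_mul, h2]

theorem fix_inv {a : G} {v : V} (h : ρ a v = v) : ρ a⁻¹ v = v := by
  nth_rewrite 1 [← h]; exact ρ.inv_self_apply a v

theorem fix_pow {a : G} {v : V} (h : ρ a v = v) (i : ℕ) : ρ (a ^ i) v = v := by
  induction i with
  | zero => simp
  | succ i ih => rw [pow_succ, rho_mul, h, ih]

theorem eig_zero (g : G) : eigenspace (ρ g) 0 = ⊥ := by
  rw [eq_bot_iff]
  intro v hv
  apply rho_inj ρ g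
  rw [mem_eigenspace_iff.1 hv, zero_smul, map_zero]

theorem two_le (g x : G) (c : F) : 2 * finrank F (eigenspace (ρ g) c) ≤ finrank F V +
    finrank F (eigenspace (ρ g) c ⊓ eigenspace (ρ (x * g * x⁻¹)) c : Submodule F V) := by
  have h1 := Submodule.finrank_sup_add_finrank_inf_eq (eigenspace (ρ g) c)
    (eigenspace (ρ (x * g * x⁻¹)) c)
  have h2 := Submodule.finrank_le (eigenspace (ρ g) c ⊔ eigenspace (ρ (x * g * x⁻¹)) c)
  rw [finrank_eig_conj] at h1
  omega

variable {g : G} (hg : ∀ s ∈ S, g * s * g⁻¹ ∈ S) (hns : g ∉ z.range)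

include hg in
theorem k_mem {x : G} (hx : x ∈ S) : x * g * x⁻¹ * g⁻¹ ∈ S := by
  have := S.mul_mem hx (hg _ (S.inv_mem hx))
  simpa only [mul_assoc] using this

include hnd hns in
theorem exists_k : ∃ x ∈ S, x * g * x⁻¹ * g⁻¹ ≠ 1 := by
  by_contra h
  push Not at h
  refine hns (hnd g fun y hy => ?_)
  have := h y hy
  rw [mul_inv_eq_one, mul_inv_eq_iff_eq_mul] at this
  exact this.symm

include hz hr hS hnd hg hns in
theorem bound_one (c : F) : 4 * finrank F (eigenspace (ρ g) c) ≤ 3 * finrank F V ∧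
    (r ≠ 2 → 3 * finrank F (eigenspace (ρ g) c) ≤ 2 * finrank F V) := by
  rcases eq_or_ne c 0 with rfl | hc
  · rw [eig_zero]; simp
  obtain ⟨x, hx, h1⟩ := exists_k hnd hns
  have h2 := fix_le hz hr hS hnd (k_mem hg hx) h1
  have h3 := two_le (ρ := ρ) g x c
  have h4 : eigenspace (ρ g) c ⊓ eigenspace (ρ (x * g * x⁻¹)) c ≤
      eigenspace (ρ (x * g * x⁻¹ * g⁻¹)) 1 := fun v hv => mem_eigenspace_iff.2 (by
    rw [one_smul]; exact fix_k hc (mem_eigenspace_iff.1 hv.1) (mem_eigenspace_iff.1 hv.2))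
  have h5 := Submodule.finrank_mono h4
  exact ⟨by omega, fun h => by have := h2.2 h; omega⟩

theorem eq_zero_of_pow {b : G} {m : ℕ} (hb : b ^ m = 1) (hm : (m : F) ≠ 0) {u v : V}
    (h1 : ρ b v = v) (h2 : v = ρ b u - u) : v = 0 := by
  have h3 : ∀ i : ℕ, ρ (b ^ i) u = u + (i : F) • v := by
    intro i
    induction i with
    | zero => simp
    | succ i ih =>
      rw [pow_succ', rho_mul, ih, map_add, map_smul, h1, Nat.cast_succ, add_smul, one_smul]
      nth_rewrite 3 [h2]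
      abel
  have h4 := h3 m
  rw [hb, map_one, Module.End.one_apply, left_eq_add] at h4
  exact (smul_eq_zero.1 h4).resolve_left hm

include hz hr hS hnd hg hns in
theorem bound_two (hzc : ∀ a g, z a * g = g * z a) {w : ℕ} (hw : Odd w) (hgw : g ^ w = 1)
    (hwr : Nat.Coprime w r ∨ 3 < r) (c : F) :
    2 * finrank F (eigenspace (ρ g) c) ≤ finrank F V := by
  rcases eq_or_ne c 0 with rfl | hc
  · rw [eig_zero]; simp
  by_contra hlt
  have hT : ∀ x : G, ∃ v : V, v ≠ 0 ∧ ρ g v = c • v ∧ ρ (x * g * x⁻¹) v = c • v := by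
    intro x
    have h3 := two_le (ρ := ρ) g x c
    have h4 : eigenspace (ρ g) c ⊓ eigenspace (ρ (x * g * x⁻¹)) c ≠ ⊥ := by
      intro h
      rw [h, finrank_bot] at h3
      omega
    obtain ⟨v, hv, h0⟩ := Submodule.exists_mem_ne_zero_of_ne_bot h4
    exact ⟨v, h0, mem_eigenspace_iff.1 hv.1, mem_eigenspace_iff.1 hv.2⟩
  have hzi : Function.Injective z := by
    obtain ⟨v, hv, -⟩ := hT 1
    rw [injective_iff_map_eq_one]
    intro a ha
    exact z_eq_one hz hv (by rw [ha]; simp)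
  rcases grp_main z hzi hzc S hr hS g hg hw hgw (fun x hx => by
    obtain ⟨v, hv, h1, h2⟩ := hT x
    exact comm_of_fix hz hS (k_mem hg hx) (hg _ (k_mem hg hx)) hv (fix_k hc h1 h2)
      (fix_conj hc h1 (fix_k hc h1 h2))) with h | ⟨hcop, x, hx, hxa, hxb⟩
  · obtain ⟨x, hx, h1⟩ := exists_k hnd hns
    obtain ⟨v, hv, h2, h3⟩ := hT x
    obtain ⟨μ, hμ⟩ := hnd _ (h x hx)
    apply h1
    rw [← hμ, z_eq_one hz (a := μ) hv (by rw [hμ]; exact fix_k hc h2 h3), map_one]
  have hr3 : 3 < r := hwr.resolve_left hcop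
  obtain ⟨a, ha⟩ : ∃ a, a = x * g * x⁻¹ * g⁻¹ := ⟨_, rfl⟩
  rw [← ha] at hxa hxb
  obtain ⟨b, hb⟩ : ∃ b, b = g * a * g⁻¹ * a⁻¹ := ⟨_, rfl⟩
  rw [← hb] at hxb
  have haS : a ∈ S := ha ▸ k_mem hg hx
  have hbS : b ∈ S := hb ▸ S.mul_mem (hg a haS) (S.inv_mem haS)
  have hfa : ∀ t, ρ g t = c • t → ρ (x * g * x⁻¹) t = c • t → ρ a t = t := fun t h1 h2 =>
    ha ▸ fix_k hc h1 h2
  have hfb : ∀ t, ρ g t = c • t → ρ a t = t → ρ b t = t := fun t h1 h2 => by
    rw [hb, rho_mul, fix_inv h2, fix_conj hc h1 h2]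
  obtain ⟨ζ, hζ, e⟩ := hS x hx a haS
  have hζ1 : ζ ≠ 1 := by
    rintro rfl
    rw [map_one, one_mul] at e
    exact hxa e
  have hζ3 : ζ ^ 3 ≠ 1 := pow_ne_one hr hζ1 hζ fun h => by
    have := Nat.le_of_dvd (by norm_num) h
    omega
  have hrF : (r : F) ≠ 0 := by
    intro h0
    have := Fact.mk hr
    have : CharP F r := (CharP.charP_iff_prime_eq_zero hr).2 h0
    apply hζ1
    apply Units.ext
    have h2 : ((ζ : F) - 1) ^ r = 0 := by
      rw [sub_pow_char, one_pow, ← Units.val_pow_eq_pow_val, hζ, Units.val_one, sub_self]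
    exact sub_eq_zero.1 (pow_eq_zero_iff hr.ne_zero |>.1 h2)
  have hbr : b ^ r = 1 := by
    obtain ⟨μ, hμ⟩ := hnd (b ^ r) fun y hy => by
      obtain ⟨ν, hν, e⟩ := hS b hbS y hy
      have : ∀ i : ℕ, b ^ i * y = z (ν ^ i) * (y * b ^ i) := by
        intro i
        induction i with
        | zero => simp
        | succ i ih =>
          rw [pow_succ', mul_assoc, ih, ← mul_assoc, ← hzc, mul_assoc, ← mul_assoc b, e, pow_succ ν,
            map_mul]
          group
      have h2 := this r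
      rwa [hν, map_one, one_mul] at h2
    obtain ⟨v, hv, h1, h2⟩ := hT x
    rw [← hμ, z_eq_one hz (a := μ) hv (by rw [hμ]; exact fix_pow (hfb v h1 (hfa v h1 h2)) r), map_one]
  -- the three subspaces
  set W := eigenspace (ρ g) c with hW
  set W1 := eigenspace (ρ (x * g * x⁻¹)) c with hW1
  have hdis : (W ⊔ W1) ⊓ ((W ⊓ W1).map (ρ x)).map (ρ x) = ⊥ := by
    rw [eq_bot_iff]
    rintro v ⟨hv1, _, ⟨t, ⟨ht1, ht2⟩, rfl⟩, hv⟩
    have ht1 := mem_eigenspace_iff.1 ht1
    have ht2 := mem_eigenspace_iff.1 ht2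
    have hat := hfa t ht1 ht2
    have hbt := hfb t ht1 hat
    have ex : ∀ u, ρ a⁻¹ (ρ x u) = (ζ : F) • ρ x (ρ a⁻¹ u) := fun u => by
      rw [← rho_mul, ← rho_mul, ← rho_z hz]
      congr 2
      calc a⁻¹ * x = a⁻¹ * (x * a) * a⁻¹ := by group
        _ = _ := by rw [e, hzc ζ (a * x), hzc ζ]
                    calc _ = x * (z ζ * a⁻¹) := by group
                      _ = _ := by rw [hzc]; group
    have eg : ∀ u, ρ g (ρ x u) = ρ a⁻¹ (ρ x (ρ g u)) := fun u => by
      rw [← rho_mul, ← rho_mul, ← rho_mul, ha]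
      congr 2
      group
    have eg1 : ∀ u, ρ g u = ρ a⁻¹ (ρ (x * g * x⁻¹) u) := fun u => by
      rw [← rho_mul, ha]
      congr 2
      group
    have eg2 : ∀ u, ρ (x * g * x⁻¹) (ρ a⁻¹ u) = ρ b⁻¹ (ρ a⁻¹ (ρ (x * g * x⁻¹) u)) := fun u => by
      rw [← rho_mul, ← rho_mul, ← rho_mul, hb, ha]
      congr 2
      group
    have a0 := fix_inv hat
    have a1 : ρ a⁻¹ (ρ x t) = (ζ : F) • ρ x t := by rw [ex, a0]
    have a2 : ρ a⁻¹ v = ((ζ : F) * ζ) • v := by rw [← hv, ex, a1, map_smul, smul_smul]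
    have g1 : ρ g (ρ x t) = (c * ζ) • ρ x t := by rw [eg, ht1, map_smul, map_smul, a1, smul_smul]
    have g2 : ρ g v = (c * ζ * (ζ * ζ)) • v := by
      nth_rewrite 1 [← hv]
      rw [eg, g1, map_smul, map_smul, hv, a2, smul_smul]
    have g3 : ρ (x * g * x⁻¹) v = (c * ζ) • v := by
      apply rho_inj ρ a⁻¹
      rw [← eg1, g2, map_smul, a2, smul_smul]
    have b2 : ρ b⁻¹ v = v := by
      apply fix_inv
      rw [← hv, ← rho_mul, ← hxb.eq, rho_mul, ← rho_mul ρ b, ← hxb.eq, rho_mul, hbt]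
    obtain ⟨w0, hw0, w1, hw1, hv'⟩ := Submodule.mem_sup.1 hv1
    have hw0 := mem_eigenspace_iff.1 hw0
    have hw1 := mem_eigenspace_iff.1 hw1
    have s1 : ((ζ : F) ^ 3 - 1) • v = ρ a⁻¹ w1 - w1 := by
      apply smul_right_injective V hc
      have h1 := congrArg (ρ g) hv'
      rw [g2, map_add, hw0, eg1 w1, hw1, map_smul] at h1
      change c • _ = c • _
      linear_combination (norm := module) c • hv' - h1
    have s2 : (((ζ : F) - 1) * ((ζ : F) ^ 3 - 1)) • v = ρ b⁻¹ (ρ a⁻¹ w1) - ρ a⁻¹ w1 := by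
      apply smul_right_injective V hc
      have h1 := congrArg (ρ (x * g * x⁻¹)) s1
      rw [map_smul, g3, map_sub, eg2, hw1, map_smul, map_smul] at h1
      change c • _ = c • _
      linear_combination (norm := module) h1 - c • s1
    have s3 := eq_zero_of_pow (ρ := ρ) (b := b⁻¹) (m := r) (by rw [inv_pow, hbr, inv_one]) hrF
      (by rw [map_smul, b2]) s2
    refine (smul_eq_zero.1 s3).resolve_left (mul_ne_zero (sub_ne_zero.2 fun h => ?_)
      (sub_ne_zero.2 fun h => ?_))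
    · exact hζ1 (Units.ext h)
    · exact hζ3 (Units.ext (by simpa using h))
  have h1 := Submodule.finrank_sup_add_finrank_inf_eq (W ⊔ W1) (((W ⊓ W1).map (ρ x)).map (ρ x))
  rw [hdis, finrank_bot, finrank_map, finrank_map] at h1
  have h2 := Submodule.finrank_sup_add_finrank_inf_eq W W1
  have h3 := Submodule.finrank_le (W ⊔ W1 ⊔ ((W ⊓ W1).map (ρ x)).map (ρ x))
  have h4 : finrank F W1 = finrank F W := finrank_eig_conj ρ x g c
  omega

end Cfsg.Agent.H99.Xs
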